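import Cfsg.Agent.H20.LD4Kit
import Cfsg.Agent.H8.SylowInf
import Mathlib.GroupTheory.Transfer

/-! LD4 (blueprints/LD4.md): monomial matrices, transfer, weak closure. -/

set_option autoImplicit false

namespace H20.LD

open Cfsg Cfsg.Geo Matrix
open scoped MatrixGroups commutatorElement

universe u v

variable {k : Type u} [Field k] {X : Type u} [Group X] {Γ : Type v} [Group Γ] {p : ℕ}
  {ρ : X →* G4 k} {π : X →* Γ} {g g' : G4 k} {σ τ : Equiv.Perm (Fin 4)}

/-! ### Monomial matrices -/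

theorem Mon.mul_apply (h : Mon g' τ) (M : M4 k) (i j : Fin 4) :
    (M * g'.val) i j = M i (τ j) * g'.val (τ j) j := by
  rw [Matrix.mul_apply, Finset.sum_eq_single (τ j)]
  · exact fun b _ hb => by rw [h b j hb, mul_zero]
  · simp

theorem Mon.apply_mul (h : Mon g σ) (M : M4 k) (i j : Fin 4) :
    (g.val * M) (σ i) j = g.val (σ i) i * M i j := by
  rw [Matrix.mul_apply, Finset.sum_eq_single i]
  · exact fun b _ hb => by rw [h _ b (σ.injective.ne hb.symm), zero_mul]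
  · simp

theorem Mon.mul (h : Mon g σ) (h' : Mon g' τ) : Mon (g * g') (σ * τ) := fun i j e => by
  rw [Units.val_mul, h'.mul_apply, h i _ e, zero_mul]

theorem Mon.ne (h : Mon g σ) (j : Fin 4) : g.val (σ j) j ≠ 0 := fun e => by
  have := h.mul_apply (g⁻¹).val j j
  rw [val_inv_mul, e, mul_zero, one_apply_eq] at this
  exact one_ne_zero this

theorem Mon.inv (h : Mon g σ) : Mon g⁻¹ σ⁻¹ := fun i j e => by
  have := h.apply_mul (g⁻¹).val i j
  rw [val_mul_inv, one_apply_ne (fun a => e (by rw [← a]; simp))] at this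
  exact (mul_eq_zero.1 this.symm).resolve_left (h.ne i)

theorem Mon.inv_apply (h : Mon g σ) (j : Fin 4) : (g⁻¹).val j (σ j) = (g.val (σ j) j)⁻¹ := by
  have := h.mul_apply (g⁻¹).val j j
  rw [val_inv_mul, one_apply_eq] at this
  exact eq_inv_of_mul_eq_one_left this.symm

theorem Mon.unique (h : Mon g σ) (h' : Mon g τ) : σ = τ :=
  Equiv.ext fun j => by_contra fun e => h.ne j (h' _ j e)

theorem Mon.eq_of_ne (h : Mon g σ) {i j : Fin 4} (e : g.val i j ≠ 0) : i = σ j :=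
  by_contra fun a => e (h i j a)

theorem mon_one : Mon (1 : G4 k) 1 := fun _ _ e => one_apply_ne e

theorem Mon.pow (h : Mon g σ) (n : ℕ) : Mon (g ^ n) (σ ^ n) := by
  induction n with
  | zero => simpa using mon_one
  | succ n ih => rw [pow_succ, pow_succ]; exact ih.mul h

theorem mon_of_diagonal {d : Fin 4 → k} (h : g.val = diagonal d) : Mon g 1 := fun i j e => by
  rw [h]; exact diagonal_apply_ne _ e

theorem Mon.eq_diagonal (h : Mon g 1) : g.val = diagonal fun i => g.val i i := by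
  ext i j
  by_cases e : i = j
  · rw [e, diagonal_apply_eq]
  · rw [h i j e, diagonal_apply_ne _ e]

theorem Mon.smul (h : Mon g σ) {c : k} (e : g'.val = c • g.val) : Mon g' σ := fun i j a => by
  rw [e, Matrix.smul_apply, h i j a, smul_zero]

theorem mon_of_permMatrix {c : k} (h : g.val = c • σ.permMatrix k) : Mon g σ⁻¹ := fun i j e => by
  have : σ i ≠ j := fun a => e (by rw [← a]; simp)
  simp [h, Equiv.Perm.permMatrix, PEquiv.toMatrix_apply, this]

theorem Mon.trace_eq_zero (h : Mon g σ) (e : ∀ i, σ i ≠ i) : g.val.trace = 0 :=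
  Finset.sum_eq_zero fun i _ => h i i (e i).symm

theorem Mon.det (h : Mon g σ) : g.val.det = ((Equiv.Perm.sign σ : ℤ) : k) * ∏ j, g.val (σ j) j := by
  rw [det_apply', Finset.sum_eq_single σ]
  · intro τ _ e
    obtain ⟨j, hj⟩ : ∃ j, τ j ≠ σ j := by_contra fun a => e (Equiv.ext (by simpa using a))
    rw [Finset.prod_eq_zero (f := fun i => g.val (τ i) i) (Finset.mem_univ j) (h _ _ hj), mul_zero]
  · simp

/-- Conjugation of a diagonal matrix. -/
theorem Mon.conj_diagonal (h : Mon g σ) (d : Fin 4 → k) :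
    g.val * diagonal d * (g⁻¹).val = diagonal fun i => d (σ⁻¹ i) := by
  have : g.val * diagonal d = (diagonal fun i => d (σ⁻¹ i)) * g.val := by
    ext i j
    rw [mul_diagonal, diagonal_mul]
    by_cases e : i = σ j
    · rw [e, mul_comm]; simp
    · rw [h i j e, zero_mul, mul_zero]
  rw [this, mul_assoc, val_mul_inv, mul_one]

/-- QUAD: a monomial matrix with `g² = a g + b`, `a ≠ 0`, is diagonal. -/
theorem Mon.eq_one_of_quad (h : Mon g σ) {a b : k} (ha : a ≠ 0)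
    (e : g.val * g.val = a • g.val + b • 1) : σ = 1 :=
  Equiv.ext fun j => by_contra fun hj => by
    have h1 := congrFun (congrFun e (σ j)) j
    rw [h.mul_apply, h (σ j) (σ j) fun c => hj (σ.injective c).symm, zero_mul, Matrix.add_apply,
      Matrix.smul_apply, Matrix.smul_apply, one_apply_ne (show σ j ≠ j from hj), smul_zero, add_zero] at h1
    exact mul_ne_zero ha (h.ne j) h1.symm

/-- A matrix which intertwines two diagonal matrices. -/
theorem eq_zero_of_mul_diagonal {M : M4 k} {d e : Fin 4 → k} (h : M * diagonal d = diagonal e * M)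
    {i j : Fin 4} (hij : d j ≠ e i) : M i j = 0 := by
  have := congrFun (congrFun h i) j
  rw [mul_diagonal, diagonal_mul, mul_comm (e i)] at this
  exact by_contra fun a => hij (mul_left_cancel₀ a this)

/-- If every column (or row) has at most one nonzero entry then `g` is monomial. -/
theorem exists_mon_of_col (h : ∀ i i' j, g.val i j ≠ 0 → g.val i' j ≠ 0 → i = i') : ∃ σ, Mon g σ := by
  obtain ⟨σ, hσ⟩ := exists_perm_ne_zero (val_det_ne_zero g)
  exact ⟨σ, fun i j e => by_contra fun a => e (h _ _ _ a (hσ j))⟩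

theorem exists_mon_of_row (h : ∀ i j j', g.val i j ≠ 0 → g.val i j' ≠ 0 → j = j') : ∃ σ, Mon g σ := by
  obtain ⟨σ, hσ⟩ := exists_perm_ne_zero (val_det_ne_zero g)
  exact ⟨σ, fun i j e => by_contra fun a => e (by
    rw [h i j (σ⁻¹ i) a (by simpa using hσ (σ⁻¹ i))]; simp)⟩

theorem Mon.map_mul {x y : X} (h : Mon (ρ x) σ) (h' : Mon (ρ y) τ) : Mon (ρ (x * y)) (σ * τ) := by
  rw [_root_.map_mul]; exact h.mul h'

theorem Mon.map_inv {x : X} (h : Mon (ρ x) σ) : Mon (ρ x⁻¹) σ⁻¹ := by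
  rw [_root_.map_inv]; exact h.inv

theorem Mon.map_pow {x : X} (h : Mon (ρ x) σ) (n : ℕ) : Mon (ρ (x ^ n)) (σ ^ n) := by
  rw [_root_.map_pow]; exact h.pow n

theorem R4.mon_congr (h : R4 p ρ π) {x y : X} (e : π x = π y) (hx : Mon (ρ x) σ) : Mon (ρ y) σ := by
  obtain ⟨c, -, hc⟩ := h.exists_smul e
  exact hx.smul hc

theorem R4.mon_ker (h : R4 p ρ π) {x : X} (e : π x = 1) : Mon (ρ x) 1 :=
  h.mon_congr (x := 1) (by rw [e, map_one]) (by rw [map_one]; exact mon_one)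

/-- The monomial elements of `X`. -/
def monX (ρ : X →* G4 k) : Subgroup X where
  carrier := {x | ∃ σ, Mon (ρ x) σ}
  mul_mem' := fun ⟨_, a⟩ ⟨_, b⟩ => ⟨_, a.map_mul b⟩
  one_mem' := ⟨1, by rw [map_one]; exact mon_one⟩
  inv_mem' := fun ⟨_, a⟩ => ⟨_, a.map_inv⟩

theorem mem_monX {x : X} : x ∈ monX ρ ↔ ∃ σ, Mon (ρ x) σ := Iff.rfl

/-- The permutation of a monomial element. -/
noncomputable def sg (ρ : X →* G4 k) : monX ρ →* Equiv.Perm (Fin 4) :=
  MonoidHom.mk' (fun x => x.2.choose) fun x y =>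
    (x * y).2.choose_spec.unique (x.2.choose_spec.map_mul y.2.choose_spec)

theorem mon_sg (x : monX ρ) : Mon (ρ x) (sg ρ x) := x.2.choose_spec

theorem sg_eq {x : monX ρ} (h : Mon (ρ x) σ) : sg ρ x = σ := (mon_sg x).unique h

/-- The monomial elements of `Γ`. -/
theorem R4.mem_map_monX (h : R4 p ρ π) {x : X} : π x ∈ (monX ρ).map π ↔ ∃ σ, Mon (ρ x) σ :=
  ⟨fun ⟨_, ⟨σ, a⟩, e⟩ => ⟨σ, h.mon_congr e a⟩, fun a => Subgroup.mem_map_of_mem π a⟩

/-- The permutation of a monomial element of `Γ`. -/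
theorem R4.exists_sg (h : R4 p ρ π) (S : Subgroup Γ) (hS : ∀ x, π x ∈ S → ∃ σ, Mon (ρ x) σ) :
    ∃ s : S →* Equiv.Perm (Fin 4), ∀ x (hx : π x ∈ S), Mon (ρ x) (s ⟨π x, hx⟩) := by
  have : ∀ y : S, ∃ σ, ∀ x, π x = y → Mon (ρ x) σ := fun y => by
    obtain ⟨x, hx⟩ := h.surj y
    obtain ⟨σ, a⟩ := hS x (hx ▸ y.2)
    exact ⟨σ, fun x' e => h.mon_congr (hx.trans e.symm) a⟩
  choose s hs using this
  refine ⟨MonoidHom.mk' s fun a b => ?_, fun x hx => hs _ x rfl⟩
  obtain ⟨x, hx⟩ := h.surj a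
  obtain ⟨y, hy⟩ := h.surj b
  exact (hs (a * b) (x * y) (by rw [_root_.map_mul, hx, hy]; rfl)).unique
    ((hs a x hx).map_mul (hs b y hy))

/-! ### Transfer and weak closure -/

section transfer

variable {G : Type*} [Group G] [Finite G] {A : Type*} [CommGroup A]

theorem tr_index (hG : commutator G = ⊤) {H : Subgroup G} (d : H →* A) {x : G} {a : A}
    (key : ∀ (g : G) (j : ℕ) (h : g * x ^ j * g⁻¹ ∈ H), d ⟨_, h⟩ = a ^ j) : a ^ H.index = 1 := by
  classical
  let _ := Fintype.ofFinite (Quotient (MulAction.orbitRel (Subgroup.zpowers x) (G ⧸ H)))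
  have h1 : d.transfer x = 1 := Abelianization.commutator_subset_ker d.transfer (hG ▸ trivial)
  rw [MonoidHom.transfer_eq_prod_quotient_orbitRel_zpowers_quot] at h1
  rw [Subgroup.index_eq_sum_minimalPeriod H x, ← Finset.prod_pow_eq_pow_sum, ← h1]
  refine Finset.prod_congr rfl fun q _ => ?_
  rw [← key q.out.out⁻¹ _ (by simpa using QuotientGroup.out_conj_pow_minimalPeriod_mem H x q.out)]
  simp

theorem eq_one_of_odd_of_two {a : A} {m n : ℕ} (hm : Odd m) (h1 : a ^ m = 1) (h2 : a ^ 2 ^ n = 1) :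
    a = 1 := by
  have : m.gcd (2 ^ n) = 1 := (Nat.coprime_two_right.2 hm).pow_right n
  simpa [this] using pow_gcd_eq_one.2 ⟨h1, h2⟩

/-- TR. -/
theorem tr_lemma (hG : commutator G = ⊤) (S : Sylow 2 G) (d : (S : Subgroup G) →* A) {x : G}
    (hx : x ∈ (S : Subgroup G))
    (key : ∀ (g : G) (j : ℕ) (h : g * x ^ j * g⁻¹ ∈ (S : Subgroup G)), d ⟨_, h⟩ = d ⟨x, hx⟩ ^ j) :
    d ⟨x, hx⟩ = 1 := by
  obtain ⟨n, hn⟩ := S.isPGroup' ⟨x, hx⟩
  exact eq_one_of_odd_of_two (Nat.odd_iff.2 (Nat.two_dvd_ne_zero.1 S.not_dvd_index))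
    (tr_index hG d key) (by rw [← map_pow, hn, map_one])

/-- TR for an involution. -/
theorem tr_invol (hG : commutator G = ⊤) (S : Sylow 2 G) (d : (S : Subgroup G) →* A) {x : G}
    (hx : x ∈ (S : Subgroup G)) (h2 : x * x = 1)
    (key : ∀ (g : G) (h : g * x * g⁻¹ ∈ (S : Subgroup G)), d ⟨_, h⟩ = d ⟨x, hx⟩) :
    d ⟨x, hx⟩ = 1 := by
  have h3 : d ⟨x, hx⟩ ^ 2 = 1 := by
    rw [← map_pow, ← map_one d]; congr 1; exact Subtype.ext (by simp [sq, h2])
  refine tr_lemma hG S d hx fun g j h => ?_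
  obtain ⟨m, rfl | rfl⟩ := Nat.even_or_odd' j
  · rw [pow_mul (d _), h3, one_pow, ← map_one d]
    congr 1
    exact Subtype.ext (by simp [pow_mul, sq, h2])
  · have e : x ^ (2 * m + 1) = x := by rw [pow_succ, pow_mul, sq, h2, one_pow, one_mul]
    rw [pow_succ (d _), pow_mul (d _), h3, one_pow, one_mul, ← key g (e ▸ h)]
    congr 1
    exact Subtype.ext (by simp only [e])

/-- WC: a weakly closed subgroup controls fusion in its centraliser. -/
theorem wc_lemma {S : Sylow 2 G} {D : Subgroup G} (hD : D ≤ S)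
    (hw : ∀ g : G, (∀ a ∈ D, g * a * g⁻¹ ∈ (S : Subgroup G)) → ∀ a ∈ D, g * a * g⁻¹ ∈ D) {x g : G}
    (hx : ∀ a ∈ D, Commute a x) (hg : ∀ a ∈ D, Commute a (g * x * g⁻¹)) :
    ∃ n : G, (∀ a, a ∈ D ↔ n * a * n⁻¹ ∈ D) ∧ g * x * g⁻¹ = n * x * n⁻¹ := by
  refine H8.weaklyClosed_control (P := S) ⟨hD, fun g hg => ?_⟩ hx hg
  refine Subgroup.eq_of_le_of_card_ge ?_ (Subgroup.card_map_of_injective
    (MulAut.conj g).injective).ge
  rintro _ ⟨a, ha, rfl⟩
  exact hw g (fun b hb => hg ⟨b, hb, rfl⟩) a ha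

end transfer

theorem R4.perfΓ (h : R4 p ρ π) : commutator Γ = ⊤ := by
  rw [commutator_def, ← Subgroup.map_top_of_surjective π h.surj, ← Subgroup.map_commutator,
    ← commutator_def, h.perf]

theorem R4.finite (h : R4 p ρ π) [Finite X] : Finite Γ := Finite.of_surjective π h.surj

/-- TR in the covering group. -/
theorem R4.tr_lemma (h : R4 p ρ π) [Finite X] {A : Type*} [CommGroup A] (S : Sylow 2 Γ)
    (d : (S : Subgroup Γ).comap π →* A) {x : X} (hx : x ∈ (S : Subgroup Γ).comap π)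
    (key : ∀ (g : X) (j : ℕ) (h : g * x ^ j * g⁻¹ ∈ (S : Subgroup Γ).comap π),
      d ⟨_, h⟩ = d ⟨x, hx⟩ ^ j) : d ⟨x, hx⟩ = 1 := by
  have := h.finite
  obtain ⟨n, hn⟩ := S.isPGroup' ⟨π x, hx⟩
  refine eq_one_of_odd_of_two (n := n + 2) ?_ (tr_index h.perf d key) ?_
  · rw [Subgroup.index_comap_of_surjective _ h.surj]
    exact Nat.odd_iff.2 (Nat.two_dvd_ne_zero.1 S.not_dvd_index)
  · rw [← map_pow, ← map_one d]
    congr 1
    refine Subtype.ext ?_
    change x ^ 2 ^ (n + 2) = 1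
    rw [pow_add, pow_mul]
    exact h.pow_four (by rw [map_pow]; exact congrArg Subtype.val hn)

/-- The preimage of a 2-subgroup is a 2-subgroup. -/
theorem R4.isPGroup_comap (h : R4 p ρ π) {S : Subgroup Γ} (hS : IsPGroup 2 S) :
    IsPGroup 2 (S.comap π) := fun x => by
  obtain ⟨n, hn⟩ := hS ⟨π x, x.2⟩
  refine ⟨n + 2, Subtype.ext ?_⟩
  change (x : X) ^ 2 ^ (n + 2) = 1
  rw [pow_add, pow_mul]
  exact h.pow_four (by rw [map_pow]; exact congrArg Subtype.val hn)

end H20.LD
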