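import Cfsg.Agent.H20.CN2
import Cfsg.Agent.H49.FinalAB
import Cfsg.Agent.H51.Api2
import Cfsg.Agent.H51.MinSimple
import Cfsg.Agent.H5.FrobThm

/-! Minimal simple CN-groups of odd order: Sylow subgroups are TI. -/

set_option autoImplicit false
set_option linter.unusedSectionVars false

namespace H20

open Cfsg H46 H49

universe u

section TypeLevel

variable {G : Type*} [Group G] [Finite G] {p : ℕ} [hp : Fact p.Prime]

theorem cn_pPrimeCore_eq_bot (hCN : IsCNGroup G) (hO : pCore p G ≠ ⊥) (P : Sylow p G)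
    (hP : ¬ (P : Subgroup G).Normal) : pPrimeCore p G = ⊥ := by
  by_contra hne
  obtain ⟨⟨a, ha⟩, ha1⟩ := Subgroup.ne_bot_iff_exists_ne_one.1 hne
  have ha1' : a ≠ 1 := fun h => ha1 (Subtype.ext h)
  obtain ⟨⟨h, hh⟩, hh1⟩ := Subgroup.ne_bot_iff_exists_ne_one.1 hO
  have hh1' : h ≠ 1 := fun h => hh1 (Subtype.ext h)
  have hc : ∀ Q : Sylow p G, (Q : Subgroup G) ≤ Subgroup.centralizer ({a} : Set G) :=
    fun Q x hx => mem_cent1.2 (cn_commute_p hCN Q.isPGroup' (H2.pCore_le_sylow Q hh) hh1'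
      (hp.out.coprime_iff_not_dvd.1 (H2.coprime_orderOf_of_mem_pPrimeCore ha).symm)
      (H2.pCore_le_centralizer_pPrimeCore p G hh a ha) x hx).symm
  refine hP ⟨fun x hx g => ?_⟩
  obtain ⟨k, hk⟩ := (IsPGroup.iff_orderOf.1 P.isPGroup') ⟨x, hx⟩
  rw [← Subgroup.orderOf_coe] at hk
  have h1 := mem_of_nil_of_isPGroup (hCN a ha1') (hc P) P.isPGroup'
    (hc (g • P) (x := g * x * g⁻¹) ⟨x, hx, rfl⟩) (k := k) (by rw [H24.orderOf_conj']; exact hk)
  rw [← P.is_maximal' h1 le_sup_left]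
  exact Subgroup.mem_sup_right (Subgroup.mem_zpowers _)

theorem three_step_le_pCore (h : IsThreeStepGroup p G) {a : G} (ha1 : a ≠ 1)
    (ha : ¬ p ∣ orderOf a) {D : Subgroup G} (hD : IsPGroup p D)
    (haD : a ∈ Subgroup.normalizer (D : Set G)) : D ≤ pCore p G := by
  obtain ⟨-, A, -, -, -, hAp, hN, -, ⟨n, hn⟩, -, hF⟩ := h
  set f := QuotientGroup.mk' (pCore p G) with hf
  have hker : ∀ x, f x = 1 ↔ x ∈ pCore p G := fun x => QuotientGroup.eq_one_iff x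
  have hsup : ∀ x ∈ pCore p G ⊔ A, ∃ a ∈ A, f a = f x := fun x hx => by
    have : pCore p G ⊔ A = (A.map f).comap f := by
      rw [Subgroup.comap_map_eq, QuotientGroup.ker_mk', sup_comm]
    rw [this] at hx
    exact hx
  have hp1 : ∀ x ∈ pCore p G ⊔ A, x ∈ D → x ∈ pCore p G := fun x hx hxD => by
    obtain ⟨b, hb, e⟩ := hsup x hx
    obtain ⟨k, hk⟩ := (IsPGroup.iff_orderOf.1 hD) ⟨x, hxD⟩
    rw [← Subgroup.orderOf_coe] at hk
    rw [← hker, ← orderOf_eq_one_iff]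
    refine Nat.eq_one_of_dvd_coprimes (hAp.pow_right k) ?_ (hk ▸ orderOf_map_dvd f x)
    rw [← e]
    exact (orderOf_map_dvd f b).trans (Subgroup.orderOf_dvd_natCard A hb)
  have haN : a ∈ pCore p G ⊔ A := by
    rw [← QuotientGroup.eq_one_iff, ← orderOf_eq_one_iff]
    refine Nat.eq_one_of_dvd_coprimes ((hp.out.coprime_iff_not_dvd.2 ha).pow_left n) ?_
      (orderOf_map_dvd (QuotientGroup.mk' _) a)
    rw [← hn]
    exact orderOf_dvd_natCard _
  obtain ⟨b, hb, e⟩ := hsup a haN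
  have hb1 : b ≠ 1 := by
    rintro rfl
    rw [map_one, eq_comm, hker] at e
    obtain ⟨k, hk⟩ := (IsPGroup.iff_orderOf.1 (H2.pCore_isPGroup p G)) ⟨a, e⟩
    rw [← Subgroup.orderOf_coe] at hk
    exact ha1 (orderOf_eq_one_iff.1 (Nat.eq_one_of_dvd_coprimes
      ((hp.out.coprime_iff_not_dvd.2 ha).pow_left k) (hk ▸ dvd_rfl) dvd_rfl))
  intro d hd
  refine hp1 d ?_ hd
  by_contra hdN
  apply hF d hdN b hb hb1
  have h1 : d * a * d⁻¹ * a⁻¹ ∈ pCore p G := by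
    apply hp1
    · exact Subgroup.mul_mem _ (hN.conj_mem a haN d) (Subgroup.inv_mem _ haN)
    · rw [mul_assoc, mul_assoc, ← mul_assoc a]
      exact D.mul_mem hd ((Subgroup.mem_normalizer_iff.1 haD _).1 (D.inv_mem hd))
  rw [← hker] at h1 ⊢
  simpa only [map_mul, map_inv, e] using h1

theorem three_step_not_le_commutator (h : IsThreeStepGroup p G) (P : Sylow p G) :
    ¬ (P : Subgroup G) ≤ commutator G := by
  obtain ⟨-, A, -, -, -, -, hN, hne, ⟨n, hn⟩, -, -⟩ := h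
  intro hle
  set N := pCore p G ⊔ A
  have hQ : IsPGroup p (G ⧸ N) := IsPGroup.of_card hn
  have : Nontrivial (G ⧸ N) := QuotientGroup.nontrivial_iff.2 hne
  have := hQ.isNilpotent
  have h1 : commutator (G ⧸ N) ≠ ⊤ := (Group.IsSolvable.commutator_lt_top_of_nontrivial _).ne
  have h2 : (P : Subgroup G) ≤ (commutator (G ⧸ N)).comap (QuotientGroup.mk' N) := by
    refine hle.trans ?_
    rw [← Subgroup.map_le_iff_le_comap, commutator_def, Subgroup.map_commutator]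
    exact Subgroup.commutator_mono le_top le_top
  have h3 := Subgroup.index_dvd_of_le h2
  rw [Subgroup.index_comap_of_surjective _ (QuotientGroup.mk'_surjective N)] at h3
  obtain ⟨k, hk⟩ := hQ.index (commutator (G ⧸ N))
  apply P.not_dvd_index (dvd_trans ?_ h3)
  rw [hk]
  refine dvd_pow_self p ?_
  rintro rfl
  exact h1 (Subgroup.index_eq_one.1 (by simpa using hk))

end TypeLevel

variable {G : Type u} [Group G] [Finite G] (hG : IsMinSimpleOddOrder G) (hCN : IsCNGroup G)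
  {p : ℕ} [hp : Fact p.Prime]
include hG hCN

theorem cn_bad {Y D S : Subgroup G} (hY : Y ≠ ⊤) (hD : D ⊴ Y) (hDp : IsPGroup p D) (hD1 : D ≠ ⊥)
    (hS : IsSylowOf p S Y) (hn : ¬ Y ≤ Nrm S) :
    ZL S ⊴ Y ∧ ¬ S ≤ ⁅Y, Y⁆ ∧ ∀ X E : Subgroup G, X ≤ Y → E ⊴ X → IsPGroup p E → ¬ IsPGroup p X →
      E ≤ Op p Y := by
  have := H51.mFT_sol hG hY
  obtain ⟨P, rfl⟩ := hS.exists_sylow
  have hO : pCore p Y ≠ ⊥ := fun h => hD1 (by
    have := le_piCoreOf (isPi_of_isPGroup hp.out hDp) hD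
    rw [show piCoreOf {p} Y = _ from H51.Op_eq hp.out Y, h, Subgroup.map_bot] at this
    exact eq_bot_iff.2 this)
  have hP : ¬ (P : Subgroup Y).Normal := fun h => hn (normalIn_map_subtype h).2
  have h3 := cn_three_step (cn_subgroup hCN Y) hO P hP
  refine ⟨T6_2b.out (H51.mFT_odd hG Y) this hS ?_, fun h => ?_, fun X E hX hE hEp hXp => ?_⟩
  · rw [H51.Op'_eq hp.out, cn_pPrimeCore_eq_bot (cn_subgroup hCN Y) hO P hP, Subgroup.map_bot]
  · apply three_step_not_le_commutator h3 P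
    rw [← Subgroup.map_subtype_commutator] at h
    exact (Subgroup.map_le_map_iff_of_injective Y.subtype_injective).1 h
  · have : ∃ q : ℕ, q.Prime ∧ q ∣ Nat.card X ∧ q ≠ p := by
      by_contra h
      push Not at h
      exact hXp ((isPi_singleton hp.out).1 fun q hq hd => h q hq hd)
    obtain ⟨q, hq, hqd, hqp⟩ := this
    have : Fact q.Prime := ⟨hq⟩
    obtain ⟨a, ha⟩ := exists_prime_orderOf_dvd_card' (G := X) q hqd
    rw [← Subgroup.orderOf_coe] at ha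
    have ha' : orderOf (⟨a, hX a.2⟩ : Y) = q := by rw [← Subgroup.orderOf_coe]; exact ha
    rw [H51.Op_eq hp.out, ← Subgroup.map_subgroupOf_eq_of_le (hE.1.trans hX)]
    refine Subgroup.map_mono (three_step_le_pCore h3 (a := ⟨a, hX a.2⟩)
      (fun h => hq.one_lt.ne (by simpa [h] using ha'))
      (fun h => hqp ((Nat.prime_dvd_prime_iff_eq hp.out hq).1 (ha' ▸ h)).symm) hEp.comap_subtype ?_)
    rw [← Subgroup.subgroupOf_normalizer_eq (hE.1.trans hX)]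
    exact hE.2 a.2

theorem cn_ZL_eq (P Q : Sylow p G) (h : (P : Subgroup G) ⊓ Q ≠ ⊥) :
    ZL (P : Subgroup G) = ZL (Q : Subgroup G) := by
  by_contra hne
  obtain ⟨D, ⟨P, Q, hD, hD1, hne⟩, hmax⟩ := H2.exists_maximal_subgroup
    (fun D : Subgroup G => ∃ P Q : Sylow p G, D = (P : Subgroup G) ⊓ Q ∧ D ≠ ⊥ ∧
      ZL (P : Subgroup G) ≠ ZL (Q : Subgroup G)) ⟨_, P, Q, rfl, h, hne⟩
  have hDp : IsPGroup p D := hD ▸ P.isPGroup'.to_inf_left
  have hlt : ∀ P Q : Sylow p G, D = (P : Subgroup G) ⊓ Q →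
      ZL (P : Subgroup G) ≠ ZL (Q : Subgroup G) → ∃ S : Subgroup G, ∃ P1 : Sylow p G,
        IsSylowOf p S (Nrm D) ∧ D < S ∧ S ≤ P1 ∧ ZL (P : Subgroup G) = ZL (P1 : Subgroup G) := by
    intro P Q hD hne
    have h1 : D < P := lt_of_le_of_ne (hD ▸ inf_le_left) fun e => hne (by
      rw [P.is_maximal' Q.isPGroup' (e ▸ hD ▸ inf_le_right)])
    have h2 := H51.lt_inf_nrm hp.out P.isPGroup' h1
    obtain ⟨S, hS, hle⟩ := exists_sylow_ge hp.out (P.isPGroup'.to_inf_left (K := Nrm D))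
      inf_le_right
    obtain ⟨P1, hP1⟩ := (hS.isPGroup hp.out).exists_le_sylow
    refine ⟨S, P1, hS, h2.trans_le hle, hP1, ?_⟩
    by_contra hne'
    have h3 : D < (P : Subgroup G) ⊓ P1 := h2.trans_le (le_inf inf_le_left (hle.trans hP1))
    exact h3.ne' (hmax _ ⟨P, P1, rfl, (bot_le.trans_lt h3).ne', hne'⟩ h3.le)
  obtain ⟨S, P1, hS, hDS, hSP, e1⟩ := hlt P Q hD hne
  obtain ⟨T, Q1, hT, hDT, hTQ, e2⟩ := hlt Q P (hD.trans (inf_comm _ _)) hne.symm
  rw [e1, e2] at hne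
  have hle : D ≤ (P1 : Subgroup G) ⊓ Q1 := le_inf (hDS.le.trans hSP) (hDT.le.trans hTQ)
  have hD' := hmax _ ⟨P1, Q1, rfl, fun e => hD1 (eq_bot_iff.2 (e ▸ hle)), hne⟩ hle
  obtain ⟨g, hg, hgT⟩ := sylow_trans hp.out hS hT
  have hX : Nrm D ≠ ⊤ := H51.mFT_norm_proper hG hD1 (H51.mFT_pgroup_proper hG hp.out hDp)
  have hnS : ¬ Nrm D ≤ Nrm S := fun h => by
    rw [cj_of_mem_nrm (h hg)] at hgT
    exact hDS.not_ge (hD' ▸ le_inf hSP (hgT ▸ hTQ))
  have hXp : ¬ IsPGroup p (Nrm D) := fun h => hnS (by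
    have e := H51.syl_eq_of_le hp.out hS h le_rfl hS.1
    conv_lhs => rw [e]
    exact Subgroup.le_normalizer)
  have hDn : D ⊴ Nrm D := ⟨Subgroup.le_normalizer, le_rfl⟩
  obtain ⟨hZ, -, -⟩ := cn_bad hG hCN hX hDn hDp hD1 hS hnS
  have hSp := hS.isPGroup hp.out
  have hZ1 : ZL S ≠ ⊥ := ZL_ne_bot hSp (bot_le.trans_lt hDS).ne'
  have hZp : IsPGroup p (ZL S) := hSp.to_le (ZL_le S)
  have hY : Nrm (ZL S) ≠ ⊤ := H51.mFT_norm_proper hG hZ1 (H51.mFT_pgroup_proper hG hp.out hZp)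
  obtain ⟨S1, hS1, hSS1⟩ := exists_sylow_ge hp.out hSp (hS.1.trans hZ.2)
  have hn1 : ¬ Nrm (ZL S) ≤ Nrm S1 := fun h => by
    have e1 : S1 ⊓ Nrm D = S := H51.syl_eq_of_le hp.out hS (hS1.isPGroup hp.out).to_inf_left
      inf_le_right (le_inf hSS1 hS.1)
    apply hnS
    conv_rhs => rw [← e1]
    exact (le_inf (hZ.2.trans h) Subgroup.le_normalizer).trans Subgroup.inf_normalizer_le_normalizer_inf
  obtain ⟨-, -, hE⟩ := cn_bad hG hCN hY ⟨Subgroup.le_normalizer, le_rfl⟩ hZp hZ1 hS1 hn1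
  have hDE := hE _ D hZ.2 hDn hDp hXp
  have hEp := isPGroup_Op hp.out (Nrm (ZL S))
  have hED : Op p (Nrm (ZL S)) = D := by
    by_contra hne'
    have h1 := H51.lt_inf_nrm hp.out hEp (lt_of_le_of_ne hDE (Ne.symm hne'))
    have h2 : Nrm D ≤ Nrm (Op p (Nrm (ZL S)) ⊓ Nrm D) :=
      (le_inf (hZ.2.trans (le_nrm_piCoreOf _ _)) Subgroup.le_normalizer).trans
        Subgroup.inf_normalizer_le_normalizer_inf
    have h3 : IsPi {p} (Op p (Nrm (ZL S)) ⊓ Nrm D) := isPi_of_isPGroup hp.out hEp.to_inf_left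
    exact h1.not_ge ((le_inf ((hS.normal_le h3 ⟨inf_le_right, h2⟩).trans hSP)
      ((hT.normal_le h3 ⟨inf_le_right, h2⟩).trans hTQ)).trans hD'.le)
  have hYX : Nrm (ZL S) ≤ Nrm D := hED ▸ le_nrm_piCoreOf _ _
  have hS' := H51.syl_top_of_nrm_le hp.out hS ((Nrm_le_Nrm_ZL S).trans hYX)
  have eS : (P1 : Subgroup G) = S := H51.syl_eq_of_le hp.out hS' P1.isPGroup' le_top hSP
  have hT' : IsSylowOf p T ⊤ := hgT ▸ H51.syl_cj hp.out hS' (by simp)
  have eT : (Q1 : Subgroup G) = T := H51.syl_eq_of_le hp.out hT' Q1.isPGroup' le_top hTQ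
  apply hne
  rw [eS, eT, hgT, ← cj_ZL, cj_of_mem_nrm (hZ.2 hg)]

/-- Sylow subgroups of a minimal simple CN-group of odd order are TI-subgroups. -/
theorem cn_sylow_TI (P Q : Sylow p G) (h : (P : Subgroup G) ⊓ Q ≠ ⊥) : P = Q := by
  by_contra hne
  have hP1 : (P : Subgroup G) ≠ ⊥ := fun e => h (by simp [e])
  have hZ1 := ZL_ne_bot P.isPGroup' hP1
  have hZp : IsPGroup p (ZL (P : Subgroup G)) := P.isPGroup'.to_le (ZL_le _)
  have hY := H51.mFT_norm_proper hG hZ1 (H51.mFT_pgroup_proper hG hp.out hZp)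
  have hPM : (P : Subgroup G) ≤ Nrm (ZL (P : Subgroup G)) :=
    Subgroup.le_normalizer.trans (Nrm_le_Nrm_ZL _)
  have hQM : (Q : Subgroup G) ≤ Nrm (ZL (P : Subgroup G)) := by
    rw [cn_ZL_eq hG hCN P Q h]
    exact Subgroup.le_normalizer.trans (Nrm_le_Nrm_ZL _)
  have hS := H51.syl_mono hp.out (isSylowOf_top P) hPM le_top
  obtain ⟨-, h2, -⟩ := cn_bad hG hCN hY ⟨Subgroup.le_normalizer, le_rfl⟩ hZp hZ1 hS (fun hn => by
    obtain ⟨g, hg, e⟩ := sylow_trans hp.out hS (H51.syl_mono hp.out (isSylowOf_top Q) hQM le_top)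
    rw [cj_of_mem_nrm (hn hg)] at e
    exact hne (Sylow.ext e.symm))
  apply h2
  have hc : commutator G = ⊤ := (H51.mFT_normal hG inferInstance).resolve_left fun e =>
    H51.mFT_nonabelian hG ((commutator_eq_bot_iff G).1 e)
  have h3 := Subgroup.commutator_inf_eq_focalSubgroup P
  rw [hc, top_inf_eq] at h3
  refine h3.le.trans ?_
  rw [Subgroup.focalSubgroup_def, Subgroup.closure_le]
  rintro _ ⟨hx, x, hxP, u, rfl⟩
  by_cases hx1 : x = 1
  · simp [hx1]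
  refine Subgroup.commutator_mem_commutator (hPM hxP) ?_
  have h4 : u * x⁻¹ * u⁻¹ ∈ (P : Subgroup G) := by
    have := (P : Subgroup G).mul_mem ((P : Subgroup G).inv_mem hxP) hx
    simpa [commutatorElement_def, mul_assoc] using this
  have h5 := cn_ZL_eq hG hCN P (u • P) fun e => by
    have : u * x⁻¹ * u⁻¹ ∈ (P : Subgroup G) ⊓ (u • P : Sylow p G) :=
      ⟨h4, x⁻¹, (P : Subgroup G).inv_mem hxP, rfl⟩
    rw [e, Subgroup.mem_bot] at this
    exact hx1 (by simpa using this)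
  rw [mem_nrm_iff_cj, cj_ZL]
  exact h5.symm

end H20
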