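import Cfsg.Agent.H20.CN3
import Cfsg.Agent.S1477

/-! Minimal simple CN-groups of odd order: maximal nilpotent and maximal subgroups. -/

set_option autoImplicit false
set_option linter.unusedSectionVars false

namespace H20

open Cfsg H46

universe u

/-- `H` is a maximal nilpotent subgroup. -/
def MaxNil {G : Type*} [Group G] (H : Subgroup G) : Prop :=
  Group.IsNilpotent H ∧ ∀ L : Subgroup G, Group.IsNilpotent L → H ≤ L → L = H

theorem MaxNil.cj {G : Type*} [Group G] [Finite G] {H : Subgroup G} (h : MaxNil H) (g : G) :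
    MaxNil (cj g H) := ⟨nil_cj h.1 g, maxnil_map_conj h.2 g⟩

theorem exists_maxNil_ge {G : Type*} [Group G] [Finite G] {A : Subgroup G}
    (hA : Group.IsNilpotent A) : ∃ H : Subgroup G, MaxNil H ∧ A ≤ H := by
  obtain ⟨H, ⟨h1, h2⟩, h3⟩ := H2.exists_maximal_subgroup
    (fun L : Subgroup G => Group.IsNilpotent L ∧ A ≤ L) ⟨A, hA, le_rfl⟩
  exact ⟨H, ⟨h1, fun L hL hle => h3 L ⟨hL, h2.trans hle⟩ hle⟩, h2⟩

variable {G : Type u} [Group G] [Finite G] (hG : IsMinSimpleOddOrder G) (hCN : IsCNGroup G)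
include hG hCN

theorem cn_sylow_normal {X D : Subgroup G} {p : ℕ} [hp : Fact p.Prime] (hD : D ⊴ X)
    (hDp : IsPGroup p D) (hD1 : D ≠ ⊥) (P : Sylow p X) : (P : Subgroup X).Normal := by
  have key : ∀ P Q : Sylow p X, P = Q := by
    intro P Q
    obtain ⟨P1, hP1⟩ := (P.isPGroup'.map X.subtype).exists_le_sylow
    obtain ⟨Q1, hQ1⟩ := (Q.isPGroup'.map X.subtype).exists_le_sylow
    have h1 := (isSylowOf_map_subtype P).normal_le (isPi_of_isPGroup hp.out hDp) hD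
    have h2 := (isSylowOf_map_subtype Q).normal_le (isPi_of_isPGroup hp.out hDp) hD
    have e := cn_sylow_TI hG hCN P1 Q1 fun e =>
      hD1 (eq_bot_iff.2 (e ▸ le_inf (h1.trans hP1) (h2.trans hQ1)))
    subst e
    have h3 : IsPGroup p ((P1 : Subgroup G).subgroupOf X) := P1.isPGroup'.comap_subtype
    exact Sylow.ext ((P.is_maximal' h3 (Subgroup.map_le_iff_le_comap.1 hP1)).symm.trans
      (Q.is_maximal' h3 (Subgroup.map_le_iff_le_comap.1 hQ1)))
  have : Subsingleton (Sylow p X) := ⟨key⟩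
  infer_instance

theorem MaxNil.ne_bot {H : Subgroup G} (h : MaxNil H) : H ≠ ⊥ := by
  rintro rfl
  have := H51.mFT_nontrivial hG
  obtain ⟨x, hx⟩ := exists_ne (1 : G)
  exact hx (by simpa using h.2 (Subgroup.zpowers x) (H2.isNilpotent_of_isMulCommutative _) bot_le)

theorem MaxNil.ti {H : Subgroup G} (h : MaxNil H) (g : G) (hg : H46.cj g H ≠ H) :
    H ⊓ H46.cj g H = ⊥ := by
  obtain ⟨h1, h2, -⟩ := Cfsg.Agent.S1477.result hCN H h.1 h.2
  by_cases hp : IsPrimePow (Nat.card H)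
  · obtain ⟨p, k, hp, hk, e⟩ := (isPrimePow_nat_iff _).1 hp
    have : Fact p.Prime := ⟨hp⟩
    have hH : IsPGroup p H := IsPGroup.of_card e.symm
    have hi : ¬ p ∣ H.index := fun hd => hp.one_lt.ne'
      (Nat.eq_one_of_dvd_coprimes h1 (e ▸ dvd_pow_self p hk.ne') hd)
    by_contra hne
    exact hg (congrArg (fun P : Sylow p G => (P : Subgroup G))
      (cn_sylow_TI hG hCN (hH.toSylow hi) (g • hH.toSylow hi) hne)).symm
  · exact h2 hp (fun e => h.ne_bot hG hCN (Subgroup.card_eq_one.1 e)) g hg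

theorem MaxNil.cent_le {H : Subgroup G} (h : MaxNil H) {x : G} (hx : x ∈ H) (hx1 : x ≠ 1) :
    Cent1 x ≤ H :=
  (Cfsg.Agent.S1477.result hCN H h.1 h.2).2.2 (h.ti hG hCN) x hx hx1

theorem MaxNil.eq_of_inf {H K : Subgroup G} (h : MaxNil H) (hK : MaxNil K) (hne : H ⊓ K ≠ ⊥) :
    H = K := by
  obtain ⟨⟨x, hx⟩, hx1⟩ := Subgroup.ne_bot_iff_exists_ne_one.1 hne
  have hx1' : x ≠ 1 := fun h => hx1 (Subtype.ext h)
  obtain ⟨z, hz, hz1, hzc⟩ := exists_center_of_nil h.1 (h.ne_bot hG hCN)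
  have hzK := hK.cent_le hG hCN hx.2 hx1' (mem_cent1.2 (hzc x hx.1).symm)
  exact (h.2 K hK.1 fun y hy => hK.cent_le hG hCN hzK hz1 (mem_cent1.2 (hzc y hy))).symm

theorem MaxNil.semiregular {H E : Subgroup G} (h : MaxNil H) (hd : H ⊓ E = ⊥) :
    ∀ e ∈ E, e ≠ 1 → H ⊓ Cent1 e = ⊥ := by
  intro e he he1
  rw [eq_bot_iff]
  intro x hx
  by_contra hx1
  have : e ∈ H ⊓ E := ⟨h.cent_le hG hCN hx.1 hx1 (mem_cent1.2 (mem_cent1.1 hx.2).symm), he⟩
  rw [hd] at this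
  exact he1 this

theorem MaxNil.nrm_ne {H : Subgroup G} (h : MaxNil H) : Nrm H ≠ H := by
  intro e
  have hF : IsFrobeniusComplement H := ⟨h.ne_bot hG hCN, H51.mFT_nil_proper hG h.1, fun g hg =>
    h.ti hG hCN g fun e' => hg (e ▸ mem_nrm_iff_cj.2 e')⟩
  rcases H51.mFT_normal hG (H5.frobKer_normal hF) with h1 | h1
  · exact H5.frobKer_ne_bot hF h1
  · have := (H5.frobKer_isComplement' hF).disjoint
    rw [h1, top_disjoint] at this
    exact h.ne_bot hG hCN this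

theorem MaxNil.exists_sd {H : Subgroup G} (h : MaxNil H) :
    ∃ E : Subgroup G, IsSd H E (Nrm H) ∧ E ≠ ⊥ := by
  obtain ⟨E, hE⟩ := exists_sd_of_hall (N := H) (K := Nrm H) ⟨Subgroup.le_normalizer,
    (maxnil_coprime hCN h.1 h.2).coprime_dvd_right
      (Subgroup.relIndex_dvd_index_of_le Subgroup.le_normalizer)⟩ le_rfl
  refine ⟨E, hE, ?_⟩
  rintro rfl
  exact h.nrm_ne hG hCN (by simpa using hE.sup.symm)

theorem cn_maxNil_fcore {M : Subgroup G} (hM : IsCoatom M) :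
    MaxNil (fittingHallOf M) ∧ Nrm (fittingHallOf M) = M := by
  have hs := H51.mmax_sol hG hM
  have : Nontrivial M := (Subgroup.nontrivial_iff_ne_bot M).2 (H51.mmax_ne_bot hG hM)
  have hnn : ¬ Group.IsNilpotent M := fun hn =>
    MaxNil.nrm_ne hG hCN ⟨hn, fun L hL hle => H51.mmax_max hM (H51.mFT_nil_proper hG hL) hle⟩
      (H51.norm_mmax hG hM)
  obtain ⟨p, hp, hO⟩ := H2.exists_pCore_ne_bot M
  have : Fact p.Prime := ⟨hp⟩
  obtain ⟨P⟩ : Nonempty (Sylow p M) := inferInstance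
  obtain ⟨h1, -, E, hE, -, hfpf, -⟩ := cn_frobenius (cn_subgroup hCN M) hnn p P
    (fun h => hO (eq_bot_iff.2 (h ▸ H2.pCore_le_sylow P)))
    (cn_sylow_normal hG hCN (normalIn_map_subtype inferInstance)
      ((H2.pCore_isPGroup p M).map M.subtype)
      (by rwa [Ne, Subgroup.map_eq_bot_iff_of_injective _ M.subtype_injective]) P)
  have h1' : fittingHallOf M ≠ ⊥ := by
    rwa [fittingHallOf, Ne, Subgroup.map_eq_bot_iff_of_injective _ M.subtype_injective]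
  have hN := H51.mmax_normal hG hM (H6.fcore_le M) (H6.le_nrm_fcore M) h1'
  refine ⟨⟨H6.fcore_nil M, fun L hL hle => ?_⟩, hN⟩
  by_contra hne
  obtain ⟨x, hx, hxH⟩ := SetLike.exists_of_lt
    (H51.nil_lt_inf_nrm hL (lt_of_le_of_ne hle (Ne.symm hne)))
  have hxM : x ∈ M := hN ▸ hx.2
  obtain ⟨⟨a, e⟩, hae⟩ := hE.2 ⟨x, hxM⟩
  have hae' : ((a : M) : G) * ((e : M) : G) = x := congrArg Subtype.val hae
  have haH : ((a : M) : G) ∈ fittingHallOf M := ⟨a, a.2, rfl⟩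
  have he1 : (e : M) ≠ 1 := fun h => hxH (by rw [← hae', h]; simpa using haH)
  have heL : ((e : M) : G) ∈ L := by
    have := L.mul_mem (L.inv_mem (hle haH)) hx.1
    rwa [← hae', inv_mul_cancel_left] at this
  apply h1
  rw [← hfpf e e.2 he1, eq_comm, inf_eq_left]
  intro y hy
  refine mem_cent1.2 (Subtype.ext ?_)
  refine H26.commute_of_coprime_orderOf_of_mem hL (hle ⟨y, hy, rfl⟩) heL ?_
  rw [Subgroup.orderOf_coe, Subgroup.orderOf_coe]
  have hcop := (H6.fittingHall_prop M).2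
  rw [hE.symm.index_eq_card] at hcop
  exact (hcop.coprime_dvd_left (Subgroup.orderOf_dvd_natCard _ hy)).coprime_dvd_right
    (Subgroup.orderOf_dvd_natCard _ e.2)

theorem MaxNil.exists_coatom {H : Subgroup G} (h : MaxNil H) :
    IsCoatom (Nrm H) ∧ fittingHallOf (Nrm H) = H := by
  obtain ⟨M, hM, hle⟩ := H51.mmax_exists
    (H51.mFT_norm_proper hG (h.ne_bot hG hCN) (H51.mFT_nil_proper hG h.1))
  obtain ⟨hK, hN⟩ := cn_maxNil_fcore hG hCN hM
  have e : H = fittingHallOf M := by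
    apply h.eq_of_inf hG hCN hK
    intro hd
    have h1 : fittingHallOf M ⊓ Nrm H = ⊥ := by
      rw [eq_bot_iff, ← hd]
      refine fun x hx => ⟨?_, hx.1⟩
      obtain ⟨z, hz, hz1, -⟩ := exists_center_of_nil h.1 (h.ne_bot hG hCN)
      refine h.cent_le hG hCN hz hz1 (mem_cent1.2 ?_)
      have : x * z * x⁻¹ * z⁻¹ ∈ H ⊓ fittingHallOf M := by
        refine ⟨H.mul_mem ((Subgroup.mem_normalizer_iff.1 hx.2 z).1 hz) (H.inv_mem hz), ?_⟩
        rw [mul_assoc, mul_assoc, ← mul_assoc z]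
        exact Subgroup.mul_mem _ hx.1 ((Subgroup.mem_normalizer_iff.1
          (hN.ge (hle (Subgroup.le_normalizer hz))) _).1 (Subgroup.inv_mem _ hx.1))
      rw [hd] at this
      exact commutatorElement_eq_one_iff_commute.1 this
    exact h.nrm_ne hG hCN (h.2 _ (cn_nil_of_fpf (hK.ne_bot hG hCN) (hle.trans hN.ge)
      (hK.semiregular hG hCN h1) hCN) Subgroup.le_normalizer)
  rw [← e] at hN
  rw [hN]
  exact ⟨hM, e.symm⟩

theorem MaxNil.conj_of_dvd {H K : Subgroup G} (h : MaxNil H) (hK : MaxNil K) {p : ℕ}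
    (hp : p.Prime) (h1 : p ∣ Nat.card H) (h2 : p ∣ Nat.card K) : ∃ g : G, K = H46.cj g H := by
  have : Fact p.Prime := ⟨hp⟩
  obtain ⟨P, hP⟩ := maxnil_sylow_le hCN h.1 h.2 h1
  obtain ⟨Q, hQ⟩ := maxnil_sylow_le hCN hK.1 hK.2 h2
  obtain ⟨g, rfl⟩ := MulAction.exists_smul_eq G P Q
  refine ⟨g, hK.eq_of_inf hG hCN (h.cj g) fun e => ?_⟩
  exact (g • P).ne_bot_of_dvd_card (h1.trans (Subgroup.card_subgroup_dvd_card H))
    (eq_bot_iff.2 (e ▸ le_inf hQ (cj_mono g hP)))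

end H20
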