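import Cfsg.Agent.H75.Plane
import Cfsg.Agent.H75.SmallSym
import Cfsg.Prelude.Def_FischerSpaces

/-! Fischer spaces and 3-transpositions. -/

set_option autoImplicit false

namespace H20.FS

open H75 Cfsg Cfsg.LineSystem Equiv

/-- a line system described by its third-point operation -/
structure Mod {Y : Type*} (L : Set (Set Y)) (op : Y → Y → Y) : Prop where
  lines : ∀ l, l ∈ L ↔ ∃ a b, op b a ≠ a ∧ l = {a, b, op b a}
  ne : ∀ a b, op b a ≠ a → a ≠ b ∧ op b a ≠ b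
  two : ∀ a b, op b a ≠ a → ∀ u v, (u = a ∨ u = b ∨ u = op b a) → (v = a ∨ v = b ∨ v = op b a) →
    u ≠ v → op v u ≠ u
  aut : ∀ x a b, op x (op b a) = op (op x b) (op x a)
  inv : ∀ x a, op x (op x a) = a

def sw (s : DualAffinePoint) : Perm (Fin 4) :=
  if s.1 = {0, 1} then swap 0 1 else if s.1 = {0, 2} then swap 0 2 else
  if s.1 = {0, 3} then swap 0 3 else if s.1 = {1, 2} then swap 1 2 else
  if s.1 = {1, 3} then swap 1 3 else swap 2 3

def op4 (s t : DualAffinePoint) : DualAffinePoint :=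
  ⟨t.1.map (sw s).toEmbedding, by rw [Finset.card_map]; exact t.2⟩

def op9 (v w : Fin 2 → ZMod 3) : Fin 2 → ZMod 3 := -v - w

theorem mod4 : Mod dualAffinePlaneTwo op4 := by
  refine ⟨fun l => ⟨?_, ?_⟩, by decide +kernel, by decide +kernel, by decide +kernel,
    by decide +kernel⟩
  · rintro ⟨i, rfl⟩
    have : ∀ i : Fin 4, ∃ a b, op4 b a ≠ a ∧ ∀ s : DualAffinePoint,
      i ∉ s.1 ↔ s = a ∨ s = b ∨ s = op4 b a := by decide +kernel
    obtain ⟨a, b, h1, h2⟩ := this i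
    exact ⟨a, b, h1, Set.ext h2⟩
  · rintro ⟨a, b, h, rfl⟩
    have : ∀ a b, op4 b a ≠ a → ∃ i : Fin 4, ∀ s : DualAffinePoint,
      s = a ∨ s = b ∨ s = op4 b a ↔ i ∉ s.1 := by decide +kernel
    obtain ⟨i, h2⟩ := this a b h
    exact ⟨i, Set.ext h2⟩

theorem mod9 : Mod affinePlaneThree op9 := by
  have h2 : ∀ u v, u ≠ v → op9 v u ≠ u := by decide +kernel
  refine ⟨fun l => ⟨?_, ?_⟩, by decide +kernel, fun _ _ _ u v _ _ => h2 u v, by decide +kernel,
    by decide +kernel⟩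
  · rintro ⟨v, w, hw, rfl⟩
    have : ∀ v w : Fin 2 → ZMod 3, w ≠ 0 → op9 (v + w) v ≠ v ∧ ∀ s,
      (∃ c : ZMod 3, s = v + c • w) ↔ s = v ∨ s = v + w ∨ s = op9 (v + w) v := by decide +kernel
    exact ⟨v, v + w, (this v w hw).1, Set.ext (this v w hw).2⟩
  · rintro ⟨a, b, h, rfl⟩
    have : ∀ a b, op9 b a ≠ a → b - a ≠ 0 ∧ ∀ s : Fin 2 → ZMod 3,
      s = a ∨ s = b ∨ s = op9 b a ↔ ∃ c : ZMod 3, s = a + c • (b - a) := by decide +kernel
    exact ⟨a, b - a, (this a b h).1, Set.ext (this a b h).2⟩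

theorem span_subspace {X : Type*} (L : Set (Set X)) (S : Set X) : IsSubspace L (span L S) :=
  fun l hl x hx y hy hxy hxl hyl _ hz T hT => hT.2 l hl x (hx T hT) y (hy T hT) hxy hxl hyl hz

theorem subset_span {X : Type*} (L : Set (Set X)) (S : Set X) : S ⊆ span L S :=
  fun _ hx _ hT => hT.1 hx

/-! ### from Fischer spaces to 3-transpositions -/

section fromSpace

variable {X : Type*} {L : Set (Set X)}

theorem lineMap_eq (hL : IsFischerSpace L) {x y z : X} (h1 : z ≠ x) (h2 : z ≠ y) (h3 : x ≠ y)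
    (h : ({x, y, z} : Set X) ∈ L) : lineMap L x y = z := by
  have ex : ∃ z : X, z ≠ x ∧ z ≠ y ∧ x ≠ y ∧ ({x, y, z} : Set X) ∈ L := ⟨z, h1, h2, h3, h⟩
  rw [lineMap, dif_pos ex]
  obtain ⟨k1, k2, -, k⟩ := ex.choose_spec
  have := hL.1 _ k _ h x y h3 (by simp) (by simp) (by simp) (by simp)
  have : ex.choose ∈ ({x, y, z} : Set X) := this ▸ (by simp)
  simpa [k1, k2] using this

theorem exists_third {l : Set X} (h : l.ncard = 3) {x y : X} (hx : x ∈ l) (hy : y ∈ l)
    (hxy : x ≠ y) : ∃ z, z ≠ x ∧ z ≠ y ∧ l = {x, y, z} := by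
  obtain ⟨a, b, c, hab, hac, hbc, rfl⟩ := Set.ncard_eq_three.1 h
  rcases hx with rfl | rfl | rfl <;> rcases hy with rfl | rfl | rfl
  exacts [absurd rfl hxy, ⟨c, hac.symm, hbc.symm, rfl⟩, ⟨b, hab.symm, hbc, by grind⟩,
    ⟨c, hbc.symm, hac.symm, by grind⟩, absurd rfl hxy, ⟨a, hab, hac, by grind⟩,
    ⟨b, hbc, hab.symm, by grind⟩, ⟨a, hac, hab, by grind⟩, absurd rfl hxy]

theorem lineMap_cases (hL : IsFischerSpace L) (x y : X) :
    (lineMap L x y = y ∧ ∀ l ∈ L, x ∈ l → y ∈ l → x = y) ∨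
      (lineMap L x y ≠ x ∧ lineMap L x y ≠ y ∧ x ≠ y ∧ ({x, y, lineMap L x y} : Set X) ∈ L) := by
  by_cases ex : ∃ z : X, z ≠ x ∧ z ≠ y ∧ x ≠ y ∧ ({x, y, z} : Set X) ∈ L
  · obtain ⟨z, h1, h2, h3, h⟩ := ex
    rw [lineMap_eq hL h1 h2 h3 h]
    exact Or.inr ⟨h1, h2, h3, h⟩
  · refine Or.inl ⟨by rw [lineMap, dif_neg ex], fun l hl hx hy => ?_⟩
    by_contra hxy
    obtain ⟨z, h1, h2, rfl⟩ := exists_third (hL.2.1 l hl) hx hy hxy
    exact ex ⟨z, h1, h2, hxy, hl⟩

theorem lineMap_invol (hL : IsFischerSpace L) (x : X) : Function.Involutive (lineMap L x) := by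
  intro y
  rcases lineMap_cases hL x y with ⟨h, -⟩ | ⟨h1, h2, h3, h⟩
  · rw [h, h]
  · exact lineMap_eq hL h3.symm h2.symm h1.symm (by rwa [Set.pair_comm])

theorem lineMap_self (hL : IsFischerSpace L) (x : X) : lineMap L x x = x := by
  rcases lineMap_cases hL x x with ⟨h, -⟩ | ⟨-, -, h3, -⟩
  · exact h
  · exact absurd rfl h3

theorem image_mem_of_mod (hL : IsFischerSpace L) {S : Set X} (hS : IsSubspace L S) {Y : Type*}
    {M : Set (Set Y)} {op : Y → Y → Y} (hM : Mod M op) (hi : Isomorphic (restrict L S) M)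
    {x : X} (hx : x ∈ S) {l : Set X} (hl : l ∈ L) (hlS : l ⊆ S) : lineMap L x '' l ∈ L := by
  obtain ⟨e, he⟩ := hi
  have down : ∀ a b : Y, op b a ≠ a →
      ({(e.symm a : X), (e.symm b : X), (e.symm (op b a) : X)} : Set X) ∈ L := by
    intro a b h
    have := (he (e.symm '' {a, b, op b a})).2 (by
      rw [e.image_symm_image]; exact (hM.lines _).2 ⟨a, b, h, rfl⟩)
    obtain ⟨m, hm, hmS, e'⟩ := this
    convert hm using 1
    have : m = Subtype.val '' {x : S | (x : X) ∈ m} := by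
      ext y; exact ⟨fun hy => ⟨⟨y, hmS hy⟩, hy, rfl⟩, by rintro ⟨y, hy, rfl⟩; exact hy⟩
    rw [this, ← e']
    simp [Set.image_insert_eq]
  have up : ∀ m ∈ L, m ⊆ S → ∃ a b, op b a ≠ a ∧ ∀ y : S, (y : X) ∈ m ↔
      e y = a ∨ e y = b ∨ e y = op b a := by
    intro m hm hmS
    obtain ⟨a, b, h, e'⟩ := (hM.lines _).1 ((he _).1 ⟨m, hm, hmS, rfl⟩)
    refine ⟨a, b, h, fun y => ?_⟩
    have : e y ∈ ({a, b, op b a} : Set Y) ↔ _ := e' ▸ e.injective.mem_set_image
    exact this.symm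
  have key : ∀ a : Y, lineMap L x (e.symm a) = e.symm (op (e ⟨x, hx⟩) a) := by
    intro a
    by_cases h : op (e ⟨x, hx⟩) a = a
    · rw [h]
      rcases lineMap_cases hL x (e.symm a) with ⟨h', -⟩ | ⟨-, -, h3, h4⟩
      · exact h'
      · obtain ⟨p, q, h5, h6⟩ := up _ h4 (hS _ h4 x hx _ (e.symm a).2 h3 (by simp) (by simp))
        refine absurd h (hM.two p q h5 a _ ?_ ((h6 ⟨x, hx⟩).1 (by simp)) ?_)
        · simpa using (h6 (e.symm a)).1 (by simp)
        · rintro rfl; simp at h3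
    · have := down _ _ h
      obtain ⟨n1, n2⟩ := hM.ne _ _ h
      rw [e.symm_apply_apply] at this
      refine lineMap_eq hL (fun e' => n2 ?_) (fun e' => h ?_) (fun e' => n1 ?_)
        (by rwa [Set.insert_comm])
      · rw [← e.symm_apply_eq]; exact Subtype.ext e'
      · exact e.symm.injective (Subtype.ext e')
      · rw [← e.symm_apply_eq]; exact Subtype.ext e'.symm
  obtain ⟨a, b, h, h'⟩ := up l hl hlS
  have el : l = {(e.symm a : X), (e.symm b : X), (e.symm (op b a) : X)} := by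
    ext y
    constructor
    · intro hy
      rcases (h' ⟨y, hlS hy⟩).1 hy with k | k | k <;> simp [← k]
    · rintro (rfl | rfl | rfl) <;> exact (h' _).2 (by simp)
  rw [el, Set.image_insert_eq, Set.image_pair, key, key, key, hM.aut]
  refine down _ _ fun e' => h ?_
  rw [← hM.aut] at e'
  rw [← hM.inv (e ⟨x, hx⟩) (op b a), e', hM.inv]

theorem image_mem (hL : IsFischerSpace L) (x : X) {l : Set X} (hl : l ∈ L) :
    lineMap L x '' l ∈ L := by
  by_cases h : ∀ y ∈ l, lineMap L x y = y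
  · rwa [Set.image_congr h, Set.image_id']
  push Not at h
  obtain ⟨y, hy, h⟩ := h
  obtain ⟨h1, h2, h3, h4⟩ := (lineMap_cases hL x y).resolve_left fun k => h k.1
  by_cases e : l = {x, y, lineMap L x y}
  · rw [e, Set.image_insert_eq, Set.image_pair, lineMap_self hL, lineMap_invol hL, Set.pair_comm]
    exact h4
  have hx : x ∈ span L (l ∪ {x, y, lineMap L x y}) := subset_span _ _ (Or.inr (by simp))
  have hs : l ⊆ span L (l ∪ {x, y, lineMap L x y}) := fun z hz => subset_span _ _ (Or.inl hz)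
  rcases hL.2.2 l hl _ h4 e ⟨y, hy, by simp⟩ with k | k
  · exact image_mem_of_mod hL (span_subspace _ _) mod4 k hx hl hs
  · exact image_mem_of_mod hL (span_subspace _ _) mod9 k hx hl hs

theorem lineMap_aut (hL : IsFischerSpace L) (x a b : X) :
    lineMap L x (lineMap L b a) = lineMap L (lineMap L x b) (lineMap L x a) := by
  have key : ∀ a b, lineMap L b a ≠ a →
      lineMap L x (lineMap L b a) = lineMap L (lineMap L x b) (lineMap L x a) := by
    intro a b h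
    obtain ⟨h1, h2, h3, h4⟩ := (lineMap_cases hL b a).resolve_left fun k => h k.1
    have inj := (lineMap_invol hL x).injective
    refine (lineMap_eq hL (inj.ne h1) (inj.ne h2) (inj.ne h3) ?_).symm
    simpa [Set.image_insert_eq] using image_mem hL x h4
  by_cases h : lineMap L b a = a
  · rw [h]
    by_contra hne
    have := key _ _ (Ne.symm hne)
    rw [lineMap_invol hL, lineMap_invol hL, h] at this
    exact hne ((lineMap_invol hL x).injective (by rw [this, lineMap_invol hL]))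
  · exact key a b h

theorem s5366 (hL : IsFischerSpace L) (hnd : IsNondegenerate L) :
    (∀ x : X, ∃ σ : Perm X, ⇑σ = lineMap L x ∧ orderOf σ = 2 ∧ IsIso L L σ) ∧
      IsThreeTranspositionSet {σ : Perm X | ∃ x : X, ⇑σ = lineMap L x} := by
  have sq : ∀ (σ : Perm X) (x : X), ⇑σ = lineMap L x → σ * σ = 1 := fun σ x h => by
    ext y; simp [h, lineMap_invol hL x y]
  have ord : ∀ (σ : Perm X) (x : X), ⇑σ = lineMap L x → orderOf σ = 2 := fun σ x h => by
    refine orderOf_eq_prime (by rw [pow_two, sq σ x h]) ?_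
    rintro rfl
    obtain ⟨l, hl, hx⟩ := hnd x
    obtain ⟨y, hy, hyx⟩ := (Set.one_lt_ncard_iff_nontrivial_and_finite.1
      (show 1 < l.ncard by rw [hL.2.1 l hl]; norm_num)).1.exists_ne x
    rcases lineMap_cases hL x y with ⟨-, k⟩ | ⟨-, k, -⟩
    · exact hyx (k l hl hx hy).symm
    · exact k (by rw [← h]; rfl)
  refine ⟨fun x => ⟨(lineMap_invol hL x).toPerm, rfl, ord _ x rfl, fun l =>
    ⟨image_mem hL x, fun h => ?_⟩⟩, fun σ ⟨x, h⟩ => ord σ x h, ?_⟩
  · have := image_mem hL x h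
    rwa [Function.Involutive.coe_toPerm, (lineMap_invol hL x).leftInverse.image_image] at this
  · rintro σ ⟨x, hx⟩ τ ⟨y, hy⟩
    have c : ∀ (σ τ : Perm X) (x y : X), ⇑σ = lineMap L x → ⇑τ = lineMap L y →
        ⇑(σ * τ * σ) = lineMap L (lineMap L x y) := fun σ τ x y hx hy => by
      ext a; simp [hx, hy, lineMap_aut hL x _ y, lineMap_invol hL x a]
    rcases lineMap_cases hL x y with ⟨k, -⟩ | ⟨k1, k2, k3, k⟩
    · left
      have : σ * τ * σ = τ := DFunLike.coe_injective (by rw [c σ τ x y hx hy, k, hy])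
      rw [pow_two, ← mul_assoc, this, sq τ y hy]
    · right
      rw [← braid_iff_cube (sq σ x hx) (sq τ y hy)]
      apply DFunLike.coe_injective
      rw [c σ τ x y hx hy, c τ σ y x hy hx,
        lineMap_eq hL k2 k1 k3.symm (by rwa [Set.insert_comm])]

end fromSpace

/-! ### from 3-transpositions to Fischer spaces -/

section toSpace

variable {G : Type*} [Group G] {D : Set G}

/-- the line through two points -/
def ln (x y : D) : Set D := {z : D | (z : G) = x ∨ (z : G) = y ∨ (z : G) = (y : G) * x * (y : G)⁻¹}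

theorem line_eq (hX : TT D) {l : Set D} (hl : l ∈ threeTranspositionLines D) {u v : D}
    (hu : u ∈ l) (hv : v ∈ l) (huv : u ≠ v) : ¬ Commute (u : G) v ∧ l = ln u v := by
  obtain ⟨⟨x, hx⟩, ⟨y, hy⟩, c, rfl⟩ := hl
  obtain ⟨φ, hφ, rfl, rfl⟩ := tt_exists_hom_perm3 hX.tt hx hy c
  obtain ⟨u, hu'⟩ := u
  obtain ⟨v, hv'⟩ := v
  have key : ∀ a b : Perm (Fin 3), (a = swap 0 1 ∨ a = swap 1 2 ∨ a = swap 0 2) →
      (b = swap 0 1 ∨ b = swap 1 2 ∨ b = swap 0 2) → a ≠ b → a * b ≠ b * a ∧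
      ∀ c, (c = swap 0 1 ∨ c = swap 1 2 ∨ c = swap 0 2) ↔ (c = a ∨ c = b ∨ c = b * a * b⁻¹) := by
    rintro a b (rfl | rfl | rfl) (rfl | rfl | rfl) <;> decide +kernel
  have e : φ (swap 1 2) * φ (swap 0 1) * (φ (swap 1 2))⁻¹ = φ (swap 0 2) := by
    rw [← map_inv, ← map_mul, ← map_mul]; exact congrArg φ (by decide)
  simp only [Set.mem_ofPred_eq, e, ne_eq, Subtype.mk.injEq] at hu hv huv
  obtain ⟨a, ha, rfl⟩ : ∃ a, (a = swap 0 1 ∨ a = swap 1 2 ∨ a = swap 0 2) ∧ u = φ a := by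
    rcases hu with rfl | rfl | rfl <;> exact ⟨_, by simp, rfl⟩
  obtain ⟨b, hb, rfl⟩ : ∃ a, (a = swap 0 1 ∨ a = swap 1 2 ∨ a = swap 0 2) ∧ v = φ a := by
    rcases hv with rfl | rfl | rfl <;> exact ⟨_, by simp, rfl⟩
  obtain ⟨k1, k2⟩ := key a b ha hb fun h => huv (h ▸ rfl)
  refine ⟨fun h => k1 (hφ (by rw [map_mul, map_mul]; exact h.eq)), Set.ext fun z => ?_⟩
  simp only [ln, Set.mem_ofPred_eq, e]
  rw [← map_inv, ← map_mul, ← map_mul]
  constructor
  · intro h
    obtain ⟨c, hc, e'⟩ : ∃ a, (a = swap 0 1 ∨ a = swap 1 2 ∨ a = swap 0 2) ∧ z = φ a := by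
      rcases h with h | h | h <;> exact ⟨_, by simp, h⟩
    simpa only [e', hφ.eq_iff] using (k2 c).1 hc
  · intro h
    obtain ⟨c, hc, e'⟩ : ∃ c, (c = a ∨ c = b ∨ c = b * a * b⁻¹) ∧ z = φ c := by
      rcases h with h | h | h <;> exact ⟨_, by simp, h⟩
    simpa only [e', hφ.eq_iff] using (k2 c).2 hc

theorem iso_of_mod (hX : TT D) {Y : Type*} {M : Set (Set Y)} {op : Y → Y → Y} (hM : Mod M op)
    (f : Y → D) (hf : Function.Injective f)
    (hop : ∀ a b, (f (op b a) : G) = f b * f a * (f b : G)⁻¹) {p q r : Y}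
    (hgen : ∀ T : Set Y, p ∈ T → q ∈ T → r ∈ T → (∀ a ∈ T, ∀ b ∈ T, op a b ∈ T) → ∀ y, y ∈ T) :
    Isomorphic (restrict (threeTranspositionLines D)
      (span (threeTranspositionLines D) (ln (f p) (f q) ∪ ln (f p) (f r)))) M := by
  have nc : ∀ a b, op b a ≠ a ↔ ¬ Commute (f a : G) (f b) := fun a b => by
    rw [ne_eq, ← hf.eq_iff, Subtype.ext_iff, hop, conj_eq_iff_commute, Commute.symm_iff]
  have im : ∀ a b, ln (f a) (f b) = f '' {a, b, op b a} := fun a b => by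
    ext z
    simp only [ln, Set.mem_ofPred_eq, ← hop, Subtype.coe_inj, Set.image_insert_eq,
      Set.image_singleton, Set.mem_insert_iff, Set.mem_singleton_iff]
  have hs : span (threeTranspositionLines D) (ln (f p) (f q) ∪ ln (f p) (f r)) = Set.range f := by
    apply Set.Subset.antisymm
    · refine Set.sInter_subset_of_mem ⟨?_, ?_⟩
      · rw [im, im]; exact Set.union_subset (Set.image_subset_range _ _) (Set.image_subset_range _ _)
      · rintro l hl _ ⟨a, rfl⟩ _ ⟨b, rfl⟩ hab ha hb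
        rw [(line_eq hX hl ha hb hab).2, im]; exact Set.image_subset_range _ _
    · rintro _ ⟨y, rfl⟩ T ⟨h1, h2⟩
      refine hgen (f ⁻¹' T) (h1 (Or.inl (Or.inl rfl))) (h1 (Or.inl (Or.inr (Or.inl rfl))))
        (h1 (Or.inr (Or.inr (Or.inl rfl)))) (fun a ha b hb => ?_) y
      by_cases c : op a b = b
      · rwa [c]
      · exact h2 (ln (f b) (f a)) ⟨f b, f a, (nc b a).1 c, rfl⟩ _ hb _ ha (hf.ne (hM.ne _ _ c).1)
          (Or.inl rfl) (Or.inr (Or.inl rfl)) (Or.inr (Or.inr (hop b a)))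
  rw [hs]
  refine ⟨(Equiv.ofInjective f hf).symm, fun l => ?_⟩
  have tr : ∀ s : Set Y, (Equiv.ofInjective f hf).symm '' {x : Set.range f | (x : D) ∈ f '' s} = s :=
    fun s => by
      rw [Equiv.image_eq_preimage_symm]
      ext y; simp [hf.eq_iff]
  constructor
  · rintro ⟨_, ⟨x, y, c, rfl⟩, hs, rfl⟩
    obtain ⟨a, rfl⟩ := hs (Or.inl rfl : x ∈ ln x y)
    obtain ⟨b, rfl⟩ := hs (Or.inr (Or.inl rfl) : y ∈ ln (f a) y)
    change _ '' {x : Set.range f | (x : D) ∈ ln (f a) (f b)} ∈ M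
    rw [im, tr]
    exact (hM.lines _).2 ⟨a, b, (nc a b).2 c, rfl⟩
  · intro h
    obtain ⟨a, b, c, e⟩ := (hM.lines _).1 h
    refine ⟨ln (f a) (f b), ⟨f a, f b, (nc a b).1 c, rfl⟩, by
      rw [im]; exact Set.image_subset_range _ _, ?_⟩
    rw [im]
    exact (Equiv.ofInjective f hf).symm.injective.image_injective (e.trans (tr _).symm)

theorem iso4 (hX : TT D) {a b c : D} (hab : ¬ Commute (a : G) b) (hac : ¬ Commute (a : G) c)
    (hbc : Commute (b : G) c) (hne : b ≠ c) : Isomorphic (restrict (threeTranspositionLines D)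
      (span (threeTranspositionLines D) (ln a b ∪ ln a c))) dualAffinePlaneTwo := by
  obtain ⟨φ, hφ, h1, h2, h3⟩ := tt_exists_hom_perm4 hX.tt b.2 a.2 c.2 (Subtype.coe_ne_coe.2 hne)
    hbc (fun h => hab h.symm) hac
  let p : DualAffinePoint := ⟨{1, 2}, rfl⟩
  let q : DualAffinePoint := ⟨{0, 1}, rfl⟩
  let r : DualAffinePoint := ⟨{2, 3}, rfl⟩
  have k1 : ∀ s t, sw (op4 s t) = sw s * sw t * sw s := by decide +kernel
  have k2 : ∀ s, (sw s)⁻¹ = sw s := by decide +kernel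
  have k3 : ∀ s t, sw s = sw t → s = t := by decide +kernel
  have k4 : ∀ y, y = p ∨ y = q ∨ y = r ∨ y = op4 p q ∨ y = op4 p r ∨ y = op4 q (op4 p r) := by
    decide +kernel
  have hgen : ∀ T : Set DualAffinePoint, p ∈ T → q ∈ T → r ∈ T →
      (∀ a ∈ T, ∀ b ∈ T, op4 a b ∈ T) → ∀ y, y ∈ T := fun T hp hq hr h y => by
    rcases k4 y with rfl | rfl | rfl | rfl | rfl | rfl
    exacts [hp, hq, hr, h _ hp _ hq, h _ hp _ hr, h _ hq _ (h _ hp _ hr)]
  have ep : φ (sw p) = a := h2 ▸ congrArg φ (by decide)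
  have eq : φ (sw q) = b := h1 ▸ congrArg φ (by decide)
  have er : φ (sw r) = c := h3 ▸ congrArg φ (by decide)
  have mem : ∀ s, φ (sw s) ∈ D := hgen {s | φ (sw s) ∈ D} (show φ _ ∈ D from ep ▸ a.2)
    (show φ _ ∈ D from eq ▸ b.2) (show φ _ ∈ D from er ▸ c.2) fun s hs t ht => by
      change φ _ ∈ D
      rw [k1, map_mul, map_mul]; exact hX.cl _ hs _ ht
  have := iso_of_mod hX mod4 (fun s => ⟨φ (sw s), mem s⟩)
    (fun s t e => k3 s t (hφ (congrArg Subtype.val e)))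
    (fun s t => by simp only [k1, map_mul, ← map_inv, k2]) (p := p) (q := q) (r := r) hgen
  rwa [show (⟨φ (sw p), mem p⟩ : D) = a from Subtype.ext ep,
    show (⟨φ (sw q), mem q⟩ : D) = b from Subtype.ext eq,
    show (⟨φ (sw r), mem r⟩ : D) = c from Subtype.ext er] at this

theorem iso9 (hX : TT D) {a b c : D} (h : Aff (a : G) b c) :
    Isomorphic (restrict (threeTranspositionLines D)
      (span (threeTranspositionLines D) (ln a b ∪ ln a c))) affinePlaneThree := by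
  obtain ⟨g, hg, h1, h2, h3⟩ := h.exists_plane hX a.2 b.2 c.2
  have k4 : ∀ y : Fin 2 → ZMod 3, y = 0 ∨ y = ![1, 0] ∨ y = ![0, 1] ∨ y = op9 0 ![1, 0] ∨
      y = op9 0 ![0, 1] ∨ y = op9 ![1, 0] ![0, 1] ∨ y = op9 0 (op9 ![1, 0] ![0, 1]) ∨
      y = op9 ![1, 0] (op9 0 ![0, 1]) ∨ y = op9 ![0, 1] (op9 0 ![1, 0]) := by
    decide +kernel
  have := iso_of_mod hX mod9 (fun s => ⟨g (s 0, s 1), hg.mem _⟩)
    (fun s t e => by
      have := hg.inj (congrArg Subtype.val e)
      ext i; fin_cases i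
      exacts [congrArg Prod.fst this, congrArg Prod.snd this])
    (fun s t => by simp only [hX.inv (hg.mem _), hg.conj]; rfl)
    (p := 0) (q := ![1, 0]) (r := ![0, 1])
    (fun T hp hq hr h y => by
      rcases k4 y with rfl | rfl | rfl | rfl | rfl | rfl | rfl | rfl | rfl
      exacts [hp, hq, hr, h _ hp _ hq, h _ hp _ hr, h _ hq _ hr, h _ hp _ (h _ hq _ hr),
        h _ hq _ (h _ hp _ hr), h _ hr _ (h _ hp _ hq)])
  obtain ⟨a, ha⟩ := a
  obtain ⟨b, hb⟩ := b
  obtain ⟨c, hc⟩ := c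
  simp only at h1 h2 h3
  subst h1 h2 h3
  exact this

theorem s5367 (hX : TT D) : IsFischerSpace (threeTranspositionLines D) := by
  have card : ∀ l ∈ threeTranspositionLines D, l.ncard = 3 := by
    rintro _ ⟨x, y, c, rfl⟩
    have c' : ¬ Commute (y : G) x := fun h => c h.symm
    refine Set.ncard_eq_three.2 ⟨x, y, ⟨_, hX.cl _ y.2 _ x.2⟩, ?_, ?_, ?_, ?_⟩
    · rintro rfl; exact c (Commute.refl _)
    · intro e
      exact tt_not_commute_third_right hX.tt y.2 x.2 c'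
        (by rw [← show (x : G) = y * x * y from congrArg Subtype.val e])
    · intro e
      exact tt_not_commute_third_left hX.tt y.2 c'
        (by rw [← show (y : G) = y * x * y from congrArg Subtype.val e])
    · ext z; simp [Subtype.ext_iff, hX.inv y.2]
  refine ⟨fun l hl m hm x y hxy h1 h2 h3 h4 => ?_, card, fun l hl m hm hne ⟨a, hal, ham⟩ => ?_⟩
  · rw [(line_eq hX hl h1 h2 hxy).2, (line_eq hX hm h3 h4 hxy).2]
  have ex : ∀ l ∈ threeTranspositionLines D, ∃ b ∈ l, b ≠ a := fun l hl =>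
    (Set.one_lt_ncard_iff_nontrivial_and_finite.1
      (show 1 < l.ncard by rw [card l hl]; norm_num)).1.exists_ne a
  obtain ⟨b, hb, hba⟩ := ex l hl
  obtain ⟨c, hc, hca⟩ := ex m hm
  obtain ⟨c1, e1⟩ := line_eq hX hl hal hb hba.symm
  obtain ⟨c2, e2⟩ := line_eq hX hm ham hc hca.symm
  have hcl : c ∉ l := fun h => hne ((line_eq hX hl hal h hca.symm).2.trans e2.symm)
  by_cases k1 : Commute (b : G) c
  · rw [e1, e2]; exact Or.inl (iso4 hX c1 c2 k1 fun e => hcl (e ▸ hb))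
  have hb' : (⟨_, hX.cl _ a.2 _ b.2⟩ : D) ∈ l := by
    rw [e1]; exact Or.inr (Or.inr (by rw [hX.inv b.2]; exact tt_braid hX.tt a.2 b.2 c1))
  by_cases k2 : Commute ((a : G) * b * a) c
  · have c3 := tt_not_commute_third_left hX.tt a.2 c1
    rw [(line_eq hX hl hal hb' fun e => c3
      (by rw [← show (a : G) = a * b * a from congrArg Subtype.val e])).2, e2]
    exact Or.inl (iso4 hX c3 c2 k2 fun e => hcl (e ▸ hb'))
  · rw [e1, e2]
    exact Or.inr (iso9 hX ⟨c1, c2, k1, k2, fun e => hcl (by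
      rwa [show c = ⟨_, hX.cl _ a.2 _ b.2⟩ from Subtype.ext e])⟩)

end toSpace

end H20.FS
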