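import Cfsg.Agent.H20.LD4Spec
import Mathlib.LinearAlgebra.Eigenspace.Pi
import Mathlib.LinearAlgebra.Eigenspace.Semisimple

/-! LD4 (blueprints/LD4.md): basic facts on the standing hypothesis `R4`. -/

set_option autoImplicit false

namespace H20.LD

open Cfsg Cfsg.Geo Matrix
open scoped MatrixGroups commutatorElement

universe u v

variable {k : Type u} [Field k] {X : Type u} [Group X] {Γ : Type v} [Group Γ] {p : ℕ}
  {ρ : X →* G4 k} {π : X →* Γ}

/-! ### Matrices -/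

theorem val_inv_mul (B : G4 k) : (B⁻¹).val * B.val = 1 := B.inv_mul
theorem val_mul_inv (B : G4 k) : B.val * (B⁻¹).val = 1 := B.mul_inv

theorem trace_conj (B : G4 k) (M : M4 k) : ((B⁻¹).val * M * B.val).trace = M.trace := by
  rw [trace_mul_cycle, val_mul_inv, one_mul]

theorem trace_conj' (B : G4 k) (M : M4 k) : (B.val * M * (B⁻¹).val).trace = M.trace := by
  rw [trace_mul_cycle, val_inv_mul, one_mul]

theorem conj_vecMulVec (A B : M4 k) (u φ : V4 k) :
    A * vecMulVec u φ * B = vecMulVec (A *ᵥ u) (φ ᵥ* B) := by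
  rw [mul_vecMulVec, vecMulVec_mul]

theorem conj_dot (B : G4 k) (u φ : V4 k) : (φ ᵥ* B.val) ⬝ᵥ ((B⁻¹).val *ᵥ u) = φ ⬝ᵥ u := by
  rw [← dotProduct_mulVec, mulVec_mulVec, val_mul_inv, one_mulVec]

theorem conj_dot' (B : G4 k) (u φ : V4 k) : (φ ᵥ* (B⁻¹).val) ⬝ᵥ (B.val *ᵥ u) = φ ⬝ᵥ u := by
  rw [← dotProduct_mulVec, mulVec_mulVec, val_inv_mul, one_mulVec]

theorem IsTv.conj {g : G4 k} (h : IsTv g) (B : G4 k) : IsTv (B⁻¹ * g * B) := by
  obtain ⟨h1, u, φ, h2, h3⟩ := h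
  refine ⟨fun e => h1 ?_, (B⁻¹).val *ᵥ u, φ ᵥ* B.val, by rw [conj_dot, h2], ?_⟩
  · calc g = B * (B⁻¹ * g * B) * B⁻¹ := by group
      _ = 1 := by rw [e]; group
  · rw [Units.val_mul, Units.val_mul, h3, mul_add, add_mul, mul_one, val_inv_mul, conj_vecMulVec]

theorem isTv_conj {g : G4 k} (B : G4 k) : IsTv (B⁻¹ * g * B) ↔ IsTv g :=
  ⟨fun h => by simpa [mul_assoc] using h.conj B⁻¹, fun h => h.conj B⟩

theorem Hom3.conj {g : G4 k} {ω : k} (h : Hom3 g ω) (B : G4 k) : Hom3 (B⁻¹ * g * B) ω := by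
  obtain ⟨h1, u, φ, h2, h3⟩ := h
  refine ⟨h1, (B⁻¹).val *ᵥ u, φ ᵥ* B.val, by rw [conj_dot, h2], ?_⟩
  rw [Units.val_mul, Units.val_mul, h3, Matrix.mul_smul, Matrix.smul_mul, mul_add, add_mul, mul_one,
    val_inv_mul, Matrix.mul_smul, Matrix.smul_mul, conj_vecMulVec]

theorem hom3_conj {g : G4 k} {ω : k} (B : G4 k) : Hom3 (B⁻¹ * g * B) ω ↔ Hom3 g ω :=
  ⟨fun h => by simpa [mul_assoc] using h.conj B⁻¹, fun h => h.conj B⟩

theorem Hom3.trace {g : G4 k} {ω : k} (h : Hom3 g ω) : g.val.trace = 3 * ω + 1 := by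
  obtain ⟨h1, u, φ, h2, h3⟩ := h
  rw [h3, trace_smul, trace_add, trace_smul, trace_vecMulVec, dotProduct_comm, h2, trace_one]
  simp only [Fintype.card_fin, smul_eq_mul, Nat.cast_ofNat]
  linear_combination (ω - 1) * h1

/-- A matrix with nonzero determinant has a nonzero generalised diagonal. -/
theorem exists_perm_ne_zero {ι : Type*} [Fintype ι] [DecidableEq ι] {M : Matrix ι ι k}
    (h : M.det ≠ 0) : ∃ σ : Equiv.Perm ι, ∀ i, M (σ i) i ≠ 0 := by
  by_contra hn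
  push Not at hn
  refine h (by
    rw [det_apply]
    refine Finset.sum_eq_zero fun σ _ => ?_
    obtain ⟨i, hi⟩ := hn σ
    rw [Finset.prod_eq_zero (f := fun i => M (σ i) i) (Finset.mem_univ i) hi, smul_zero])

theorem val_det_ne_zero (g : G4 k) : g.val.det ≠ 0 :=
  ((Matrix.isUnit_iff_isUnit_det _).1 g.isUnit).ne_zero

/-- Simultaneous diagonalisation of commuting matrices of finite order prime to `p`. -/
theorem exists_diag_mat [IsAlgClosed k] {ι : Type*} (A : ι → M4 k)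
    (hc : ∀ i j, A i * A j = A j * A i) (hn : ∀ i, ∃ n : ℕ, (n : k) ≠ 0 ∧ A i ^ n = 1) :
    ∃ B : G4 k, ∀ i, ∃ d : Fin 4 → k, (B⁻¹).val * A i * B.val = diagonal d := by
  have hs : ∀ i, Module.End.IsSemisimple (toLin' (A i)) := fun i => by
    obtain ⟨n, h1, h2⟩ := hn i
    refine Module.End.isSemisimple_of_squarefree_aeval_eq_zero
      (Polynomial.separable_X_pow_sub_C (1 : k) h1 one_ne_zero).squarefree ?_
    rw [map_sub, map_pow, Polynomial.aeval_X, ← toLin'_pow, h2, toLin'_one, Polynomial.aeval_C,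
      map_one]
    exact sub_self _
  have h := Module.End.iSup_iInf_maxGenEigenspace_eq_top_of_iSup_maxGenEigenspace_eq_top_of_commute
    (fun i => toLin' (A i)) (fun i j _ => by
      change toLin' (A i) ∘ₗ toLin' (A j) = toLin' (A j) ∘ₗ toLin' (A i)
      rw [← toLin'_mul, ← toLin'_mul, hc])
    fun i => Module.End.iSup_maxGenEigenspace_eq_top _
  let s : Set (V4 k) := {v | ∀ i, ∃ c : k, A i *ᵥ v = c • v}
  have hsp : ⊤ ≤ Submodule.span k s := by
    rw [← h]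
    refine iSup_le fun χ v hv => Submodule.subset_span fun i => ⟨χ i, ?_⟩
    have := (Submodule.mem_iInf _).1 hv i
    rw [(hs i).isFinitelySemisimple.maxGenEigenspace_eq_eigenspace,
      Module.End.mem_eigenspace_iff] at this
    exact this
  let b := Module.Basis.ofSpan hsp
  have hb : ∀ j, b j ∈ s := fun j => Module.Basis.ofSpan_subset hsp ⟨j, rfl⟩
  let _ := FiniteDimensional.fintypeBasisIndex b
  have e : _ ≃ Fin 4 := Fintype.equivFinOfCardEq (by rw [← Module.finrank_eq_card_basis b]; simp)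
  have h3 := (Pi.basisFun k (Fin 4)).toMatrix_mul_toMatrix_flip (b.reindex e)
  have h4 := (b.reindex e).toMatrix_mul_toMatrix_flip (Pi.basisFun k (Fin 4))
  refine ⟨⟨_, _, h3, h4⟩, fun i => ?_⟩
  choose d hd using fun j => hb (e.symm j) i
  refine ⟨d, ?_⟩
  change _ * A i * _ = _
  rw [mul_assoc, ← one_mul (diagonal d), ← h4, mul_assoc]
  congr 1
  ext a j
  have := congrFun (hd j) a
  simpa [mul_apply, Module.Basis.toMatrix_apply, mulVec, dotProduct, diagonal_apply, mul_comm]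
    using this

theorem det_four (M : M4 k) : M.det = M 0 0 * (M.submatrix ![1, 2, 3] ![1, 2, 3]).det -
    M 0 1 * (M.submatrix ![1, 2, 3] ![0, 2, 3]).det +
    M 0 2 * (M.submatrix ![1, 2, 3] ![0, 1, 3]).det -
    M 0 3 * (M.submatrix ![1, 2, 3] ![0, 1, 2]).det := by
  have e0 : (Fin.succ : Fin 3 → Fin 4) = ![1, 2, 3] := by decide
  have e1 : (0 : Fin 4).succAbove = ![1, 2, 3] := by decide
  have e2 : (1 : Fin 4).succAbove = ![0, 2, 3] := by decide
  have e3 : (2 : Fin 4).succAbove = ![0, 1, 3] := by decide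
  have e4 : (3 : Fin 4).succAbove = ![0, 1, 2] := by decide
  rw [det_succ_row_zero, Fin.sum_univ_four, e0, e1, e2, e3, e4]
  simp only [Fin.val_zero, Fin.val_one, Fin.val_two, show ((3 : Fin 4) : ℕ) = 3 from rfl]
  ring

theorem trace_adjugate_four (M : M4 k) : M.adjugate.trace =
    (M.submatrix ![1, 2, 3] ![1, 2, 3]).det + (M.submatrix ![0, 2, 3] ![0, 2, 3]).det +
    (M.submatrix ![0, 1, 3] ![0, 1, 3]).det + (M.submatrix ![0, 1, 2] ![0, 1, 2]).det := by
  have : ∀ i : Fin 4, M.adjugate i i = (M.submatrix i.succAbove i.succAbove).det := fun i => by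
    rw [adjugate_fin_succ_eq_det_submatrix, ← two_mul, pow_mul]; simp
  have e1 : (0 : Fin 4).succAbove = ![1, 2, 3] := by decide
  have e2 : (1 : Fin 4).succAbove = ![0, 2, 3] := by decide
  have e3 : (2 : Fin 4).succAbove = ![0, 1, 3] := by decide
  have e4 : (3 : Fin 4).succAbove = ![0, 1, 2] := by decide
  rw [trace, Fin.sum_univ_four, diag_apply, diag_apply, diag_apply, diag_apply, this, this, this,
    this, e1, e2, e3, e4]

set_option maxHeartbeats 4000000 in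
/-- Cayley–Hamilton in dimension four. -/
theorem CH4_mat (M : M4 k) : ∃ s : k, 2 * s = M.trace ^ 2 - (M * M).trace ∧
    M ^ 4 - M.trace • M ^ 3 + s • M ^ 2 - M.adjugate.trace • M + M.det • (1 : M4 k) = 0 := by
  refine ⟨M 0 0 * M 1 1 - M 0 1 * M 1 0 + (M 0 0 * M 2 2 - M 0 2 * M 2 0) +
    (M 0 0 * M 3 3 - M 0 3 * M 3 0) + (M 1 1 * M 2 2 - M 1 2 * M 2 1) +
    (M 1 1 * M 3 3 - M 1 3 * M 3 1) + (M 2 2 * M 3 3 - M 2 3 * M 3 2), ?_, ?_⟩
  · simp only [trace, diag_apply, mul_apply, Fin.sum_univ_four]; ring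
  · rw [trace_adjugate_four, det_four]
    simp only [det_fin_three, submatrix_apply, cons_val_zero, cons_val_one, cons_val_two,
      head_cons, tail_cons, trace, diag_apply, Fin.sum_univ_four, pow_succ, pow_zero, one_mul]
    have key : ∀ P : Fin 4 → Prop, P 0 → P 1 → P 2 → P 3 → ∀ i, P i := fun P a b c d i => by
      fin_cases i <;> assumption
    ext i j
    simp only [Matrix.add_apply, Matrix.sub_apply, Matrix.smul_apply, mul_apply, Fin.sum_univ_four,
      smul_eq_mul, Matrix.zero_apply, one_apply]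
    revert i j
    refine key _ (key _ ?_ ?_ ?_ ?_) (key _ ?_ ?_ ?_ ?_) (key _ ?_ ?_ ?_ ?_) (key _ ?_ ?_ ?_ ?_) <;>
      simp only [Fin.reduceEq, if_true, if_false] <;> ring

/-! ### Characters and change of basis -/

theorem cb_apply (B : G4 k) (x : X) : cb ρ B x = B⁻¹ * ρ x * B := by simp [cb]

theorem cb_val (B : G4 k) (x : X) : (cb ρ B x).val = (B⁻¹).val * (ρ x).val * B.val := by
  rw [cb_apply, Units.val_mul, Units.val_mul]

theorem val_eq_cb (B : G4 k) (x : X) : (ρ x).val = B.val * (cb ρ B x).val * (B⁻¹).val := by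
  rw [← Units.val_mul, ← Units.val_mul, cb_apply]; congr 1; group

theorem cb_cb (B C : G4 k) : cb (cb ρ B) C = cb ρ (B * C) :=
  MonoidHom.ext fun x => by simp only [cb_apply]; group

@[simp] theorem tr_cb (B : G4 k) (x : X) : tr (cb ρ B) x = tr ρ x := by
  rw [tr, cb_val, trace_conj, tr]

theorem noTv_cb (B : G4 k) : NoTv (cb ρ B) ↔ NoTv ρ :=
  forall_congr' fun x => by rw [cb_apply, isTv_conj]

theorem noRf_cb (B : G4 k) : NoRf (cb ρ B) π ↔ NoRf ρ π := by simp [NoRf]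
theorem re_cb (B : G4 k) : RE (cb ρ B) ↔ RE ρ := by simp [RE]
theorem tf_cb (B : G4 k) (q : ℕ) : TF q (cb ρ B) ↔ TF q ρ := by simp [TF]
theorem tu_cb (B : G4 k) (q : ℕ) : TU q (cb ρ B) ↔ TU q ρ := by simp [TU]

theorem val_mul' (x y : X) : (ρ (x * y)).val = (ρ x).val * (ρ y).val := by
  rw [map_mul, Units.val_mul]

theorem val_pow' (x : X) (n : ℕ) : (ρ (x ^ n)).val = (ρ x).val ^ n := by
  rw [map_pow, Units.val_pow_eq_pow_val]

theorem tr_mul_comm (x y : X) : tr ρ (x * y) = tr ρ (y * x) := by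
  rw [tr, tr, val_mul', val_mul', trace_mul_comm]

theorem tr_conj (a x : X) : tr ρ (a * x * a⁻¹) = tr ρ x := by
  rw [tr_mul_comm, ← mul_assoc, inv_mul_cancel, one_mul]

theorem tr_isConj {x y : X} (h : IsConj x y) : tr ρ x = tr ρ y := by
  obtain ⟨c, rfl⟩ := isConj_iff.1 h
  exact (tr_conj c x).symm

theorem tr_one : tr ρ 1 = 4 := by simp [tr]

theorem tr_of_scalar {z : X} {c : k} (h : (ρ z).val = c • 1) (x : X) :
    tr ρ (z * x) = c * tr ρ x := by
  rw [tr, val_mul', h, Matrix.smul_mul, one_mul, trace_smul, smul_eq_mul, tr]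

/-- Anticommuting elements have trace zero. -/
theorem tr_eq_zero_of_anti (h2 : (2 : k) ≠ 0) {g h : X}
    (e : (ρ g).val * (ρ h).val = -((ρ h).val * (ρ g).val)) : tr ρ g = 0 ∧ tr ρ h = 0 := by
  constructor
  · have : (ρ h)⁻¹.val * (ρ g).val * (ρ h).val = -(ρ g).val := by
      rw [mul_assoc, e, mul_neg, ← mul_assoc, val_inv_mul, one_mul]
    have h1 := congrArg trace this
    rw [trace_conj, trace_neg] at h1
    exact (mul_eq_zero.1 (by rw [tr]; linear_combination h1 : 2 * tr ρ g = 0)).resolve_left h2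
  · have : (ρ g).val * (ρ h).val * (ρ g)⁻¹.val = -(ρ h).val := by
      rw [e, neg_mul, mul_assoc, val_mul_inv, mul_one]
    have h1 := congrArg trace this
    rw [trace_conj', trace_neg] at h1
    exact (mul_eq_zero.1 (by rw [tr]; linear_combination h1 : 2 * tr ρ h = 0)).resolve_left h2

/-- Simultaneous diagonalisation in `X`. -/
theorem exists_diag [IsAlgClosed k] (ρ : X →* G4 k) (s : Set X)
    (hc : ∀ a ∈ s, ∀ b ∈ s, a * b = b * a) (hn : ∀ a ∈ s, ∃ n : ℕ, (n : k) ≠ 0 ∧ a ^ n = 1) :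
    ∃ B : G4 k, ∀ a ∈ s, ∃ d : Fin 4 → k, (cb ρ B a).val = diagonal d := by
  obtain ⟨B, hB⟩ := exists_diag_mat (fun a : s => (ρ a).val)
    (fun a b => by rw [← val_mul', ← val_mul', hc a a.2 b b.2])
    fun a => (hn a a.2).imp fun n h => ⟨h.1, by rw [← val_pow', h.2, map_one, Units.val_one]⟩
  exact ⟨B, fun a ha => (hB ⟨a, ha⟩).imp fun d hd => by rw [cb_val, hd]⟩

namespace R4

variable (h : R4 p ρ π)
include h

theorem trans {Γ' : Type*} [Group Γ'] (e : Γ ≃* Γ') : R4 p ρ (e.toMonoidHom.comp π) :=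
  have := h.simple
  ⟨h.prime, h.char, h.inj, h.det, h.perf, h.span, e.surjective.comp h.surj,
    fun g => e.map_eq_one_iff.trans (h.ker g), e.symm.isSimpleGroup,
    fun c => h.nab ⟨⟨fun a b => e.injective (by rw [map_mul, map_mul, c.1.1])⟩⟩, h.ut⟩

theorem cb (B : G4 k) : R4 p (cb ρ B) π := by
  refine ⟨h.prime, h.char, (MulAut.conj B⁻¹).injective.comp h.inj, fun x => ?_, h.perf, ?_, h.surj,
    fun x => (h.ker x).trans (exists_congr fun c => ⟨fun e => ?_, fun e => ?_⟩), h.simple, h.nab,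
    fun Q hQ => ?_⟩
  · rw [cb_val, det_mul, det_mul, h.det, mul_one, ← det_mul, val_inv_mul, det_one]
  · rw [LD.cb, ← MonoidHom.map_range]
    exact H19.gspan_map_conj_eq_top h.span _
  · rw [cb_val, e, Matrix.mul_smul, Matrix.smul_mul, mul_one, val_inv_mul]
  · rw [val_eq_cb B, e, Matrix.mul_smul, Matrix.smul_mul, mul_one, val_mul_inv]
  · obtain ⟨C, hC⟩ := h.ut Q hQ
    exact ⟨B⁻¹ * C, fun x hx => by
      rw [cb_apply]; convert hC x hx using 1; group⟩

theorem two_ne (hp : p ≠ 2) : (2 : k) ≠ 0 := fun e => by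
  have := h.char
  exact hp ((Nat.prime_dvd_prime_iff_eq h.prime Nat.prime_two).1
    ((CharP.cast_eq_zero_iff k p 2).1 (by exact_mod_cast e)))

theorem two_eq (hp : p = 2) : (2 : k) = 0 := by
  have := h.char
  subst hp
  exact_mod_cast CharP.cast_eq_zero k 2

theorem cast_ne {n : ℕ} (hn : ¬ p ∣ n) : (n : k) ≠ 0 := fun e =>
  have := h.char
  hn ((CharP.cast_eq_zero_iff k p n).1 e)

theorem cast_prime_ne {r : ℕ} (hr : r.Prime) (hn : r ≠ p) : (r : k) ≠ 0 :=
  h.cast_ne fun e => hn ((Nat.prime_dvd_prime_iff_eq h.prime hr).1 e).symm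

theorem ext {x y : X} (e : (ρ x).val = (ρ y).val) : x = y := h.inj (Units.ext e)

theorem eq_one {x : X} (e : (ρ x).val = 1) : x = 1 := h.ext (by rw [e, map_one, Units.val_one])

/-- The kernel consists of scalars `c`, `c ^ 4 = 1`. -/
theorem sc {z : X} (hz : π z = 1) : ∃ c : k, c ^ 4 = 1 ∧ (ρ z).val = c • 1 := by
  obtain ⟨c, hc⟩ := (h.ker z).1 hz
  exact ⟨c, by simpa [hc] using h.det z, hc⟩

theorem comm_of_ker {z : X} (hz : π z = 1) (g : X) : Commute z g := by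
  obtain ⟨c, hc⟩ := (h.ker z).1 hz
  exact h.ext (by rw [val_mul', val_mul', hc]; simp)

theorem pow_four {z : X} (hz : π z = 1) : z ^ 4 = 1 := by
  obtain ⟨c, h1, hc⟩ := h.sc hz
  exact h.eq_one (by rw [val_pow', hc, smul_pow, h1, one_pow, one_smul])

theorem eq_one_of_odd {z : X} (hz : π z = 1) {N : ℕ} (hN : Odd N) (e : z ^ N = 1) : z = 1 := by
  have : N.gcd 4 = 1 := (Nat.coprime_two_right.2 hN).pow_right 2
  simpa [this] using pow_gcd_eq_one.2 ⟨e, h.pow_four hz⟩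

theorem eq_one_of_two (hp : p = 2) {z : X} (hz : π z = 1) : z = 1 := by
  obtain ⟨c, h1, hc⟩ := h.sc hz
  have h2 := h.two_eq hp
  have : c = 1 := sub_eq_zero.1 (pow_eq_zero_iff (n := 4) (by norm_num) |>.1
    (by linear_combination h1 + (-2 * c ^ 3 + 3 * c ^ 2 - 2 * c + 1) * h2))
  exact h.eq_one (by rw [hc, this, one_smul])

theorem inj_of_two (hp : p = 2) : Function.Injective π :=
  (injective_iff_map_eq_one π).2 fun _ => h.eq_one_of_two hp

omit h in
theorem exists_ker {g g' : X} (e : π g = π g') : ∃ z, π z = 1 ∧ g' = z * g :=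
  ⟨g' * g⁻¹, by rw [map_mul, map_inv, e, mul_inv_cancel], by group⟩

/-- Two lifts differ by a scalar. -/
theorem exists_smul {g g' : X} (e : π g = π g') :
    ∃ c : k, c ^ 4 = 1 ∧ (ρ g').val = c • (ρ g).val := by
  obtain ⟨z, hz, rfl⟩ := exists_ker e
  obtain ⟨c, h1, hc⟩ := h.sc hz
  exact ⟨c, h1, by rw [val_mul', hc, Matrix.smul_mul, one_mul]⟩

theorem eq_of_smul {g g' : X} {c : k} (e : (ρ g').val = c • (ρ g).val) : π g' = π g := by
  rw [← mul_inv_eq_one, ← map_inv, ← map_mul, h.ker]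
  exact ⟨c, by rw [val_mul', e, map_inv, Matrix.smul_mul, val_mul_inv]⟩

/-- A central element of square one is `1` or `-1`. -/
theorem pm_of_sq {z : X} (hz : π z = 1) (e : z * z = 1) : z = 1 ∨ (ρ z).val = -1 := by
  obtain ⟨c, -, hc⟩ := h.sc hz
  have h1 : (ρ (z * z)).val 0 0 = 1 := by rw [e]; simp
  rw [val_mul', hc] at h1
  have h2 : c * c = 1 := by simpa using h1
  rcases mul_self_eq_one_iff.1 h2 with rfl | rfl
  · exact Or.inl (h.eq_one (by rw [hc, one_smul]))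
  · exact Or.inr (by rw [hc, neg_smul, one_smul])

theorem eq_of_sq {z z' : X} (hz : π z = 1) (e : z * z = 1) (h1 : z ≠ 1) (hz' : π z' = 1)
    (e' : z' * z' = 1) (h1' : z' ≠ 1) : z = z' :=
  h.ext (by rw [(h.pm_of_sq hz e).resolve_left h1, (h.pm_of_sq hz' e').resolve_left h1'])

theorem eq_of_pow {g g' : X} (e : π g = π g') {N : ℕ} (hN : Odd N) (e' : g ^ N = g' ^ N) :
    g = g' := by
  obtain ⟨z, hz, rfl⟩ := exists_ker e
  rw [(h.comm_of_ker hz g).mul_pow, eq_comm, mul_eq_right] at e'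
  rw [h.eq_one_of_odd hz hN e', one_mul]

/-- Elements of odd order have lifts of odd order. -/
theorem lift {x : Γ} {N : ℕ} (hN : Odd N) (e : x ^ N = 1) : ∃ g, π g = x ∧ g ^ N = 1 := by
  obtain ⟨g, rfl⟩ := h.surj x
  have hz : π (g ^ N) = 1 := by rw [map_pow, e]
  have h4 := h.pow_four hz
  obtain ⟨m, rfl⟩ := hN
  refine ⟨g ^ (2 * m + 1) ^ 2 * ((g ^ (2 * m + 1)) ^ (2 * m + 1))⁻¹ * (g *
    (g ^ (2 * m + 1)) ^ (3 * (2 * m + 1))), ?_, ?_⟩
  · rw [← pow_mul, ← sq, mul_inv_cancel, one_mul, map_mul, map_pow, hz, one_pow, mul_one]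
  · rw [← pow_mul, ← sq, mul_inv_cancel, one_mul,
      (((Commute.refl g).pow_right _).pow_right _).mul_pow, ← pow_mul, ← pow_succ',
      show 3 * (2 * m + 1) * (2 * m + 1) + 1 = 4 * (3 * m * m + 3 * m + 1) by ring, pow_mul, h4,
      one_pow]

theorem conj_of_odd {a g g' : X} {N : ℕ} (hN : Odd N) (e : g ^ N = 1) (e' : g' ^ N = 1)
    (c : π a * π g * (π a)⁻¹ = π g') : a * g * a⁻¹ = g' :=
  h.eq_of_pow (by simpa using c) hN (by rw [conj_pow, e, e']; group)

theorem isConj_of_odd {g g' : X} {N : ℕ} (hN : Odd N) (e : g ^ N = 1) (e' : g' ^ N = 1)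
    (c : IsConj (π g) (π g')) : IsConj g g' := by
  obtain ⟨a, ha⟩ := isConj_iff.1 c
  obtain ⟨a, rfl⟩ := h.surj a
  exact isConj_iff.2 ⟨a, h.conj_of_odd hN e e' ha⟩

theorem commute_of_odd {g a : X} {N : ℕ} (hN : Odd N) (e : g ^ N = 1)
    (c : Commute (π g) (π a)) : Commute g a := by
  have := h.conj_of_odd (a := a) hN e e (by rw [← c.eq]; group)
  calc g * a = a * g * a⁻¹ * a := by rw [this]
    _ = a * g := by group

/-! The commutator of lifts is the bimultiplicative form `β`. -/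

omit h in
theorem comm_ker {g a : X} (c : Commute (π g) (π a)) : π ⁅g, a⁆ = 1 := by
  rw [map_commutatorElement, commutatorElement_eq_one_iff_commute.2 c]

theorem comm_congr {g g' a a' : X} (e : π g = π g') (e' : π a = π a') : ⁅g, a⁆ = ⁅g', a'⁆ := by
  obtain ⟨z, hz, rfl⟩ := exists_ker e
  obtain ⟨w, hw, rfl⟩ := exists_ker e'
  have h1 : ∀ x, z * x * z⁻¹ = x := fun x => by rw [(h.comm_of_ker hz x).eq]; group
  have h2 : ∀ x, w * x * w⁻¹ = x := fun x => by rw [(h.comm_of_ker hw x).eq]; group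
  simp only [commutatorElement_def]
  calc g * a * g⁻¹ * a⁻¹ = z * (g * a * g⁻¹) * z⁻¹ * a⁻¹ := by rw [h1]
    _ = z * g * (w * (a * (z * g)⁻¹ * a⁻¹) * w⁻¹) := by rw [h2]; group
    _ = _ := by group

theorem comm_mul_left {g g' a : X} (c' : Commute (π g') (π a)) :
    ⁅g * g', a⁆ = ⁅g, a⁆ * ⁅g', a⁆ := by
  have h1 := (h.comm_of_ker (comm_ker c') g).eq
  have h2 := (h.comm_of_ker (comm_ker c') ⁅g, a⁆).eq
  rw [← h2]
  calc ⁅g * g', a⁆ = g * ⁅g', a⁆ * (a * g⁻¹ * a⁻¹) := by simp only [commutatorElement_def]; group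
    _ = _ := by rw [← h1]; simp only [commutatorElement_def]; group

theorem comm_mul_right {g a a' : X} (c' : Commute (π g) (π a')) :
    ⁅g, a * a'⁆ = ⁅g, a⁆ * ⁅g, a'⁆ := by
  have h1 := (h.comm_of_ker (comm_ker c') a).eq
  calc ⁅g, a * a'⁆ = ⁅g, a⁆ * (a * ⁅g, a'⁆) * a⁻¹ := by simp only [commutatorElement_def]; group
    _ = _ := by rw [← h1]; group

theorem comm_conj {g a : X} (c : Commute (π g) (π a)) (b : X) :
    ⁅b * g * b⁻¹, b * a * b⁻¹⁆ = ⁅g, a⁆ := by
  calc _ = b * ⁅g, a⁆ * b⁻¹ := by simp only [commutatorElement_def]; group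
    _ = _ := by rw [← (h.comm_of_ker (comm_ker c) b).eq]; group

theorem comm_eq_one_of_ker {z : X} (hz : π z = 1) (a : X) : ⁅z, a⁆ = 1 :=
  commutatorElement_eq_one_iff_commute.2 (h.comm_of_ker hz a)

theorem comm_sq {g a : X} (c : Commute (π g) (π a)) (e : π g * π g = 1) :
    ⁅g, a⁆ * ⁅g, a⁆ = 1 := by
  rw [← h.comm_mul_left c, h.comm_eq_one_of_ker (by rw [map_mul, e])]

theorem comm_symm {g a : X} (c : Commute (π g) (π a)) (e : π g * π g = 1) : ⁅a, g⁆ = ⁅g, a⁆ := by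
  rw [← commutatorElement_inv, inv_eq_of_mul_eq_one_right (h.comm_sq c e)]

/-- Lifts commute or anticommute. -/
theorem pm {g a : X} (c : Commute (π g) (π a)) (e : π g * π g = 1) :
    Commute g a ∨ (ρ g).val * (ρ a).val = -((ρ a).val * (ρ g).val) := by
  refine (h.pm_of_sq (comm_ker c) (h.comm_sq c e)).imp commutatorElement_eq_one_iff_commute.1
    fun e' => ?_
  rw [← val_mul', show g * a = ⁅g, a⁆ * (a * g) by simp only [commutatorElement_def]; group,
    val_mul', e', val_mul', neg_mul, one_mul]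

theorem tr_eq_zero_of_not_commute (hp : p ≠ 2) {g a : X} (c : Commute (π g) (π a))
    (e : π g * π g = 1) (hn : ¬ Commute g a) : tr ρ g = 0 ∧ tr ρ a = 0 :=
  tr_eq_zero_of_anti (h.two_ne hp) ((h.pm c e).resolve_left hn)

/-- A reflection commutes with the lifts of its centraliser. -/
theorem commute_of_tr_ne (hp : p ≠ 2) {g a : X} (c : Commute (π g) (π a))
    (e : π g * π g = 1) (hn : tr ρ g ≠ 0) : Commute g a :=
  by_contra fun h1 => hn (h.tr_eq_zero_of_not_commute hp c e h1).1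

theorem tr_conj {g g' : X} (c : IsConj (π g) (π g')) :
    ∃ c : k, c ^ 4 = 1 ∧ tr ρ g' = c * tr ρ g := by
  obtain ⟨a, ha⟩ := isConj_iff.1 c
  obtain ⟨a, rfl⟩ := h.surj a
  obtain ⟨c, h1, h2⟩ := h.exists_smul (g := a * g * a⁻¹) (g' := g') (by simpa using ha)
  exact ⟨c, h1, by rw [← LD.tr_conj a g, tr, h2, trace_smul, smul_eq_mul, tr]⟩

theorem tr_eq_zero_of_isConj {g g' : X} (c : IsConj (π g) (π g')) (e : tr ρ g = 0) :
    tr ρ g' = 0 := by
  obtain ⟨c, -, hc⟩ := h.tr_conj c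
  rw [hc, e, mul_zero]

theorem tr_pow_char_pow (g : X) (n : ℕ) : tr ρ (g ^ p ^ n) = tr ρ g ^ p ^ n := by
  have := h.char
  have := Fact.mk h.prime
  rw [tr, val_pow', H19.trace_pow_char_pow, tr]

theorem tr_pow_char (g : X) : tr ρ (g ^ p) = tr ρ g ^ p := by
  simpa using h.tr_pow_char_pow g 1

theorem pow_inj {a b : k} (n : ℕ) (e : a ^ p ^ n = b ^ p ^ n) : a = b := by
  have := h.char
  have := Fact.mk h.prime
  exact (iterateFrobenius k p n).injective e

theorem exists_coprime [Finite X] (g : X) : ∃ n, ¬ p ∣ orderOf (g ^ p ^ n) := by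
  obtain ⟨n, m, h1, h2⟩ := Nat.exists_eq_pow_mul_and_not_dvd (orderOf_pos g).ne' p h.prime.ne_one
  refine ⟨n, fun e => h1 (e.trans (orderOf_dvd_of_pow_eq_one ?_))⟩
  rw [← pow_mul, ← h2, pow_orderOf_eq_one]

/-- It is enough to look at `p'`-elements. -/
theorem re_of [Finite X] (H : ∀ x, ¬ p ∣ orderOf x → tr ρ x⁻¹ = tr ρ x) : RE ρ := fun x => by
  obtain ⟨n, hn⟩ := h.exists_coprime x
  exact h.pow_inj n (by rw [← h.tr_pow_char_pow, ← h.tr_pow_char_pow, inv_pow, H _ hn])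

theorem tf_of [Finite X] {q : ℕ} (H : ∀ x, ¬ p ∣ orderOf x → tr ρ x ^ q = tr ρ x) : TF q ρ :=
  fun x => by
  obtain ⟨n, hn⟩ := h.exists_coprime x
  exact h.pow_inj n (by rw [pow_right_comm, ← h.tr_pow_char_pow, H _ hn])

theorem tu_of [Finite X] {q : ℕ} (H : ∀ x, ¬ p ∣ orderOf x → tr ρ x ^ q = tr ρ x⁻¹) : TU q ρ :=
  fun x => by
  obtain ⟨n, hn⟩ := h.exists_coprime x
  exact h.pow_inj n (by
    rw [pow_right_comm, ← h.tr_pow_char_pow, H _ hn, ← h.tr_pow_char_pow, inv_pow])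

theorem scalar_of_comm {M : M4 k} (e : ∀ x, M * (ρ x).val = (ρ x).val * M) :
    ∃ c : k, M = c • 1 :=
  H19.exists_smul_of_commute_gspan h.span (by rintro _ ⟨x, rfl⟩; exact e x)

/-- Irreducibility. -/
theorem irr (A : Submodule k (V4 k)) (hA : ∀ x, ∀ a ∈ A, (ρ x).val *ᵥ a ∈ A) : A = ⊥ ∨ A = ⊤ := by
  refine or_iff_not_imp_left.2 fun h0 => eq_top_iff.2 fun w _ => ?_
  obtain ⟨a, ha, h1⟩ := (Submodule.ne_bot_iff A).1 h0
  have key : ∀ M : M4 k, M *ᵥ a ∈ A := fun M =>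
    H19.gspan_induction (p := fun M => M *ᵥ a ∈ A) (h.span ▸ Algebra.mem_top : M ∈ H19.gspan ρ.range)
      (by rintro _ ⟨x, rfl⟩; exact hA x a ha) (by simp)
      (fun x y hx hy => by rw [add_mulVec]; exact A.add_mem hx hy)
      fun c x hx => by rw [smul_mulVec]; exact A.smul_mem c hx
  obtain ⟨i, hi⟩ := Function.ne_iff.1 h1
  have := key (vecMulVec w (Pi.single i (a i)⁻¹))
  rwa [vecMulVec_mulVec, single_dotProduct, inv_mul_cancel₀ hi, op_smul_eq_smul, one_smul] at this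

/-- Irreducibility of the dual. -/
theorem irr' (A : Submodule k (V4 k)) (hA : ∀ x, ∀ a ∈ A, a ᵥ* (ρ x).val ∈ A) : A = ⊥ ∨ A = ⊤ := by
  refine or_iff_not_imp_left.2 fun h0 => eq_top_iff.2 fun w _ => ?_
  obtain ⟨a, ha, h1⟩ := (Submodule.ne_bot_iff A).1 h0
  have key : ∀ M : M4 k, a ᵥ* M ∈ A := fun M =>
    H19.gspan_induction (p := fun M => a ᵥ* M ∈ A) (h.span ▸ Algebra.mem_top : M ∈ H19.gspan ρ.range)
      (by rintro _ ⟨x, rfl⟩; exact hA x a ha) (by simp)
      (fun x y hx hy => by rw [vecMul_add]; exact A.add_mem hx hy)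
      fun c x hx => by rw [vecMul_smul]; exact A.smul_mem c hx
  obtain ⟨i, hi⟩ := Function.ne_iff.1 h1
  have := key (vecMulVec (Pi.single i (a i)⁻¹) w)
  rwa [vecMul_vecMulVec, dotProduct_single, mul_inv_cancel₀ hi, one_smul] at this

/-- A normal subgroup is central or everything. -/
theorem normal_eq_top (N : Subgroup X) [N.Normal] {x : X} (hx : x ∈ N) (h1 : π x ≠ 1) : N = ⊤ := by
  have := h.simple
  have hm : N.map π = ⊤ := ((Subgroup.Normal.map ‹_› π h.surj).eq_bot_or_eq_top).resolve_left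
    fun e => h1 (Subgroup.mem_bot.1 (e ▸ Subgroup.mem_map_of_mem π hx))
  rw [eq_top_iff, ← h.perf, commutator_def, Subgroup.commutator_le]
  intro a _ b _
  obtain ⟨a', ha, e⟩ : π a ∈ N.map π := hm ▸ Subgroup.mem_top _
  rw [← h.comm_congr e (rfl : π b = π b), commutatorElement_def, mul_assoc, mul_assoc,
    ← mul_assoc b]
  exact N.mul_mem ha (‹N.Normal›.conj_mem _ (N.inv_mem ha) b)

/-- A subgroup mapping onto `Γ` is everything. -/
theorem eq_top_of_map (N : Subgroup X) (hm : N.map π = ⊤) : N = ⊤ := by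
  rw [eq_top_iff, ← h.perf, commutator_def, Subgroup.commutator_le]
  intro a _ b _
  obtain ⟨a', ha, e⟩ : π a ∈ N.map π := hm ▸ Subgroup.mem_top _
  obtain ⟨b', hb, e'⟩ : π b ∈ N.map π := hm ▸ Subgroup.mem_top _
  rw [← h.comm_congr e e', commutatorElement_def]
  exact N.mul_mem (N.mul_mem (N.mul_mem ha hb) (N.inv_mem ha)) (N.inv_mem hb)

theorem tr_inv (g : X) : tr ρ g⁻¹ = (ρ g).val.adjugate.trace := by
  rw [tr, map_inv, coe_units_inv, inv_def, h.det]; simp

/-- Cayley–Hamilton. -/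
theorem CH4 (g : X) : ∃ s : k, 2 * s = tr ρ g ^ 2 - tr ρ (g ^ 2) ∧
    (ρ g).val ^ 4 - tr ρ g • (ρ g).val ^ 3 + s • (ρ g).val ^ 2 - tr ρ g⁻¹ • (ρ g).val + 1 = 0 ∧
    tr ρ (g ^ 3) = tr ρ g * tr ρ (g ^ 2) - s * tr ρ g + 3 * tr ρ g⁻¹ := by
  obtain ⟨s, h1, h2⟩ := CH4_mat (ρ g).val
  rw [h.det, one_smul, ← h.tr_inv] at h2
  refine ⟨s, by rw [h1, tr, tr, val_pow', sq (ρ g).val], h2, ?_⟩
  have h3 := congrArg (fun M => (M * (ρ g)⁻¹.val).trace) h2
  simp only [add_mul, sub_mul, Matrix.smul_mul, pow_succ _ 3, pow_succ _ 2, pow_succ _ 1, pow_one,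
    mul_assoc, val_mul_inv, mul_one, one_mul, zero_mul, trace_add, trace_sub, trace_smul,
    trace_one, trace_zero, smul_eq_mul, Fintype.card_fin, Nat.cast_ofNat] at h3
  simp only [tr, val_mul', pow_succ _ 2, pow_succ _ 1, pow_one, mul_assoc, map_inv] at h3 ⊢
  linear_combination h3

/-- The diagonal entries of a lift of an involution. -/
theorem exists_sign {g : X} {d : Fin 4 → k} (hd : (ρ g).val = diagonal d) (e : π g * π g = 1) :
    d 0 ≠ 0 ∧ ∀ i, d i = d 0 ∨ d i = -d 0 := by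
  obtain ⟨c, -, hc⟩ := h.sc (z := g * g) (by rw [map_mul, e])
  rw [val_mul', hd, diagonal_mul_diagonal] at hc
  have h1 : ∀ i, d i * d i = c := fun i => by simpa using congrFun (congrFun hc i) i
  have h2 := h.det g
  rw [hd, det_diagonal] at h2
  exact ⟨fun h0 => by rw [Finset.prod_eq_zero (Finset.mem_univ 0) h0] at h2; exact zero_ne_one h2,
    fun i => mul_self_eq_mul_self_iff.1 (by rw [h1, h1])⟩

theorem pow_eight {g : X} (e : π g * π g = 1) : g ^ 8 = 1 := by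
  rw [show 8 = 2 * 4 from rfl, pow_mul, h.pow_four (by rw [sq, map_mul, e])]

/-- A lift `g` of an involution is a reflection iff `g ^ 4 ≠ 1`, and then `g ^ 4 = -1`. -/
theorem tr_eq_zero_iff [IsAlgClosed k] (hp : p ≠ 2) {g : X} (h1 : π g ≠ 1) (e : π g * π g = 1) :
    tr ρ g = 0 ↔ g ^ 4 = 1 := by
  have h2 := h.two_ne hp
  obtain ⟨B, hB⟩ := exists_diag ρ {g} (by simp) (by
    rintro _ rfl
    exact ⟨8, by rw [show (8 : ℕ) = 2 ^ 3 from rfl, Nat.cast_pow]; exact pow_ne_zero _ h2,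
      h.pow_eight e⟩)
  obtain ⟨d, hd⟩ := hB g rfl
  have h' := h.cb B
  obtain ⟨h0, hs⟩ := h'.exists_sign hd e
  have h3 := h'.det g
  rw [hd, det_diagonal, Fin.prod_univ_four] at h3
  have h4 : g ^ 4 = 1 ↔ d 0 ^ 4 = 1 := by
    constructor
    · intro e4
      have : (LD.cb ρ B (g ^ 4)).val 0 0 = 1 := by rw [e4]; simp
      rwa [val_pow', hd, diagonal_pow, diagonal_apply_eq] at this
    · refine fun e4 => h'.eq_one ?_
      rw [val_pow', hd, diagonal_pow, ← diagonal_one]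
      congr 1
      funext i
      rcases hs i with hi | hi <;> rw [Pi.pow_apply, hi, ← e4]; ring
  have h5 : ¬ (d 1 = d 0 ∧ d 2 = d 0 ∧ d 3 = d 0) := fun ⟨a, b, c⟩ => h1 ((h'.ker g).2 ⟨d 0, by
    rw [hd, smul_one_eq_diagonal]; congr 1; funext i; fin_cases i <;> simp [a, b, c]⟩)
  have h6 : ∀ a : k, a = 2 * d 0 ∨ a = -(2 * d 0) → d 0 ^ 4 = -1 → (a = 0 ↔ d 0 ^ 4 = 1) :=
    fun a ha hb => iff_of_false
      (by rcases ha with rfl | rfl <;> simp [h2, h0]) fun hc => h2 (by linear_combination hb - hc)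
  rw [← tr_cb B, tr, hd, trace_diagonal, Fin.sum_univ_four, h4]
  rcases hs 1 with a | a <;> rcases hs 2 with b | b <;> rcases hs 3 with c | c
  · exact absurd ⟨a, b, c⟩ h5
  all_goals
    rw [a, b, c] at h3 ⊢
    first
      | exact iff_of_true (by ring1) (by linear_combination h3)
      | exact h6 _ (Or.inl (by ring1)) (by linear_combination -h3)
      | exact h6 _ (Or.inr (by ring1)) (by linear_combination -h3)

theorem tr_eq_zero_of_two (hp : p = 2) {g : X} (e : π g * π g = 1) : tr ρ g = 0 := by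
  have h1 : g ^ p = 1 := by rw [hp, sq]; exact h.eq_one_of_two hp (by rw [map_mul, e])
  have h2 := h.tr_pow_char g
  rw [h1, tr_one, hp] at h2
  exact pow_eq_zero_iff two_ne_zero |>.1 (by linear_combination 2 * h.two_eq hp - h2)

/-- One class of involutions and a four-group: no reflections. -/
theorem noRf_of_one [IsAlgClosed k] (h1 : One Γ)
    (hv : ∃ a b : Γ, a ≠ 1 ∧ b ≠ 1 ∧ a ≠ b ∧ a * a = 1 ∧ b * b = 1 ∧ Commute a b) : NoRf ρ π := by
  intro x hx hx2
  by_cases hp : p = 2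
  · exact h.tr_eq_zero_of_two hp hx2
  by_contra hn
  obtain ⟨a, b, ha, hb, hab, ha2, hb2, c⟩ := hv
  obtain ⟨a, rfl⟩ := h.surj a
  obtain ⟨b, rfl⟩ := h.surj b
  have key : ∀ y, π y ≠ 1 → π y * π y = 1 → tr ρ y ≠ 0 ∧ π (y ^ 4) = 1 ∧ y ^ 4 * y ^ 4 = 1 ∧
      y ^ 4 ≠ 1 := fun y hy hy2 => by
    have : tr ρ y ≠ 0 := fun e => hn (h.tr_eq_zero_of_isConj (h1 _ _ hy hy2 hx hx2) e)
    exact ⟨this, by rw [map_pow, show 4 = 2 * 2 from rfl, pow_mul, sq (π y), hy2, one_pow],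
      by rw [← pow_add, h.pow_eight hy2], fun e => this ((h.tr_eq_zero_iff hp hy hy2).2 e)⟩
  obtain ⟨a1, a2, a3, a4⟩ := key a ha ha2
  obtain ⟨-, b2, b3, b4⟩ := key b hb hb2
  refine (key (a * b) (fun e => hab ?_) ?_).2.2.2 ?_
  · rw [map_mul] at e
    rw [eq_inv_of_mul_eq_one_left e, inv_eq_of_mul_eq_one_right hb2]
  · rw [map_mul, mul_assoc, ← mul_assoc (π b), ← c.eq, mul_assoc, hb2, mul_one, ha2]
  · rw [(h.commute_of_tr_ne hp c ha2 a1).mul_pow, ← h.eq_of_sq a2 a3 a4 b2 b3 b4, a3]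

end R4

end H20.LD
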