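import Cfsg.Agent.H20.LD4Mon

/-! LD4: the four-dimensional representation of `SL₂(7)` and seven alternating forms. -/

set_option autoImplicit false

namespace H20.LD.L7

open Cfsg Cfsg.Geo Matrix

universe u

/-- The ring of integers of the seventh cyclotomic field. -/
structure Z7 where
  (c0 c1 c2 c3 c4 c5 : ℤ)
  deriving DecidableEq

namespace Z7

def add (a b : Z7) : Z7 :=
  ⟨a.c0 + b.c0, a.c1 + b.c1, a.c2 + b.c2, a.c3 + b.c3, a.c4 + b.c4, a.c5 + b.c5⟩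

def red (d0 d1 d2 d3 d4 d5 d6 : ℤ) : Z7 := ⟨d0 - d6, d1 - d6, d2 - d6, d3 - d6, d4 - d6, d5 - d6⟩

def mul (a b : Z7) : Z7 :=
  red (a.c0 * b.c0 + (a.c2 * b.c5 + a.c3 * b.c4 + a.c4 * b.c3 + a.c5 * b.c2))
    (a.c0 * b.c1 + a.c1 * b.c0 + (a.c3 * b.c5 + a.c4 * b.c4 + a.c5 * b.c3))
    (a.c0 * b.c2 + a.c1 * b.c1 + a.c2 * b.c0 + (a.c4 * b.c5 + a.c5 * b.c4))
    (a.c0 * b.c3 + a.c1 * b.c2 + a.c2 * b.c1 + a.c3 * b.c0 + a.c5 * b.c5)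
    (a.c0 * b.c4 + a.c1 * b.c3 + a.c2 * b.c2 + a.c3 * b.c1 + a.c4 * b.c0)
    (a.c0 * b.c5 + a.c1 * b.c4 + a.c2 * b.c3 + a.c3 * b.c2 + a.c4 * b.c1 + a.c5 * b.c0)
    (a.c1 * b.c5 + a.c2 * b.c4 + a.c3 * b.c3 + a.c4 * b.c2 + a.c5 * b.c1)

def n (a : ℤ) : Z7 := ⟨a, 0, 0, 0, 0, 0⟩

/-- Powers of `ζ`. -/
def zt (m : ℕ) : Z7 :=
  match m % 7 with
  | 0 => ⟨1, 0, 0, 0, 0, 0⟩ | 1 => ⟨0, 1, 0, 0, 0, 0⟩ | 2 => ⟨0, 0, 1, 0, 0, 0⟩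
  | 3 => ⟨0, 0, 0, 1, 0, 0⟩ | 4 => ⟨0, 0, 0, 0, 1, 0⟩ | 5 => ⟨0, 0, 0, 0, 0, 1⟩
  | _ => ⟨-1, -1, -1, -1, -1, -1⟩

end Z7

open Z7

abbrev M7 : Type := Fin 4 → Fin 4 → Z7

def mm (A B : M7) : M7 := fun i j =>
  add (add (add (mul (A i 0) (B 0 j)) (mul (A i 1) (B 1 j))) (mul (A i 2) (B 2 j)))
    (mul (A i 3) (B 3 j))
def tp (A : M7) : M7 := fun i j => A j i
def sm (c : Z7) (A : M7) : M7 := fun i j => mul c (A i j)
def ad (A B : M7) : M7 := fun i j => add (A i j) (B i j)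
def I7 : M7 := fun i j => if i = j then n 1 else n 0
def alt (a b : Fin 4) : M7 := fun i j =>
  if i = a ∧ j = b then n 1 else if i = b ∧ j = a then n (-1) else n 0

def ee : Fin 4 → ℕ := ![0, 1, 2, 4]
def th : Z7 := ⟨1, 2, 2, 0, 2, 0⟩
def D7 : M7 := fun i j => if i = j then zt (ee i) else n 0
def H7 : M7 := ![![n 1, n 0, n 0, n 0], ![n 0, n 0, n 1, n 0], ![n 0, n 0, n 0, n 1],
  ![n 0, n 1, n 0, n 0]]
def W7 : M7 := ![![n (-1), n 1, n 1, n 1],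
  ![n 2, ⟨0, 0, -1, 0, 0, -1⟩, ⟨1, 0, 1, 1, 1, 1⟩, ⟨0, 0, 0, -1, -1, 0⟩],
  ![n 2, ⟨1, 0, 1, 1, 1, 1⟩, ⟨0, 0, 0, -1, -1, 0⟩, ⟨0, 0, -1, 0, 0, -1⟩],
  ![n 2, ⟨0, 0, 0, -1, -1, 0⟩, ⟨0, 0, -1, 0, 0, -1⟩, ⟨1, 0, 1, 1, 1, 1⟩]]
def J7 : M7 := ![![n (-1), ⟨0, 0, 0, 0, 1, 0⟩, ⟨0, 1, 0, 0, 0, 0⟩, ⟨0, 0, 1, 0, 0, 0⟩],
  ![⟨0, 0, 0, 2, 0, 0⟩, ⟨0, 0, 0, -1, -1, 0⟩, ⟨1, 1, 0, 1, 1, 1⟩, ⟨1, 1, 1, 1, 0, 1⟩],
  ![⟨-2, -2, -2, -2, -2, -2⟩, ⟨0, -1, 0, 0, 0, -1⟩, ⟨1, 0, 1, 1, 1, 1⟩, ⟨0, 0, 0, 0, -1, -1⟩],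
  ![⟨0, 0, 0, 0, 0, 2⟩, ⟨0, -1, 0, -1, 0, 0⟩, ⟨0, 0, -1, -1, 0, 0⟩, ⟨0, 0, -1, 0, 0, -1⟩]]
def T7 : M7 := ![![⟨-10, -6, -6, 0, -6, 0⟩, ⟨-1, 0, 0, -4, -1, -1⟩, ⟨3, 3, 4, 3, 4, 4⟩,
    ⟨0, 1, 0, 1, 1, -3⟩],
  ![⟨2, 0, 2, 2, 8, 0⟩, ⟨-6, 2, 2, 0, 2, 0⟩, ⟨2, 0, 0, -6, 2, 2⟩, ⟨-2, -2, 6, 0, 0, -2⟩],
  ![⟨0, 6, -2, -2, 0, -2⟩, ⟨-2, 0, -2, -2, 6, 0⟩, ⟨-6, 2, 2, 0, 2, 0⟩, ⟨8, 8, 6, 8, 6, 6⟩],
  ![⟨2, 2, 8, 0, 0, 2⟩, ⟨0, -2, 0, -2, -2, -8⟩, ⟨0, 8, 2, 2, 0, 2⟩, ⟨-6, 2, 2, 0, 2, 0⟩]]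
def f0 : M7 := ![![n 0, n 1, n 1, n 1], ![n (-1), n 0, ⟨1, 1, 1, 0, 1, 0⟩, ⟨-1, -1, -1, 0, -1, 0⟩],
  ![n (-1), ⟨-1, -1, -1, 0, -1, 0⟩, n 0, ⟨1, 1, 1, 0, 1, 0⟩],
  ![n (-1), ⟨1, 1, 1, 0, 1, 0⟩, ⟨-1, -1, -1, 0, -1, 0⟩, n 0]]
/-- The seven forms. -/
def f7 (m : Fin 7) : M7 := fun i j => mul (zt (m * (ee i + ee j))) (f0 i j)

def sD : Equiv.Perm (Fin 7) := finRotate 7
def sW : Equiv.Perm (Fin 7) := Equiv.swap 1 4 * Equiv.swap 5 6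
def sT : Equiv.Perm (Fin 7) := Equiv.swap 1 6 * Equiv.swap 1 5

theorem actD : ∀ m, mm (mm D7 (f7 m)) (tp D7) = sm (n 1) (f7 (sD m)) := by decide +kernel
theorem actW : ∀ m, mm (mm W7 (f7 m)) (tp W7) = sm (n (-7)) (f7 (sW m)) := by decide +kernel
theorem actT : ∀ m, mm (mm T7 (f7 m)) (tp T7) = sm (n 196) (f7 (sT m)) := by decide +kernel
theorem J7_eq : mm (mm (mm (mm D7 D7) D7) W7) (mm D7 H7) = J7 := by decide +kernel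
theorem T7_eq : ad (ad (ad (sm (n (-7)) I7) (sm th W7)) (sm th J7)) (mm W7 J7) = T7 := by
  decide +kernel
theorem W7_sq : mm W7 W7 = sm (n 7) I7 := by decide +kernel
theorem J7_sq : mm J7 J7 = sm (n 7) I7 := by decide +kernel
theorem JW7 : mm J7 W7 = sm (n (-1)) (mm W7 J7) := by decide +kernel

/-- The Fourier components of the forms. -/
def four (s : ℕ) : M7 := ad (ad (ad (ad (ad (ad (sm (zt 0) (f7 0)) (sm (zt s) (f7 1)))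
  (sm (zt (2 * s)) (f7 2))) (sm (zt (3 * s)) (f7 3))) (sm (zt (4 * s)) (f7 4)))
  (sm (zt (5 * s)) (f7 5))) (sm (zt (6 * s)) (f7 6))

theorem four_eq : ∀ a b : Fin 4, a ≠ b → ∃ c ∈ [n 2, n (-2), ⟨0, 1, 1, 0, 1, 0⟩,
    ⟨0, -1, -1, 0, -1, 0⟩], sm c (four (7 - (ee a + ee b))) = sm (n 14) (alt a b) := by
  decide +kernel

/-- Collinearity in the plane of order two. -/
def col (a b c : Fin 7) : Prop := ∃ m : Fin 7, ∀ x ∈ [a, b, c], x = m ∨ x = m + 2 ∨ x = m + 3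

instance (a b c : Fin 7) : Decidable (col a b c) := by unfold col; infer_instance

/-- The collineations. -/
def Fano : Subgroup (Equiv.Perm (Fin 7)) where
  carrier := {σ | ∀ a b c, col a b c ↔ col (σ a) (σ b) (σ c)}
  mul_mem' ha hb a b c := (hb a b c).trans (ha _ _ _)
  one_mem' _ _ _ := Iff.rfl
  inv_mem' {σ} h a b c := by simpa using (h (σ⁻¹ a) (σ⁻¹ b) (σ⁻¹ c)).symm

theorem sD_mem : sD ∈ Fano := by
  change ∀ a b c, col a b c ↔ col (sD a) (sD b) (sD c); decide +kernel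
theorem sW_mem : sW ∈ Fano := by
  change ∀ a b c, col a b c ↔ col (sW a) (sW b) (sW c); decide +kernel
theorem sT_notMem : sT ∉ Fano := fun h => absurd (h 0 1 5) (by decide +kernel)

variable {k : Type u} [Field k]

/-- `ζ` is a primitive seventh root of unity. -/
def Phi (ζ : k) : Prop := 1 + ζ + ζ ^ 2 + ζ ^ 3 + ζ ^ 4 + ζ ^ 5 + ζ ^ 6 = 0

def ev (ζ : k) (a : Z7) : k :=
  a.c0 + a.c1 * ζ + a.c2 * ζ ^ 2 + a.c3 * ζ ^ 3 + a.c4 * ζ ^ 4 + a.c5 * ζ ^ 5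

def evM (ζ : k) (A : M7) : M4 k := of fun i j => ev ζ (A i j)

variable {ζ : k}

theorem ev_add (a b : Z7) : ev ζ (add a b) = ev ζ a + ev ζ b := by
  simp only [ev, Z7.add]; push_cast; ring

theorem ev_n (a : ℤ) : ev ζ (n a) = a := by simp [ev, n]

theorem evM_apply (A : M7) (i j : Fin 4) : evM ζ A i j = ev ζ (A i j) := rfl

theorem evM_tp (A : M7) : evM ζ (tp A) = (evM ζ A)ᵀ := rfl

theorem evM_ad (A B : M7) : evM ζ (ad A B) = evM ζ A + evM ζ B := by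
  ext i j; exact ev_add _ _

theorem evM_I : evM ζ I7 = 1 := by
  ext i j; by_cases h : i = j <;> simp [evM_apply, I7, ev_n, h, one_apply]

theorem Phi.pow_seven (hz : Phi ζ) : ζ ^ 7 = 1 := by
  unfold Phi at hz; linear_combination (ζ - 1) * hz

theorem Phi.ev_mul (hz : Phi ζ) (a b : Z7) : ev ζ (mul a b) = ev ζ a * ev ζ b := by
  simp only [ev, mul, red]
  push_cast
  unfold Phi at hz
  linear_combination (-((a.c1 : k) * b.c5 + a.c2 * b.c4 + a.c3 * b.c3 + a.c4 * b.c2 + a.c5 * b.c1) -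
    (ζ - 1) * (a.c2 * b.c5 + a.c3 * b.c4 + a.c4 * b.c3 + a.c5 * b.c2 +
      (a.c3 * b.c5 + a.c4 * b.c4 + a.c5 * b.c3) * ζ + (a.c4 * b.c5 + a.c5 * b.c4) * ζ ^ 2 +
      a.c5 * b.c5 * ζ ^ 3)) * hz

theorem Phi.ev_zt (hz : Phi ζ) (m : ℕ) : ev ζ (zt m) = ζ ^ m := by
  rw [pow_eq_pow_mod m hz.pow_seven, zt]
  have := Nat.mod_lt m (show 0 < 7 by decide)
  unfold Phi at hz
  generalize m % 7 = r at this
  interval_cases r <;> simp [ev]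
  linear_combination -hz

theorem Phi.evM_mm (hz : Phi ζ) (A B : M7) : evM ζ (mm A B) = evM ζ A * evM ζ B := by
  ext i j
  simp only [evM_apply, mm, ev_add, hz.ev_mul, mul_apply, Fin.sum_univ_four]

theorem Phi.evM_sm (hz : Phi ζ) (c : Z7) (A : M7) : evM ζ (sm c A) = ev ζ c • evM ζ A := by
  ext i j; exact hz.ev_mul _ _

theorem Phi.th_sq (hz : Phi ζ) : ev ζ th * ev ζ th = -7 := by
  rw [← hz.ev_mul, show mul th th = n (-7) by decide, ev_n]; simp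

theorem Phi.inj (hz : Phi ζ) (h7 : (7 : k) ≠ 0) {a b : ℕ} (e : ζ ^ a = ζ ^ b) : a % 7 = b % 7 := by
  have : Fact (Nat.Prime 7) := ⟨by norm_num⟩
  have h1 : orderOf ζ = 7 := orderOf_eq_prime hz.pow_seven fun e => h7 (by
    unfold Phi at hz; rw [e] at hz; linear_combination hz)
  have h0 : ζ ≠ 0 := fun e => by have := hz.pow_seven; simp [e] at this
  have h2 : orderOf (Units.mk0 ζ h0) = 7 := by rw [← orderOf_units]; exact h1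
  have : Units.mk0 ζ h0 ^ a = Units.mk0 ζ h0 ^ b := Units.ext (by simpa using e)
  rwa [pow_eq_pow_iff_modEq, h2] at this

/-- `t` permutes the seven forms. -/
def Act (ζ : k) (t : G4 k) (σ : Equiv.Perm (Fin 7)) : Prop :=
  ∃ c : k, c ≠ 0 ∧ ∀ m, t.val * evM ζ (f7 m) * t.valᵀ = c • evM ζ (f7 (σ m))

variable {t t' : G4 k} {σ τ : Equiv.Perm (Fin 7)}

theorem Act.mul (h : Act ζ t σ) (h' : Act ζ t' τ) : Act ζ (t * t') (σ * τ) := by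
  obtain ⟨c, c0, hc⟩ := h
  obtain ⟨d, d0, hd⟩ := h'
  refine ⟨d * c, mul_ne_zero d0 c0, fun m => ?_⟩
  calc _ = t.val * (t'.val * evM ζ (f7 m) * t'.valᵀ) * t.valᵀ := by
        simp only [Units.val_mul, transpose_mul, mul_assoc]
    _ = _ := by rw [hd, Matrix.mul_smul, Matrix.smul_mul, hc, smul_smul]; rfl

theorem Act.inv (h : Act ζ t σ) : Act ζ t⁻¹ σ⁻¹ := by
  obtain ⟨c, c0, hc⟩ := h
  refine ⟨c⁻¹, inv_ne_zero c0, fun m => ?_⟩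
  have := congrArg (fun A => c⁻¹ • ((t⁻¹).val * A * (t⁻¹).valᵀ)) (hc (σ⁻¹ m))
  simp only [show σ (σ⁻¹ m) = m by simp, Matrix.mul_smul, Matrix.smul_mul, inv_smul_smul₀ c0] at this
  rw [← this, ← mul_assoc, ← mul_assoc, val_inv_mul, one_mul, mul_assoc, ← transpose_mul,
    val_inv_mul, transpose_one, mul_one]

theorem act_scalar {c : k} (h : t.val = c • 1) : Act ζ t 1 :=
  ⟨c * c, mul_self_ne_zero.2 fun e => t.ne_zero (by rw [h, e, zero_smul]), fun m => by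
    simp [h, smul_smul]⟩

theorem act_of (hz : Phi ζ) {A : M7} {c : k} {d : ℤ} (hc : c ≠ 0) (hd : (d : k) ≠ 0)
    (e : c • t.val = evM ζ A) (h : ∀ m, mm (mm A (f7 m)) (tp A) = sm (n d) (f7 (σ m))) :
    Act ζ t σ := by
  refine ⟨(c * c)⁻¹ * d, mul_ne_zero (inv_ne_zero (mul_ne_zero hc hc)) hd, fun m => ?_⟩
  have := congrArg (evM ζ) (h m)
  rw [hz.evM_mm, hz.evM_mm, evM_tp, hz.evM_sm, ev_n, ← e, transpose_smul, Matrix.smul_mul,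
    Matrix.smul_mul, Matrix.mul_smul, smul_smul] at this
  rw [← smul_smul, ← this, inv_smul_smul₀ (mul_ne_zero hc hc)]

theorem Act.unique (hz : Phi ζ) (h7 : (7 : k) ≠ 0) (h : Act ζ t σ) (h' : Act ζ t τ) : σ = τ := by
  obtain ⟨c, c0, hc⟩ := h
  obtain ⟨d, -, hd⟩ := h'
  refine Equiv.ext fun m => Fin.ext ?_
  have e := (hc m).symm.trans (hd m)
  have e1 := congrFun (congrFun e 0) 1
  have e2 := congrFun (congrFun e 0) 2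
  simp [evM_apply, f7, hz.ev_mul, hz.ev_zt, ee, f0, ev_n] at e1 e2
  have h0 : ζ ≠ 0 := fun e => by have := hz.pow_seven; simp [e] at this
  have := hz.inj h7 (a := σ m) (b := τ m) (mul_left_cancel₀ (mul_ne_zero c0 (pow_ne_zero (σ m) h0))
    (by rw [pow_mul] at e2; rw [pow_mul] at e2; linear_combination e2 - ζ ^ (τ m : ℕ) * e1))
  rwa [Nat.mod_eq_of_lt (σ m).2, Nat.mod_eq_of_lt (τ m).2] at this

theorem Act.scalar (hz : Phi ζ) (h14 : (14 : k) ≠ 0) (h : Act ζ t 1) : ∃ c : k, t.val = c • 1 := by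
  obtain ⟨c, c0, hc⟩ := h
  have h1 : ∀ a b : Fin 4, a ≠ b → t.val * evM ζ (alt a b) * t.valᵀ = c • evM ζ (alt a b) := by
    intro a b hab
    obtain ⟨d, -, hd⟩ := four_eq a b hab
    have e := congrArg (evM ζ) hd
    rw [hz.evM_sm, hz.evM_sm, ev_n, Int.cast_ofNat] at e
    refine smul_right_injective _ h14 ?_
    change (14 : k) • _ = (14 : k) • _
    rw [smul_comm, ← Matrix.smul_mul, ← Matrix.mul_smul, ← e]
    simp only [four, evM_ad, hz.evM_sm, mul_add, add_mul, Matrix.mul_smul, Matrix.smul_mul, hc,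
      smul_add, Equiv.Perm.one_apply, smul_comm c]
  have h2 : ∀ a b, b ≠ a → t.val b a = 0 := fun a b hab => by
    obtain ⟨d, d1, d2⟩ : ∃ d, a ≠ d ∧ b ≠ d := by revert a b; decide
    have e := congrArg (fun A => (A * (t⁻¹).valᵀ) b d) (h1 a d d1)
    simp only [mul_assoc, ← transpose_mul, val_inv_mul, transpose_one, mul_one, Matrix.smul_mul,
      Matrix.smul_apply] at e
    simpa [mul_apply, evM_apply, alt, apply_ite (ev ζ), ev_n, hab, d2, d1, d1.symm] using e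
  have h3 : ∀ a b, a ≠ b → t.val a a * t.val b b = c := fun a b hab => by
    have e := congrFun (congrFun (h1 a b hab) a) b
    rw [(Mon.eq_diagonal (g := t) fun i j => h2 j i), diagonal_transpose, mul_diagonal,
      diagonal_mul] at e
    simpa [evM_apply, alt, ev_n] using e
  refine ⟨t.val 0 0, ?_⟩
  rw [(Mon.eq_diagonal (g := t) fun i j => h2 j i), smul_one_eq_diagonal]
  congr 1
  funext i
  obtain ⟨d, d1, d2⟩ : ∃ d, i ≠ d ∧ 0 ≠ d := by revert i; decide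
  exact mul_right_cancel₀ (right_ne_zero_of_mul (h3 _ _ d1 ▸ c0)) ((h3 _ _ d1).trans (h3 _ _ d2).symm)

end H20.LD.L7
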