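import Cfsg.Agent.H20.LD4L7A

/-! LD4: the normal form of the four-dimensional representation of `SL₂(7)`. -/

set_option autoImplicit false

namespace H20.LD

open Cfsg Cfsg.Geo Matrix
open scoped MatrixGroups

universe u v

variable {k : Type u} [Field k] {X : Type u} [Group X] {Γ : Type v} [Group Γ] {p : ℕ}
  {ρ : X →* G4 k} {π : X →* Γ}

/-- Permuting and rescaling the basis. -/
theorem exists_cb_mon (ν : Equiv.Perm (Fin 4)) (s : Fin 4 → k) (hs : ∀ i, s i ≠ 0) :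
    ∃ B : G4 k, ∀ (M : M4 k) i j, ((B⁻¹).val * M * B.val) i j = (s i)⁻¹ * M (ν i) (ν j) * s j := by
  have h : (of fun i j => if j = ν i then (s i)⁻¹ else 0 : M4 k) *
      (of fun i j => if i = ν j then s j else 0) = 1 := by
    ext i j
    by_cases e : i = j
    · subst e; simp [mul_apply, hs]
    · simp [mul_apply, e, Ne.symm e]
  refine ⟨⟨_, _, mul_eq_one_comm.1 h, h⟩, fun M i j => ?_⟩
  simp [mul_apply]

/-- Induction over generators of a finite group, without inverses. -/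
theorem ind_of_closure [Finite X] {s : Set X} (hs : Subgroup.closure s = ⊤) {P : X → Prop}
    (h1 : P 1) (hm : ∀ a b, P a → P b → P (a * b)) (hg : ∀ a ∈ s, P a) (x : X) : P x := by
  have hp : ∀ a n, P a → P (a ^ n) := fun a n ha => by
    induction n with
    | zero => simpa using h1
    | succ n ih => rw [pow_succ]; exact hm _ _ ih ha
  refine Subgroup.closure_induction'' (p := fun g _ => P g) hg (fun a ha => ?_) h1
    (fun a b _ _ => hm a b) (hs ▸ Subgroup.mem_top x)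
  rw [inv_eq_of_mul_eq_one_right (b := a ^ (orderOf a - 1)) (by
    rw [← pow_succ', Nat.sub_add_cancel (orderOf_pos a), pow_orderOf_eq_one])]
  exact hp _ _ (hg a ha)

namespace L7

open Z7

theorem solve {ζ a t x y z e : k} (h2 : (2 : k) ≠ 0) (h7 : (7 : k) ≠ 0) (hz : Phi ζ)
    (he : e ^ 4 = 1) (h0 : a ^ 2 + 3 * t = e) (h1 : a + (x + y + z) = 0)
    (h00 : e * (a ^ 2 + t * (ζ + ζ ^ 2 + ζ ^ 4)) = a)
    (e1 : e * (a + (ζ * z + ζ ^ 2 * x + ζ ^ 4 * y)) * ζ = 1)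
    (e2 : e * (a + (ζ * x + ζ ^ 2 * y + ζ ^ 4 * z)) * ζ ^ 2 = 1)
    (e3 : e * (a + (ζ * y + ζ ^ 2 * z + ζ ^ 4 * x)) * ζ ^ 4 = 1) :
    ev ζ th * a = -1 ∧ 7 * t = -2 ∧ ev ζ th * x = 1 + ζ ^ 2 + ζ ^ 3 + ζ ^ 4 + ζ ^ 5 ∧
      ev ζ th * y = -ζ ^ 3 - ζ ^ 4 ∧ ev ζ th * z = -ζ ^ 2 - ζ ^ 5 := by
  have ht : ev ζ th = 1 + 2 * (ζ + ζ ^ 2 + ζ ^ 4) := by simp [ev, th]; ring
  unfold Phi at hz
  have s0 : e * a * (3 - (ζ + ζ ^ 2 + ζ ^ 4)) = -1 - (ζ + ζ ^ 2 + ζ ^ 4) := by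
    linear_combination (-1 - ζ - ζ ^ 2 - ζ ^ 3 - ζ ^ 4 - ζ ^ 5) * e1 + (ζ ^ 5) * e2 + (ζ ^ 3) * e3 +
      (-e * ζ - e * ζ ^ 2 - e * ζ ^ 4) * h1 + (3 * a * e - 2 * a * e * ζ + e * x * ζ +
      e * x * ζ ^ 4 - e * x * ζ ^ 5 + e * y * ζ - e * y * ζ ^ 3 + e * y * ζ ^ 4 + e * z * ζ +
      e * z * ζ ^ 2 - e * z * ζ ^ 3 + e * z * ζ ^ 4 - e * z * ζ ^ 5) * hz
  have s1 : (1 + 2 * (ζ + ζ ^ 2 + ζ ^ 4)) * (e * a) = 1 := mul_left_cancel₀ h2 (by
    linear_combination (ζ + ζ ^ 2 + ζ ^ 4) * s0 +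
      (-2 + 2 * a * e - a * e * ζ + a * e * ζ ^ 2 + ζ - ζ ^ 2) * hz)
  have s2 : 7 * (e ^ 2 * t) = -2 := mul_left_cancel₀ h2 (by
    linear_combination (-7 * e - 7 * e * ζ - 7 * e * ζ ^ 2 - 7 * e * ζ ^ 4) * h00 +
      (-4 + 3 * a * e - a * e * ζ - a * e * ζ ^ 2 - a * e * ζ ^ 4) * s1 +
      (4 * a ^ 2 * e ^ 2 - 2 * a ^ 2 * e ^ 2 * ζ + 2 * a ^ 2 * e ^ 2 * ζ ^ 2 + 14 * e ^ 2 * t -
      7 * e ^ 2 * t * ζ + 7 * e ^ 2 * t * ζ ^ 2) * hz)
  obtain rfl : e = -1 := mul_left_cancel₀ h7 (by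
    linear_combination (-7 * e ^ 3) * h0 + (3 * e) * s2 + (-a * e ^ 2 - 2 * a * e ^ 2 * ζ -
      2 * a * e ^ 2 * ζ ^ 2 - 2 * a * e ^ 2 * ζ ^ 4 - e) * s1 + (-7) * he +
      (8 * a ^ 2 * e ^ 3 - 4 * a ^ 2 * e ^ 3 * ζ + 4 * a ^ 2 * e ^ 3 * ζ ^ 2) * hz)
  rw [ht]
  refine ⟨by linear_combination -s1, by linear_combination s2, mul_left_cancel₀ h2 ?_,
    mul_left_cancel₀ h2 ?_, mul_left_cancel₀ h2 ?_⟩
  · linear_combination (2 + ζ ^ 2 + 2 * ζ ^ 3 + ζ ^ 4 + ζ ^ 5) * e1 +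
      (2 + ζ + 2 * ζ ^ 2 + ζ ^ 3 + ζ ^ 4) * e2 + (-1 - ζ ^ 3 + ζ ^ 4 + ζ ^ 5) * e3 +
      (-1 - ζ - ζ ^ 2 - ζ ^ 4) * s1 + (-a - 2 * a * ζ ^ 2 + a * ζ ^ 3 + 2 * x + 2 * x * ζ +
      x * ζ ^ 4 - 2 * x * ζ ^ 5 + x * ζ ^ 7 + 2 * y * ζ ^ 4 + 2 * z * ζ ^ 2 - 2 * z * ζ ^ 3 +
      z * ζ ^ 4 + z * ζ ^ 5) * hz
  · linear_combination (2 + 2 * ζ + ζ ^ 2 + ζ ^ 4 + ζ ^ 5) * e1 +
      (-2 - ζ - ζ ^ 3 - ζ ^ 4 - 2 * ζ ^ 5) * e2 + (1 - ζ ^ 3 - ζ ^ 4 + ζ ^ 5) * e3 +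
      (-1 - ζ - ζ ^ 2 - ζ ^ 4) * s1 + (-a - 4 * a * ζ ^ 2 + a * ζ ^ 3 + x * ζ ^ 4 - 2 * x * ζ ^ 6 +
      x * ζ ^ 7 + 2 * y + 2 * y * ζ - 4 * y * ζ ^ 3 + 2 * y * ζ ^ 4 + 2 * z * ζ ^ 2 - z * ζ ^ 4 -
      z * ζ ^ 5) * hz
  · linear_combination (2 * ζ + ζ ^ 2 + 2 * ζ ^ 3 + ζ ^ 4 + ζ ^ 5) * e1 +
      (-ζ - 2 * ζ ^ 2 - ζ ^ 3 - ζ ^ 4 - 2 * ζ ^ 5) * e2 + (1 - ζ ^ 3 + ζ ^ 4 - ζ ^ 5) * e3 +
      (-1 - ζ - ζ ^ 2 - ζ ^ 4) * s1 + (-a - 2 * a * ζ - a * ζ ^ 3 + x * ζ ^ 4 - 2 * x * ζ ^ 5 +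
      2 * x * ζ ^ 6 - x * ζ ^ 7 + 2 * z + 2 * z * ζ - 2 * z * ζ ^ 3 + 3 * z * ζ ^ 4 -
      3 * z * ζ ^ 5) * hz

theorem evM_D {ζ : k} (hz : Phi ζ) : evM ζ D7 = diagonal fun i => ζ ^ ee i := by
  ext i j
  by_cases h : i = j <;> simp [evM_apply, D7, hz.ev_zt, ev_n, h]

theorem evM_H {ζ : k} : evM ζ H7 = !![1, 0, 0, 0; 0, 0, 1, 0; 0, 0, 0, 1; 0, 1, 0, 0] := by
  ext i j
  fin_cases i <;> fin_cases j <;> simp [evM_apply, H7, ev_n]

variable [IsAlgClosed k] (h : R4 p ρ π) {g hh w : X}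
include h

/-- An element of order seven conjugate to its square. -/
theorem nf1 (h7 : (7 : k) ≠ 0) (hg : g ^ 7 = 1) (h1 : π g ≠ 1) (hc : hh * g = g ^ 2 * hh) :
    ∃ B ζ, Phi ζ ∧ (cb ρ B g).val = evM ζ D7 := by
  obtain ⟨B, hB⟩ := exists_diag ρ {g} (by simp) (by rintro _ rfl; exact ⟨7, h7, hg⟩)
  obtain ⟨d, hd⟩ := hB g rfl
  have h' := h.cb B
  have d7 : ∀ i, d i ^ 7 = 1 := fun i => by
    have : (cb ρ B (g ^ 7)).val i i = 1 := by rw [hg]; simp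
    rwa [val_pow', hd, diagonal_pow, diagonal_apply_eq] at this
  obtain ⟨σ, hσ⟩ := exists_perm_ne_zero (val_det_ne_zero (cb ρ B hh))
  have e := congrArg (fun x => (cb ρ B x).val) hc
  simp only [val_mul', val_pow', hd, diagonal_pow] at e
  have e1 : ∀ i, d (σ⁻¹ i) = d i ^ 2 := fun i => by
    simpa using by_contra fun c => hσ (σ⁻¹ i) (eq_zero_of_mul_diagonal e c)
  obtain ⟨j, hj⟩ : ∃ j, d j ≠ 1 := by_contra fun c => h1 ((h'.ker g).2 ⟨1, by
    push Not at c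
    rw [hd, one_smul, ← diagonal_one]; congr 1; exact funext c⟩)
  have hz : Phi (d j) := mul_left_cancel₀ (sub_ne_zero.2 hj) (by linear_combination d7 j)
  have e2 : d (σ⁻¹ (σ⁻¹ j)) = d j ^ 4 := by rw [e1, e1, ← pow_mul]
  have n : ∀ {a b : ℕ} {i i' : Fin 4}, d i = d j ^ a → d i' = d j ^ b → a % 7 ≠ b % 7 → i ≠ i' :=
    fun a b c e => c (hz.inj h7 (by rw [← a, ← b, e]))
  obtain ⟨ν, v1, v2, v3⟩ := (by decide : ∀ a b c : Fin 4, a ≠ b → a ≠ c → b ≠ c →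
    ∃ ν : Equiv.Perm (Fin 4), ν 1 = a ∧ ν 2 = b ∧ ν 3 = c) j _ _
    (n (pow_one _).symm (e1 j) (by decide)) (n (pow_one _).symm e2 (by decide))
    (n (e1 j) e2 (by decide))
  have e3 := h'.det g
  rw [hd, det_diagonal, ← Equiv.prod_comp ν, Fin.prod_univ_four, v1, v2, v3, e2, e1] at e3
  have e4 : d (ν 0) = 1 := by linear_combination e3 - d (ν 0) * d7 j
  obtain ⟨C, hC⟩ := exists_cb_mon (k := k) ν (fun _ => 1) fun _ => one_ne_zero
  refine ⟨B * C, d j, hz, ?_⟩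
  ext a b
  rw [← cb_cb, cb_val, hC, hd, evM_D hz, inv_one, one_mul, mul_one, diagonal_apply, diagonal_apply]
  simp only [ν.injective.eq_iff]
  congr 1
  fin_cases a <;> simp [ee, e4, v1, v2, v3]
  exacts [e1 j, e2]

omit [IsAlgClosed k] in
theorem nf2 (h7 : (7 : k) ≠ 0) {ζ : k} (hz : Phi ζ) (hg : (ρ g).val = evM ζ D7) (h3 : hh ^ 3 = 1)
    (hc : hh * g = g ^ 2 * hh) :
    ∃ B, (cb ρ B g).val = evM ζ D7 ∧ (cb ρ B hh).val = evM ζ H7 := by
  have e := congrArg (fun x => (ρ x).val) hc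
  simp only [val_mul', val_pow', hg, evM_D hz, diagonal_pow] at e
  have e1 : ∀ i j, ee j % 7 ≠ ee i * 2 % 7 → (ρ hh).val i j = 0 := fun i j c =>
    eq_zero_of_mul_diagonal e fun a => c (hz.inj h7 (by rw [pow_mul]; exact a))
  have hm : Mon (ρ hh) (Equiv.swap 1 2 * Equiv.swap 1 3) := fun i j c => e1 i j (by
    revert i j; decide)
  have e2 : (ρ hh).val 1 2 * ((ρ hh).val 2 3 * (ρ hh).val 3 1) = 1 := by
    have : (ρ (hh ^ 3)).val 1 1 = 1 := by rw [h3]; simp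
    rw [pow_succ, sq, val_mul', val_mul', hm.mul_apply, hm.mul_apply, mul_assoc] at this
    exact this
  have e3 : (ρ hh).val 0 0 = 1 := by
    have := hm.det
    rw [h.det, Fin.prod_univ_four] at this
    simp only [Equiv.Perm.sign_mul, Equiv.Perm.sign_swap (show (1 : Fin 4) ≠ 2 by decide),
      Equiv.Perm.sign_swap (show (1 : Fin 4) ≠ 3 by decide)] at this
    change 1 = _ * ((ρ hh).val 0 0 * (ρ hh).val 3 1 * (ρ hh).val 1 2 * (ρ hh).val 2 3) at this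
    simp only [mul_neg, neg_neg, mul_one, Units.val_one, Int.cast_one] at this
    linear_combination -this - (ρ hh).val 0 0 * e2
  have n1 : (ρ hh).val 1 2 ≠ 0 := left_ne_zero_of_mul_eq_one e2
  have n2 : (ρ hh).val 2 3 ≠ 0 := left_ne_zero_of_mul (right_ne_zero_of_mul_eq_one e2)
  obtain ⟨C, hC⟩ := exists_cb_mon (k := k) 1 ![1, 1, ((ρ hh).val 1 2)⁻¹,
    ((ρ hh).val 1 2 * (ρ hh).val 2 3)⁻¹] fun i => by fin_cases i <;> simp [n1, n2]
  refine ⟨C, ?_, ?_⟩ <;> ext a b <;> rw [cb_val, hC]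
  · rw [hg, evM_D hz]
    fin_cases a <;> fin_cases b <;> simp <;> field_simp
  · have z := fun i j c => hm i j c
    have z1 := z 0 1 (by decide); have z2 := z 0 2 (by decide); have z3 := z 0 3 (by decide)
    have z4 := z 1 0 (by decide); have z5 := z 1 1 (by decide); have z6 := z 1 3 (by decide)
    have z7 := z 2 0 (by decide); have z8 := z 2 1 (by decide); have z9 := z 2 2 (by decide)
    have z10 := z 3 0 (by decide); have z11 := z 3 2 (by decide); have z12 := z 3 3 (by decide)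
    rw [evM_H]
    fin_cases a <;> fin_cases b <;> simp [*]
    · field_simp
    · linear_combination e2

omit [IsAlgClosed k] in
theorem nf3 [Finite X] (h2 : (2 : k) ≠ 0) (h7 : (7 : k) ≠ 0) {ζ : k} (hz : Phi ζ)
    (hg : (ρ g).val = evM ζ D7) (hH : (ρ hh).val = evM ζ H7) (hc : hh * w * hh = w)
    (hw : π (w * w) = 1) (h3 : (w * g) ^ 3 = 1) (hX : Subgroup.closure {g, w} = ⊤) :
    ∃ B, (cb ρ B g).val = evM ζ D7 ∧ (cb ρ B hh).val = evM ζ H7 ∧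
      ev ζ th • (cb ρ B w).val = evM ζ W7 := by
  obtain ⟨a, b, c, x, y, z, hW⟩ : ∃ a b c x y z : k, (ρ w).val =
      !![a, b, b, b; c, z, x, y; c, x, y, z; c, y, z, x] := by
    have e := congrArg (fun x => (ρ x).val) hc
    simp only [val_mul', hH, evM_H] at e
    have f := fun i j => congrFun (congrFun e i) j
    simp only [mul_apply, Fin.sum_univ_four] at f
    refine ⟨(ρ w).val 0 0, (ρ w).val 0 1, (ρ w).val 1 0, (ρ w).val 1 2, (ρ w).val 1 3,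
      (ρ w).val 1 1, ?_⟩
    have a1 := f 0 2; have a2 := f 0 3; have a3 := f 1 0; have a4 := f 2 0; have a5 := f 1 1
    have a6 := f 1 2; have a7 := f 1 3; have a8 := f 2 1; have a9 := f 2 2; have a10 := f 2 3
    simp at a1 a2 a3 a4 a5 a6 a7 a8 a9 a10
    ext i j
    fin_cases i <;> fin_cases j <;> simp [*]
  have hb : b ≠ 0 := by
    rintro rfl
    rcases h.irr (LinearMap.ker (LinearMap.proj (R := k) (φ := fun _ : Fin 4 => k) 0))
      (ind_of_closure hX (by simp) (fun a b ha hb v hv => by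
        rw [val_mul', ← mulVec_mulVec]; exact ha _ (hb v hv)) (by
        rintro _ (rfl | rfl) v hv
        · simpa [hg, evM_D hz, mulVec_diagonal, ee] using hv
        · simp only [LinearMap.mem_ker, LinearMap.proj_apply] at hv
          simp [hW, dotProduct, Fin.sum_univ_four, hv])) with e | e
    · simpa using (Submodule.eq_bot_iff _).1 e (Pi.single 1 1) (by simp)
    · simpa using (e ▸ Submodule.mem_top : Pi.single 0 1 ∈
        LinearMap.ker (LinearMap.proj (R := k) (φ := fun _ : Fin 4 => k) 0))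
  obtain ⟨e, he, hw⟩ := h.sc hw
  have h4 : e • ((ρ g).val * ((ρ w).val * (ρ g).val * (ρ w).val) * (ρ g).val) = (ρ w).val := by
    have := congrArg (fun x => (ρ (w * x)).val) h3
    simp only [pow_succ, pow_zero, one_mul, mul_one, ← mul_assoc] at this
    rw [mul_assoc, mul_assoc, mul_assoc, mul_assoc, val_mul', hw] at this
    simpa only [val_mul', mul_assoc, Matrix.smul_mul, one_mul] using this
  rw [val_mul', hW] at hw
  rw [hg, evM_D hz, hW] at h4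
  have f := fun j => congrFun (congrFun h4 0) j
  have f' := fun j => congrFun (congrFun hw 0) j
  simp only [Matrix.smul_apply, mul_diagonal, diagonal_mul, smul_eq_mul] at f
  simp only [mul_apply, Fin.sum_univ_four] at f f'
  have a0 := f 0; have a1 := f 1; have a2 := f 2; have a3 := f 3; have a4 := f' 0; have a5 := f' 1
  simp [ee, diagonal] at a0 a1 a2 a3 a4 a5
  obtain ⟨s1, s2, s3, s4, s5⟩ := solve (a := a) (t := b * c) (x := x) (y := y) (z := z) h2 h7 hz he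
    (by linear_combination a4) (mul_left_cancel₀ hb (by linear_combination a5))
    (by linear_combination a0) (mul_left_cancel₀ hb (by linear_combination a1))
    (mul_left_cancel₀ hb (by linear_combination a2)) (mul_left_cancel₀ hb (by linear_combination a3))
  have ht := hz.th_sq
  have t0 : ev ζ th ≠ 0 := fun c => h7 (by rw [c] at ht; linear_combination ht)
  obtain ⟨C, hC⟩ := exists_cb_mon (k := k) 1 ![ev ζ th * b, 1, 1, 1] fun i => by
    fin_cases i <;> simp [hb, t0]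
  refine ⟨C, ?_, ?_, ?_⟩ <;> ext i j
  · rw [cb_val, hC, hg, evM_D hz]
    fin_cases i <;> fin_cases j <;> simp <;> field_simp
  · rw [cb_val, hC, hH, evM_H]
    fin_cases i <;> fin_cases j <;> simp <;> field_simp
  · rw [Matrix.smul_apply, cb_val, hC, hW, evM_apply]
    generalize ev ζ th = θ at *
    fin_cases i <;> fin_cases j <;> simp [W7, ev, n] <;>
      first
      | linear_combination s3
      | linear_combination s4
      | linear_combination s5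
      | linear_combination b * c * ht - s2
      | (field_simp; linear_combination s1)
      | field_simp

end L7

end H20.LD
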