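import Cfsg.Agent.H20.LD4L7B

/-! LD4: `SL₂(7)` is not maximal in `SL₄(q)` or `SU₄(q)`. -/

set_option autoImplicit false

namespace H20.LD

open Cfsg Cfsg.Geo Matrix H19
open scoped MatrixGroups

universe u v

variable {k : Type u} [Field k] {F : Type u} [Field F] {p : ℕ}

theorem quat {R : Type*} [Ring R] {i j : R} (hi : i * i = -1) (hj : j * j = -1)
    (e : j * i = -(i * j)) : (1 + i + j + i * j) * (1 - i - j - i * j) = 4 ∧
      (1 + i + j + i * j) * (1 + i + j + i * j) = -2 * (1 - i - j - i * j) ∧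
      (i - j) * (1 + i + j + i * j) = (1 - i - j - i * j) * (i - j) ∧ (i - j) * (i - j) = -2 := by
  have a : ∀ x, i * (i * x) = -x := fun x => by rw [← mul_assoc, hi, neg_one_mul]
  have c : ∀ x, j * (i * x) = -(i * (j * x)) := fun x => by
    rw [← mul_assoc, e, neg_mul, mul_assoc]
  refine ⟨?_, ?_, ?_, ?_⟩ <;>
    simp only [mul_add, add_mul, mul_sub, sub_mul, mul_assoc, a, c, hi, hj, e, mul_neg, neg_neg,
      mul_one, one_mul, neg_mul, two_mul]
  · rw [show (4 : R) = 1 + 1 + 1 + 1 by norm_num]; abel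
  · rw [show (2 : R) = 1 + 1 by norm_num]; abel
  · abel
  · rw [show (2 : R) = 1 + 1 by norm_num]; abel

/-- The element of order three normalising a quaternion group. -/
theorem exists_t0 (h2 : (2 : F) ≠ 0) {i j : G4 F} (hi : i.val * i.val = -1)
    (hj : j.val * j.val = -1) (e : j.val * i.val = -(i.val * j.val)) :
    ∃ t : G4 F, (-2 : F) • t.val = 1 + i.val + j.val + i.val * j.val ∧ t.val.det = 1 ∧
      ∀ B : Frm (Fin 4) F, i ∈ B.Iso → j ∈ B.Iso → t ∈ B.Iso := by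
  obtain ⟨q1, q2, q3, q4⟩ := quat hi hj e
  have c2 : (-2 : M4 F) = (-2 : F) • 1 := by rw [neg_smul, two_smul, one_add_one_eq_two]
  have c4 : (4 : M4 F) = (4 : F) • 1 := by rw [← Algebra.algebraMap_eq_smul_one, map_ofNat]
  have a : ((-2 : F)⁻¹ • (1 + i.val + j.val + i.val * j.val)) *
      ((-2 : F)⁻¹ • (1 - i.val - j.val - i.val * j.val)) = 1 := by
    rw [smul_mul_smul_comm, q1, c4, smul_smul, show (-2 : F)⁻¹ * (-2)⁻¹ * 4 = 1 by
      field_simp; norm_num, one_smul]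
  have n2 : (-2 : F) ≠ 0 := neg_ne_zero.2 h2
  refine ⟨⟨_, _, a, mul_eq_one_comm.1 a⟩, smul_inv_smul₀ n2 _, ?_, fun B h1 h2 => ?_⟩
  · have d1 := congrArg det a
    have d2 := congrArg det (show ((-2 : F)⁻¹ • (1 + i.val + j.val + i.val * j.val)) *
        ((-2 : F)⁻¹ • (1 + i.val + j.val + i.val * j.val)) =
        (-2 : F)⁻¹ • (1 - i.val - j.val - i.val * j.val) by
      rw [smul_mul_smul_comm, q2, c2, smul_mul_assoc, one_mul, smul_smul, inv_mul_cancel_right₀ n2])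
    have d3 := congrArg det (show (i.val - j.val) * ((-2 : F)⁻¹ • (1 + i.val + j.val + i.val * j.val))
        = ((-2 : F)⁻¹ • (1 - i.val - j.val - i.val * j.val)) * (i.val - j.val) by
      rw [mul_smul_comm, q3, smul_mul_assoc])
    have d4 := congrArg det q4
    rw [det_mul, c2, det_smul, det_one, mul_one] at d4
    rw [det_mul, det_mul, mul_comm] at d3
    have d5 := mul_right_cancel₀ (left_ne_zero_of_mul (d4 ▸ pow_ne_zero _ n2)) d3
    rw [det_mul, ← d5] at d1 d2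
    exact mul_left_cancel₀ (left_ne_zero_of_mul_eq_one (d1.trans det_one)) (by rw [d2, mul_one])
  · rw [B.mem_Iso_iff_adj] at h1 h2 ⊢
    have i1 : (i⁻¹).val = -i.val := Units.inv_eq_of_mul_eq_one_right (by rw [mul_neg, hi, neg_neg])
    have j1 : (j⁻¹).val = -j.val := Units.inv_eq_of_mul_eq_one_right (by rw [mul_neg, hj, neg_neg])
    change B.adj (_ • _) = _ • _
    rw [B.adj_smul, B.adj_add, B.adj_add, B.adj_add, B.adj_mul, h1, h2, i1, j1, B.adj_one,
      neg_mul_neg, e, map_inv₀, map_neg, map_ofNat]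
    simp only [sub_eq_add_neg]

/-- Extension of scalars. -/
def bc (φ : F →+* k) (P : Subgroup (G4 F)) : P →* G4 k :=
  (GeneralLinearGroup.map φ).comp P.subtype

theorem bc_val (φ : F →+* k) {P : Subgroup (G4 F)} (x : P) : (bc φ P x).val = x.val.val.map φ := rfl

theorem tr_bc (φ : F →+* k) {P : Subgroup (G4 F)} (x : P) : tr (bc φ P) x = φ (trc x.val) :=
  (AddMonoidHom.map_trace φ _).symm

namespace L7

open Z7

theorem nf [IsAlgClosed k] {X : Type u} [Group X] [Finite X] {ρ : X →* G4 k}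
    {π : X →* SL(3, ZMod 2)} (h : R4 p ρ π) (h2 : (2 : k) ≠ 0) (h7 : (7 : k) ≠ 0) :
    ∃ B ζ g w hh, Phi ζ ∧ π g = a2 * b2 ∧ g ^ 7 = 1 ∧ Subgroup.closure {g, w} = ⊤ ∧
      (cb ρ B g).val = evM ζ D7 ∧ (cb ρ B hh).val = evM ζ H7 ∧
      ev ζ th • (cb ρ B w).val = evM ζ W7 := by
  obtain ⟨c, c1, c2, c3, c4⟩ : ∃ c : SL(3, ZMod 2), c ^ 3 = 1 ∧ c * (a2 * b2) = (a2 * b2) ^ 2 * c ∧
      c * a2 * c = a2 ∧ a2 * a2 = 1 :=
    ⟨⟨!![0, 0, 1; 1, 0, 1; 1, 1, 0], by decide +kernel⟩, by decide +kernel⟩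
  obtain ⟨g, g1, g2⟩ := h.lift (N := 7) (by decide) rig7_sl2.1
  obtain ⟨y, y1, y2⟩ := h.lift (N := 3) (by decide) ab2_rel.2.2.1
  obtain ⟨hh, rfl, h3⟩ := h.lift (N := 3) (by decide) c1
  have w1 : π (y * g⁻¹) = a2 := by
    rw [map_mul, map_inv, g1, y1, _root_.mul_inv_rev, mul_inv_cancel_left,
      inv_eq_of_mul_eq_one_right c4]
  have e1 : hh * g = g ^ 2 * hh := mul_inv_eq_iff_eq_mul.1 (h.conj_of_odd (N := 7) (by decide) g2
    (by rw [← pow_mul, mul_comm, pow_mul, g2, one_pow]) (by rw [map_pow, g1, c2]; group))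
  have e2 : hh * (y * g⁻¹) * hh = y * g⁻¹ := by
    have := h.conj_of_odd (a := (y * g⁻¹)⁻¹) (g' := hh⁻¹) (N := 3) (by decide) h3
      (by rw [inv_pow, h3, inv_one]) (by
        rw [map_inv, map_inv π hh, w1, inv_inv, eq_inv_iff_mul_eq_one, mul_assoc, mul_assoc,
          ← mul_assoc (π hh), c3, inv_mul_cancel])
    rw [inv_inv, eq_inv_iff_mul_eq_one, mul_assoc, mul_assoc, inv_mul_eq_one, ← mul_assoc] at this
    exact this.symm
  have hX : Subgroup.closure {g, y * g⁻¹} = ⊤ := h.eq_top_of_map _ (by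
    have a : a2 ∈ (Subgroup.closure {g, y * g⁻¹}).map π := ⟨_, Subgroup.subset_closure (by simp), w1⟩
    rw [eq_top_iff, ← closure_ab2, Subgroup.closure_le]
    rintro _ (rfl | rfl)
    · exact a
    · simpa using mul_mem (inv_mem a) (⟨g, Subgroup.subset_closure (by simp), g1⟩ :
        a2 * b2 ∈ (Subgroup.closure {g, y * g⁻¹}).map π))
  obtain ⟨B, ζ, hz, b1⟩ := nf1 h h7 g2 (g1 ▸ rig7_sl2.2.1) e1
  obtain ⟨C, b2, b3⟩ := nf2 (h.cb B) h7 hz b1 h3 e1
  obtain ⟨D, b4⟩ := nf3 ((h.cb B).cb C) h2 h7 hz b2 b3 e2 (by rw [map_mul, w1, c4])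
    (by simpa using y2) hX
  rw [cb_cb, cb_cb] at b4
  exact ⟨_, ζ, g, _, hh, hz, g1, g2, hX, b4⟩

/-- The elements permuting the seven forms. -/
def St (ζ : k) (Φ : G4 F →* G4 k) (S : Subgroup (Equiv.Perm (Fin 7))) : Subgroup (G4 F) where
  carrier := {t | ∃ σ ∈ S, Act ζ (Φ t) σ}
  mul_mem' := fun ⟨_, a, b⟩ ⟨_, c, d⟩ => ⟨_, mul_mem a c, by rw [map_mul]; exact b.mul d⟩
  one_mem' := ⟨1, one_mem _, act_scalar (c := 1) (by simp)⟩
  inv_mem' := fun ⟨_, a, b⟩ => ⟨_, inv_mem a, by rw [map_inv]; exact b.inv⟩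

theorem not_le_St {ζ : k} (hz : Phi ζ) (h2 : (2 : k) ≠ 0) (h7 : (7 : k) ≠ 0) {Φ : G4 F →* G4 k}
    (hΦ : Function.Injective Φ) {Ω : Subgroup (G4 F)} [Finite Ω] (hd : ∀ t ∈ Ω, (Φ t).val.det = 1)
    (hp : p.Prime) (p2 : p ≠ 2) (hc : p ^ 6 ∣ Nat.card Ω) : ¬ Ω ≤ St ζ Φ ⊤ := fun hle => by
  choose σ h1 hσ using fun t : Ω => hle t.2
  let f : Ω →* Equiv.Perm (Fin 7) := MonoidHom.mk' σ fun a b =>
    (hσ (a * b)).unique hz h7 (by rw [Subgroup.coe_mul, map_mul]; exact (hσ a).mul (hσ b))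
  have hK : IsPGroup 2 f.ker := fun t => ⟨2, Subtype.ext (Subtype.ext (hΦ (Units.ext (by
    obtain ⟨c, hc⟩ := (show Act ζ (Φ t.1.1) 1 from t.2 ▸ hσ t.1).scalar hz
      (by rw [show (14 : k) = 2 * 7 by norm_num]; exact mul_ne_zero h2 h7)
    have := hd _ t.1.2
    rw [hc, det_smul, det_one, mul_one, Fintype.card_fin] at this
    simp [hc, smul_pow, this]))))⟩
  have : Fact (Nat.Prime 2) := ⟨Nat.prime_two⟩
  obtain ⟨a, ha⟩ := hK.exists_card_eq
  rw [← f.ker.card_mul_index, Subgroup.index_ker, ha] at hc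
  have h3 := (Nat.Coprime.dvd_of_dvd_mul_left (Nat.Coprime.pow 6 a
    ((Nat.coprime_primes hp Nat.prime_two).2 p2)) hc).trans f.range.card_subgroup_dvd_card
  rw [Nat.card_perm, Nat.card_eq_fintype_card, Fintype.card_fin] at h3
  have h4 : p < 5 := lt_of_pow_lt_pow_left₀ 6 (by decide) ((Nat.le_of_dvd (by decide) h3).trans_lt
    (by decide))
  have := hp.two_le
  interval_cases p <;> simp_all [Nat.factorial]

theorem not_max [IsAlgClosed k] [Finite F] (φ : F →+* k) {H P Ω : Subgroup (G4 F)}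
    (hH : IsMaximalIn Ω H) (hP : IsResidualCore H P) (hs : gspan P = ⊤)
    {π : P →* SL(3, ZMod 2)} (hπ : Cov P π) (h : R4 p (bc φ P) π) (p2 : p ≠ 2) (p7 : p ≠ 7)
    (hS : Ω ≤ specialLinear (Fin 4) F)
    (hΩ : ∀ t : G4 F, t.val.det = 1 → (∀ B : Frm (Fin 4) F, P ≤ B.Iso → t ∈ B.Iso) → t ∈ Ω)
    (hc : p ^ 6 ∣ Nat.card Ω) : False := by
  have h2 := h.two_ne p2
  have h7 : (7 : k) ≠ 0 := by exact_mod_cast h.cast_prime_ne (r := 7) (by norm_num) p7.symm
  obtain ⟨B, ζ, g, w, hh, hz, g1, g2, hX, b1, b2, b3⟩ := nf h h2 h7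
  let Φ : G4 F →* G4 k := (MulAut.conj B⁻¹).toMonoidHom.comp (GeneralLinearGroup.map φ)
  let Ψ : M4 F →+* M4 k := (cj B⁻¹).toRingEquiv.toRingHom.comp φ.mapMatrix
  have hΨ : Function.Injective Ψ := (cj B⁻¹).injective.comp fun _ _ e =>
    Matrix.ext fun i j => φ.injective (congrFun (congrFun e i) j)
  have e1 : ∀ t, (Φ t).val = Ψ t.val := fun t => rfl
  have e2 : ∀ (c : F) M, Ψ (c • M) = φ c • Ψ M := fun c M => by
    change cj B⁻¹ ((c • M).map φ) = _ • cj B⁻¹ (M.map φ)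
    rw [← map_smul]; congr 1; ext i j; simp
  have e3 : ∀ x : P, (cb (bc φ P) B x).val = Ψ x.val.val := fun x => rfl
  have ht := hz.th_sq
  have t0 : ev ζ th ≠ 0 := fun c => h7 (by rw [c] at ht; linear_combination ht)
  have n7 : (-7 : k) ≠ 0 := neg_ne_zero.2 h7
  have b4 : ev ζ th • Ψ (g ^ 3 * w * (g * hh)).val.val = evM ζ J7 := by
    rw [← e3, ← J7_eq, val_mul', val_mul', val_mul', val_pow', b1, b2, pow_three', ← smul_mul_assoc,
      ← mul_smul_comm, b3]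
    simp only [hz.evM_mm]
  rw [e3] at b1 b3
  have sq : ∀ {A : M4 F} {N : M7}, ev ζ th • Ψ A = evM ζ N → mm N N = sm (n 7) I7 → A * A = -1 :=
    fun {A N} a b => hΨ (smul_right_injective _ n7 (by
      have := congrArg (evM ζ) b
      rw [hz.evM_mm, hz.evM_sm, ← a, smul_mul_smul_comm, ht, ev_n, evM_I] at this
      simpa using this))
  obtain ⟨t, t1, t2, t3⟩ := exists_t0 (F := F) (fun c => h2 (by rw [← map_ofNat φ, c, map_zero]))
    (sq b3 W7_sq) (sq b4 J7_sq) (hΨ (smul_right_injective _ n7 (by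
      have := congrArg (evM ζ) JW7
      rw [hz.evM_mm, hz.evM_sm, hz.evM_mm, ← b3, ← b4, smul_mul_smul_comm, smul_mul_smul_comm, ht,
        ev_n] at this
      simpa using this)))
  have a1 : Act ζ (Φ t) sT := act_of hz (c := 14) (d := 196)
    (by rw [show (14 : k) = 2 * 7 by norm_num]; exact mul_ne_zero h2 h7)
    (by rw [show ((196 : ℤ) : k) = 2 ^ 2 * 7 ^ 2 by norm_num]
        exact mul_ne_zero (pow_ne_zero _ h2) (pow_ne_zero _ h7)) (by
      have := congrArg Ψ t1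
      rw [e2, map_add, map_add, map_add, map_one, map_mul, map_neg, map_ofNat] at this
      rw [← T7_eq, evM_ad, evM_ad, evM_ad, hz.evM_sm, hz.evM_sm, hz.evM_sm, hz.evM_mm, ← b3, ← b4,
        smul_mul_smul_comm, smul_smul, smul_smul, ht, ev_n, evM_I, e1,
        show (14 : k) = -7 * -2 by norm_num, ← smul_smul, this]
      simp) actT
  have a2 : H ≤ St ζ Φ Fano := fun s hs' => by
    obtain ⟨θ, hθ⟩ := hπ.exists_ind (hP.normal s hs')
    refine (sup_le (fun x hx => ?_) fun x hx => ?_ : P ⊔ scalars _ F ≤ _)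
      (hπ.mem_of_inner hP.perfect hs hθ ((rig7_sl2.2.2.2 θ).resolve_right fun c => t0 ?_))
    · have c1 : g.val ∈ St ζ Φ Fano :=
        ⟨_, sD_mem, act_of hz (c := 1) one_ne_zero (by simp) (by rw [one_smul, e1, b1]) actD⟩
      have c2 : w.val ∈ St ζ Φ Fano :=
        ⟨_, sW_mem, act_of hz t0 (by simpa using h7) (by rw [e1, b3]) actW⟩
      have c3 : Subgroup.closure {g, w} ≤ (St ζ Φ Fano).subgroupOf P :=
        (Subgroup.closure_le _).2 (Set.insert_subset c1 (Set.singleton_subset_iff.2 c2))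
      exact c3 (x := ⟨x, hx⟩) (hX.ge (Subgroup.mem_top _))
    · obtain ⟨c, hc⟩ := (mem_scalars_iff x).1 hx
      exact ⟨1, one_mem _, act_scalar (c := φ c) (by rw [e1, hc, e2, map_one])⟩
    · obtain ⟨g', c1, c2⟩ := hθ g
      have c3 : g' ^ 7 = 1 := Subtype.ext (by
        rw [Subgroup.coe_pow, c1, conj_pow, ← Subgroup.coe_pow, g2]; simp)
      have c4 := tr_isConj (ρ := bc φ P) (h.isConj_of_odd (g' := g ^ 6) (N := 7) (by decide) c3
        (by rw [← pow_mul, mul_comm, pow_mul, g2, one_pow]) (by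
          rw [← c2, ← inv_eq_of_mul_eq_one_left (show g ^ 6 * g = 1 by rw [← pow_succ, g2]), map_inv,
            g1]
          exact c))
      rw [tr_bc φ g', c1, trc_conj, ← tr_bc, ← tr_cb B, ← tr_cb B (g ^ 6), tr, tr, val_pow', e3, b1,
        evM_D hz, diagonal_pow, trace_diagonal, trace_diagonal] at c4
      simp only [Fin.sum_univ_four, ee, Pi.pow_apply] at c4
      have z7 := hz.pow_seven
      unfold Phi at hz
      simp [ev, th] at c4 ⊢
      linear_combination c4 + hz + (ζ ^ 5 + ζ ^ 17 + ζ ^ 10 + ζ ^ 3) * z7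
  have tΩ := hΩ t t2 fun B hB => t3 B (hB w.2) (hB (g ^ 3 * w * (g * hh)).2)
  rcases hH.2 (St ζ Φ ⊤ ⊓ Ω) (le_inf (fun s hs' => (a2 hs').imp fun _ c => ⟨trivial, c.2⟩) hH.1.le)
    inf_le_right with c | c
  · obtain ⟨σ, c1, c2⟩ := a2 (c.le ⟨⟨_, trivial, a1⟩, tΩ⟩)
    exact sT_notMem (c2.unique hz h7 a1 ▸ c1)
  · refine not_le_St hz h2 h7 (fun a b e => Units.ext (hΨ (by rw [← e1, ← e1, e]))) (fun s hs' => ?_)
      h.prime p2 hc (c.ge.trans inf_le_left)
    change (cj B⁻¹ (φ.mapMatrix s.val)).det = 1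
    rw [cj_apply, det_units_conj, ← RingHom.map_det, mem_specialLinear.1 (hS hs'), map_one]

end L7

end H20.LD
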