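import Cfsg.Agent.H20.LD4Mon

/-! LD4: slots RF1 and RF3. -/

set_option autoImplicit false
set_option synthInstance.maxSize 2000

namespace H20.LD

open Cfsg Cfsg.Geo Matrix

universe u v

variable {k : Type u} [Field k] {X : Type u} [Group X] {Γ : Type v} [Group Γ] {p : ℕ}
  {ρ : X →* G4 k} {π : X →* Γ} {x y : X} {σ τ : Equiv.Perm (Fin 4)}

/-- Reflections. -/
def Rf (ρ : X →* G4 k) (π : X →* Γ) (x : X) : Prop := π x ≠ 1 ∧ π x * π x = 1 ∧ tr ρ x ≠ 0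

theorem Rf.conj (r : Rf ρ π x) (g : X) : Rf ρ π (g * x * g⁻¹) :=
  ⟨by simpa using r.1, by rw [← map_mul, conj_mul, map_mul, map_mul, map_mul, r.2.1]; simp,
    by rw [tr_conj]; exact r.2.2⟩

theorem Rf.congr (h : R4 p ρ π) (r : Rf ρ π x) (e : π x = π y) : Rf ρ π y :=
  ⟨e ▸ r.1, e ▸ r.2.1, fun c => r.2.2 (h.tr_eq_zero_of_isConj (e ▸ IsConj.refl _) c)⟩

theorem rf_of_mon (h : R4 p ρ π) (hx : Mon (ρ x) σ) (h1 : σ ≠ 1) (h2 : π x * π x = 1)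
    (h3 : tr ρ x ≠ 0) : Rf ρ π x := ⟨fun e => h1 (hx.unique (h.mon_ker e)), h2, h3⟩

theorem Rf.perm (h : R4 p ρ π) (r : Rf ρ π x) (hx : Mon (ρ x) σ) : σ * σ = 1 ∧ ∃ i, σ i = i :=
  ⟨(hx.map_mul hx).unique (h.mon_ker (by rw [map_mul, r.2.1])),
    by_contra fun c => r.2.2 (hx.trace_eq_zero fun i e => c ⟨i, e⟩)⟩

theorem Rf.sq [IsAlgClosed k] (h : R4 p ρ π) (hp : p ≠ 2) (r : Rf ρ π x) :
    ∃ c : k, c * c = -1 ∧ (ρ (x * x)).val = c • 1 := by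
  obtain ⟨c, c1, c2⟩ := h.sc (z := x * x) (by rw [map_mul, r.2.1])
  refine ⟨c, (mul_self_eq_one_iff.1 (by linear_combination c1)).resolve_left fun e => r.2.2
    ((h.tr_eq_zero_iff hp r.1 r.2.1).2 (h.eq_one ?_)), c2⟩
  rw [show x ^ 4 = x * x * (x * x) by simp [pow_succ, mul_assoc], val_mul', c2, smul_mul_smul_comm, e]
  simp

/-- A diagonal reflection. -/
theorem Rf.diag (h : R4 p ρ π) (r : Rf ρ π x) (hx : Mon (ρ x) 1) :
    ∃ i, ∃ c : k, (ρ x).val = c • rf k i := by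
  obtain ⟨d, hd⟩ : ∃ d, (ρ x).val = diagonal d := ⟨_, hx.eq_diagonal⟩
  obtain ⟨d0, ds⟩ := h.exists_sign hd r.2.1
  have h1 : ¬ (d 1 = d 0 ∧ d 2 = d 0 ∧ d 3 = d 0) := fun c => r.1 ((h.ker x).2 ⟨d 0, by
    rw [hd, smul_one_eq_diagonal]; congr 1; funext i; fin_cases i <;> simp [c]⟩)
  have h2 := r.2.2
  rw [tr, hd, trace_diagonal, Fin.sum_univ_four] at h2
  have key : ∀ i c, (∀ j, d j = c * if j = i then -1 else 1) → ∃ i, ∃ c : k,
      (ρ x).val = c • rf k i := fun i c e =>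
    ⟨i, c, by rw [hd, rf, ← diagonal_smul]; congr 1; exact funext e⟩
  rcases ds 1 with a | a <;> rcases ds 2 with b | b <;> rcases ds 3 with c | c
  · exact absurd ⟨a, b, c⟩ h1
  · exact key 3 (d 0) fun j => by fin_cases j <;> simp [*]
  · exact key 2 (d 0) fun j => by fin_cases j <;> simp [*]
  · exact absurd (by rw [a, b, c]; ring) h2
  · exact key 1 (d 0) fun j => by fin_cases j <;> simp [*]
  · exact absurd (by rw [a, b, c]; ring) h2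
  · exact absurd (by rw [a, b, c]; ring) h2
  · exact key 0 (-d 0) fun j => by fin_cases j <;> simp [*]

theorem conj_rf (hy : Mon (ρ y) σ) {c : k} {i : Fin 4} (hx : (ρ x).val = c • rf k i) :
    (ρ (y * x * y⁻¹)).val = c • rf k (σ i) := by
  rw [val_mul', val_mul', hx, map_inv, Matrix.mul_smul, Matrix.smul_mul, rf, hy.conj_diagonal, rf]
  simp only [Equiv.Perm.inv_eq_iff_eq]

/-- Transfer for reflections. -/
theorem R4.tr_rf (h : R4 p ρ π) [Finite X] {A : Type*} [CommGroup A] (S : Sylow 2 Γ)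
    (d : (S : Subgroup Γ).comap π →* A) {a : A} (hx : π x ∈ (S : Subgroup Γ)) (r : Rf ρ π x)
    (key : ∀ y (hy : y ∈ (S : Subgroup Γ).comap π), Rf ρ π y → d ⟨y, hy⟩ = a) : a = 1 := by
  rw [← key x hx r]
  refine h.tr_lemma S d hx fun g j hg => ?_
  have e : ∀ m, π (x ^ (2 * m)) = 1 := fun m => by rw [map_pow, pow_mul, sq, r.2.1, one_pow]
  rw [← map_pow]
  obtain ⟨m, rfl | rfl⟩ := Nat.even_or_odd' j
  · congr 1
    exact Subtype.ext (mul_inv_eq_iff_eq_mul.2 (h.comm_of_ker (e m) g).eq.symm)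
  · have r' : Rf ρ π (x ^ (2 * m + 1)) := r.congr h (by rw [pow_succ, map_mul, e, one_mul])
    rw [key _ hg (r'.conj g)]
    exact (key _ (pow_mem (Subgroup.mem_comap.2 hx) _) r').symm

theorem R4.exists_rf (h : R4 p ρ π) [Finite X] (S : Sylow 2 Γ) {M : Subgroup X}
    (hM : (S : Subgroup Γ) ≤ M.map π) (hx : x ∈ M) (r : Rf ρ π x) :
    ∃ g ∈ M, π (g * x * g⁻¹) ∈ (S : Subgroup Γ) := by
  have := h.finite
  obtain ⟨⟨_, g, hg, rfl⟩, e⟩ := H8.exists_conj_mem_sylow (S.subtype hM) (k := 1)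
    (x := ⟨π x, x, hx, rfl⟩) (Subtype.ext (by simpa [sq] using r.2.1))
  exact ⟨g, hg, by rw [map_mul, map_mul, map_inv]; exact e⟩

/-- The minor on the coordinates `0, m`. -/
def mn (m : Fin 4) (M : M4 k) : k := M 0 0 * M m m - M 0 m * M m 0

theorem mn_mul {m : Fin 4} (hm : m ≠ 0) (M : M4 k) {g : G4 k} (hg : Mon g τ)
    (h0 : τ 0 = 0 ∨ τ 0 = m) (h1 : τ m = 0 ∨ τ m = m) : mn m (M * g.val) = mn m M * mn m g.val := by
  simp only [mn, hg.mul_apply]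
  rcases h0 with a | a <;> rcases h1 with b | b
  · exact absurd (τ.injective (b.trans a.symm)) hm
  · rw [a, b, hg 0 m (by rw [b]; exact hm.symm)]; ring
  · rw [a, b, hg 0 0 (by rw [a]; exact hm.symm)]; ring
  · exact absurd (τ.injective (b.trans a.symm)) hm

theorem mn_smul {m : Fin 4} (hm : m ≠ 0) (c : k) : mn m (c • 1) = c * c := by
  simp [mn, one_apply_ne hm]

theorem orbit_cases (W : Subgroup (Equiv.Perm (Fin 4))) (hW : ∀ σ ∈ W, σ * bl = bl * σ) :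
    (∀ i, ∃ σ ∈ W, σ 0 = i) ∨ ∃ m ≠ 0, ∀ σ ∈ W, (σ 0 = 0 ∨ σ 0 = m) ∧ (σ m = 0 ∨ σ m = m) := by
  by_cases h2 : ∀ τ ∈ W, τ 0 = 0 ∨ τ 0 = 1
  · exact .inr ⟨1, by decide, fun σ a => ⟨h2 σ a, (by decide +kernel : ∀ σ : Equiv.Perm (Fin 4),
      σ * bl = bl * σ → (σ 0 = 0 ∨ σ 0 = 1) → (σ 1 = 0 ∨ σ 1 = 1)) σ (hW σ a) (h2 σ a)⟩⟩
  push Not at h2
  obtain ⟨τ, t0, t1, t2⟩ := h2
  by_cases h3 : ∀ σ ∈ W, σ 0 = 0 ∨ σ 0 = τ 0
  · exact .inr ⟨τ 0, t1, fun σ a => ⟨h3 σ a, h3 _ (mul_mem a t0)⟩⟩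
  push Not at h3
  obtain ⟨σ, s0, s1, s2⟩ := h3
  refine .inl fun i => ?_
  rcases (by decide +kernel : ∀ σ : Equiv.Perm (Fin 4), σ * bl = bl * σ → σ 0 ≠ 0 →
    ∀ τ : Equiv.Perm (Fin 4), τ * bl = bl * τ → τ 0 ≠ 0 → τ 0 ≠ 1 → σ 0 ≠ τ 0 → ∀ i,
      (1 : Equiv.Perm (Fin 4)) 0 = i ∨ τ 0 = i ∨ σ 0 = i ∨ (τ * σ) 0 = i ∨ (σ⁻¹ * τ) 0 = i)
    σ (hW σ s0) s1 τ (hW τ t0) t1 t2 s2 i with e | e | e | e | e
  exacts [⟨_, one_mem _, e⟩, ⟨_, t0, e⟩, ⟨_, s0, e⟩, ⟨_, mul_mem t0 s0, e⟩,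
    ⟨_, mul_mem (inv_mem s0) t0, e⟩]

theorem jobRF1 : JobRF1.{u, v} := by
  intro p k _ _ X _ _ Γ _ ρ π h hp S hS hn
  obtain ⟨x, r⟩ : ∃ x, Rf ρ π x := by simpa [NoRf, Rf] using hn
  obtain ⟨g, -, hx⟩ := h.exists_rf S (M := ⊤) (by
    rw [Subgroup.map_top_of_surjective π h.surj]; exact le_top) trivial r
  replace r := r.conj g
  generalize g * x * g⁻¹ = x at r hx
  have hM : (S : Subgroup Γ).comap π ≤ monX ρ := fun y hy => (hS y hy).imp fun _ a => a.2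
  let s := (sg ρ).comp (Subgroup.inclusion hM)
  have hs : ∀ y, Mon (ρ y.val) (s y) := fun y => mon_sg (Subgroup.inclusion hM y)
  obtain ⟨y, hy, i, c, e⟩ : ∃ y, π y ∈ (S : Subgroup Γ) ∧ ∃ i, ∃ c : k, (ρ y).val = c • rf k i := by
    by_contra hn
    refine absurd (h.tr_rf S (Equiv.Perm.sign.comp s) (a := -1) hx r fun y hy r => ?_) (by decide)
    obtain ⟨a, b⟩ := r.perm h (hs ⟨y, hy⟩)
    exact (by decide +kernel : ∀ σ : Equiv.Perm (Fin 4), σ * σ = 1 → (∃ i, σ i = i) → σ ≠ 1 →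
      Equiv.Perm.sign σ = -1) _ a b fun e => hn ⟨y, hy, r.diag h (e ▸ hs ⟨y, hy⟩)⟩
  have tra : ∀ i, ∃ x σ, π x ∈ (S : Subgroup Γ) ∧ Mon (ρ x) σ ∧ σ 0 = i := by
    rcases orbit_cases s.range (by
      rintro _ ⟨y, rfl⟩
      obtain ⟨σ, a, b⟩ := hS y y.2
      exact b.unique (hs y) ▸ a) with c | ⟨m, m0, c⟩
    · intro i
      obtain ⟨_, ⟨y, rfl⟩, e⟩ := c i
      exact ⟨y, _, y.2, hs y, e⟩
    have mul : ∀ (M : M4 k) (y : (S : Subgroup Γ).comap π), mn m (M * (ρ y).val) =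
        mn m M * mn m (ρ y).val := fun M y => mn_mul m0 M (hs y) (c _ ⟨y, rfl⟩).1 (c _ ⟨y, rfl⟩).2
    let d : (S : Subgroup Γ).comap π →* k :=
      ⟨⟨fun y => mn m (ρ y).val * mn m (ρ y).val, by simp [mn, one_apply_ne m0]⟩, fun a b => by
        dsimp only
        rw [Subgroup.coe_mul, val_mul', mul]; ring⟩
    refine absurd (congrArg Units.val (h.tr_rf S d.toHomUnits (a := -1) hx r fun y hy r =>
      Units.ext ?_)) fun e => h.two_ne hp (by simp at e; linear_combination -e)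
    obtain ⟨c, c1, c2⟩ := r.sq h hp
    change mn m (ρ y).val * mn m (ρ y).val = -1
    rw [← mul _ ⟨y, hy⟩, ← val_mul', c2, mn_smul m0, c1]
  refine ⟨hS, fun j => ?_, tra⟩
  obtain ⟨a, σ, a1, a2, rfl⟩ := tra i
  obtain ⟨b, τ, b1, b2, rfl⟩ := tra j
  refine ⟨b * a⁻¹ * y * (b * a⁻¹)⁻¹, ?_, c, by simpa using conj_rf (b2.map_mul a2.map_inv) e⟩
  simp only [map_mul, map_inv]
  exact mul_mem (mul_mem (mul_mem b1 (inv_mem a1)) hy) (inv_mem (mul_mem b1 (inv_mem a1)))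

/-! ### RF3 -/

theorem exists_pow_eq_neg_one {a : k} {n : ℕ} (h : a ^ 2 ^ n = 1) (h1 : a ≠ 1) :
    ∃ m, a ^ 2 ^ m = -1 := by
  induction n with
  | zero => exact absurd (by simpa using h) h1
  | succ n ih =>
    rw [pow_succ, pow_mul, sq, mul_self_eq_one_iff] at h
    exact h.elim ih fun e => ⟨n, e⟩

/-- The two shapes of a matrix of dihedral type. -/
theorem shape {g : G4 k} (hg : Mon g σ) (hσ : σ * bl = bl * σ) :
    ((σ 0 = 0 ∨ σ 0 = 1) ∧ ∃ a b c d a' b' c' d' : k,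
      g.val = !![a, b, 0, 0; c, d, 0, 0; 0, 0, a', b'; 0, 0, c', d']) ∨
    (¬ (σ 0 = 0 ∨ σ 0 = 1) ∧ ∃ a b c d a' b' c' d' : k,
      g.val = !![0, 0, a', b'; 0, 0, c', d'; a, b, 0, 0; c, d, 0, 0]) := by
  by_cases h : σ 0 = 0 ∨ σ 0 = 1
  · have := (by decide +kernel : ∀ σ : Equiv.Perm (Fin 4), σ * bl = bl * σ → (σ 0 = 0 ∨ σ 0 = 1) →
      ∀ i j : Fin 4, (i < 2 ↔ 2 ≤ j) → i ≠ σ j) σ hσ h
    refine .inl ⟨h, g.val 0 0, g.val 0 1, g.val 1 0, g.val 1 1, g.val 2 2, g.val 2 3, g.val 3 2,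
      g.val 3 3, ?_⟩
    ext i j
    fin_cases i <;> fin_cases j <;> first | rfl | exact hg _ _ (this _ _ (by decide))
  · have := (by decide +kernel : ∀ σ : Equiv.Perm (Fin 4), σ * bl = bl * σ → ¬ (σ 0 = 0 ∨ σ 0 = 1) →
      ∀ i j : Fin 4, (i < 2 ↔ j < 2) → i ≠ σ j) σ hσ h
    refine .inr ⟨h, g.val 2 0, g.val 2 1, g.val 3 0, g.val 3 1, g.val 0 2, g.val 0 3, g.val 1 2,
      g.val 1 3, ?_⟩
    ext i j
    fin_cases i <;> fin_cases j <;> first | rfl | exact hg _ _ (this _ _ (by decide))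

theorem det_blk (a b c d a' b' c' d' : k) :
    (!![a, b, 0, 0; c, d, 0, 0; 0, 0, a', b'; 0, 0, c', d'] : M4 k).det =
      (a * d - b * c) * (a' * d' - b' * c') := by
  simp only [det_four, det_fin_three, submatrix_apply, of_apply, cons_val]
  ring

theorem det_ant (a b c d a' b' c' d' : k) :
    (!![0, 0, a', b'; 0, 0, c', d'; a, b, 0, 0; c, d, 0, 0] : M4 k).det =
      (a * d - b * c) * (a' * d' - b' * c') := by
  simp only [det_four, det_fin_three, submatrix_apply, of_apply, cons_val]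
  ring

/-- The minor on the rows `2, 3` and the columns `0, 1`. -/
def mb (M : M4 k) : k := M 2 0 * M 3 1 - M 2 1 * M 3 0

theorem exists_swaps [Finite X] (h : R4 p ρ π) {S : Sylow 2 Γ} (hF : Fr ρ π S) (nd : NDR ρ π) :
    (∃ s, π s ∈ (S : Subgroup Γ) ∧ Mon (ρ s) (Equiv.swap 0 1) ∧ Rf ρ π s) ∧
      ∃ s, π s ∈ (S : Subgroup Γ) ∧ Mon (ρ s) (Equiv.swap 2 3) ∧ Rf ρ π s := by
  obtain ⟨x, σ, s1, hx, s2, s3⟩ := nd
  have r := rf_of_mon h hx s1 s2 s3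
  obtain ⟨g, ⟨τ, hg⟩, hy⟩ := h.exists_rf S (M := monX ρ) (fun a ha => by
    obtain ⟨a, rfl⟩ := h.surj a
    exact h.mem_map_monX.2 ((hF.ms a ha).imp fun _ b => b.2)) ⟨σ, hx⟩ r
  have m := (hg.map_mul hx).map_mul hg.map_inv
  replace r := r.conj g
  obtain ⟨ν, n1, n2⟩ := hF.ms _ hy
  obtain ⟨w, ω, w1, w2, w3⟩ := hF.tra 2
  obtain ⟨ω', w4, w5⟩ := hF.ms w w1
  obtain rfl := w2.unique w5
  have m' := (w2.map_mul n2).map_mul w2.map_inv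
  have hy' : π (w * (g * x * g⁻¹) * w⁻¹) ∈ (S : Subgroup Γ) := by
    rw [map_mul, map_mul, map_inv]; exact mul_mem (mul_mem w1 hy) (inv_mem w1)
  obtain ⟨a, b⟩ := r.perm h n2
  rcases (by decide +kernel : ∀ ν : Equiv.Perm (Fin 4), ν * ν = 1 → (∃ i, ν i = i) → ν ≠ 1 →
    ν * bl = bl * ν → ∀ ω : Equiv.Perm (Fin 4), ω * bl = bl * ω → ω 0 = 2 →
      (ν = Equiv.swap 0 1 ∧ ω * ν * ω⁻¹ = Equiv.swap 2 3) ∨
      (ν = Equiv.swap 2 3 ∧ ω * ν * ω⁻¹ = Equiv.swap 0 1)) ν a b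
    (fun e => s1 (by simpa using (m.unique n2).trans e)) n1 ω w4 w3 with ⟨c, d⟩ | ⟨c, d⟩
  · exact ⟨⟨_, hy, c ▸ n2, r⟩, _, hy', d ▸ m', r.conj w⟩
  · exact ⟨⟨_, hy', d ▸ m', r.conj w⟩, _, hy, c ▸ n2, r⟩

theorem exists_chi [IsAlgClosed k] [Finite X] (h : R4 p ρ π) (hp : p ≠ 2) {S : Sylow 2 Γ}
    (hF : Fr ρ π S) (hx : π x ∈ (S : Subgroup Γ)) (r : Rf ρ π x) :
    ∃ y σ, π y ∈ (S : Subgroup Γ) ∧ Mon (ρ y) σ ∧ (σ 0 = 0 ∨ σ 0 = 1) ∧ mn 1 (ρ y).val ^ 4 ≠ 1 := by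
  by_contra! hn
  obtain ⟨w, ω, w1, w2, w3⟩ := hF.tra 2
  obtain ⟨c, hc⟩ : ∃ c : k, ∀ y, π y ∈ (S : Subgroup Γ) → (∃ a b c d a' b' c' d' : k,
      (ρ y).val = !![a, b, 0, 0; c, d, 0, 0; 0, 0, a', b'; 0, 0, c', d'] ∧
      (a' * d' - b' * c') ^ 2 = (a * d - b * c) ^ 2) ∨ ∃ a b e d a' b' c' d' : k,
      (ρ y).val = !![0, 0, a', b'; 0, 0, c', d'; a, b, 0, 0; e, d, 0, 0] ∧
      (a' * d' - b' * c') ^ 2 = c ^ 2 * (a * d - b * e) ^ 2 := by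
    obtain ⟨ω', w4, w5⟩ := hF.ms w w1
    obtain rfl := w2.unique w5
    obtain ⟨w6, a₀, b₀, c₀, d₀, a₁, b₁, c₁, d₁, e₀⟩ := (shape w2 w4).resolve_left fun c => by
      simp [w3] at c
    refine ⟨(a₁ * d₁ - b₁ * c₁) ^ 2, fun y hy => ?_⟩
    obtain ⟨σ, a1, a2⟩ := hF.ms y hy
    have a3 := h.det y
    refine (shape a2 a1).imp (fun ⟨a4, a, b, c, d, a', b', c', d', e⟩ => ⟨_, _, _, _, _, _, _, _, e, ?_⟩)
      fun ⟨a4, a, b, c, d, a', b', c', d', e⟩ => ⟨_, _, _, _, _, _, _, _, e, ?_⟩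
    · have a5 := hn y σ hy a2 a4
      rw [e, det_blk] at a3
      simp [e, mn] at a5
      linear_combination (a * d - b * c) ^ 2 * ((a * d - b * c) * (a' * d' - b' * c') + 1) * a3 -
        (a' * d' - b' * c') ^ 2 * a5
    · have a5 := hn (w * y) _ (by rw [map_mul]; exact mul_mem w1 hy) (w2.map_mul a2)
        ((by decide +kernel : ∀ σ : Equiv.Perm (Fin 4), σ * bl = bl * σ → ¬ (σ 0 = 0 ∨ σ 0 = 1) →
          ∀ ω : Equiv.Perm (Fin 4), ω * bl = bl * ω → ω 0 = 2 → (ω * σ) 0 = 0 ∨ (ω * σ) 0 = 1)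
          σ a1 a4 ω w4 w3)
      rw [val_mul', e₀, e] at a5
      rw [e, det_ant] at a3
      simp [mn] at a5
      linear_combination (a₁ * d₁ - b₁ * c₁) ^ 4 * (a * d - b * c) ^ 2 *
        ((a * d - b * c) * (a' * d' - b' * c') + 1) * a3 - (a' * d' - b' * c') ^ 2 * a5
  let d : (S : Subgroup Γ).comap π →* k :=
    ⟨⟨fun y => mn 1 (ρ y).val ^ 2 + c * mb (ρ y).val ^ 2, by simp [mn, mb]⟩, fun x y => by
      dsimp only
      rw [Subgroup.coe_mul, val_mul']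
      rcases hc x x.2 with ⟨_, _, _, _, _, _, _, _, e, f⟩ | ⟨_, _, _, _, _, _, _, _, e, f⟩ <;>
        rcases hc y y.2 with ⟨a, b, c', d, _, _, _, _, e', -⟩ | ⟨a, b, c', d, _, _, _, _, e', -⟩ <;>
        simp [e, e', mn, mb]
      · ring
      · linear_combination c * (a * d - b * c') ^ 2 * f
      · ring
      · linear_combination (a * d - b * c') ^ 2 * f⟩
  refine absurd (congrArg Units.val (h.tr_rf S d.toHomUnits (a := -1) hx r fun y hy r =>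
    Units.ext ?_)) fun e => h.two_ne hp (by simp at e; linear_combination -e)
  obtain ⟨c', c1, c2⟩ := r.sq h hp
  change mn 1 (ρ y).val ^ 2 + c * mb (ρ y).val ^ 2 = -1
  rcases hc y hy with ⟨a, b, c, d, _, _, _, _, e, -⟩ | ⟨_, _, _, _, _, _, _, _, e, -⟩
  · have := congrArg (mn 1) c2
    rw [mn_smul (by decide), c1, val_mul', e] at this
    simp [e, mn, mb] at this ⊢
    linear_combination this
  · exact absurd (by simp [tr, e, trace, Fin.sum_univ_four]) r.2.2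

theorem jobRF3 : JobRF3.{u, v} := by
  intro p k _ _ X _ _ Γ _ ρ π h hp S hF nd
  obtain ⟨⟨s, s1, s2, s3⟩, t, t1, t2, t3⟩ := exists_swaps h hF nd
  have mul : ∀ (M : M4 k) {y σ}, π y ∈ (S : Subgroup Γ) → Mon (ρ y) σ → (σ 0 = 0 ∨ σ 0 = 1) →
      mn 1 (M * (ρ y).val) = mn 1 M * mn 1 (ρ y).val := fun M y σ a b c => by
    obtain ⟨τ, d, e⟩ := hF.ms y a
    exact mn_mul (by decide) M b c ((by decide +kernel : ∀ σ : Equiv.Perm (Fin 4),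
      σ * bl = bl * σ → (σ 0 = 0 ∨ σ 0 = 1) → (σ 1 = 0 ∨ σ 1 = 1)) σ (b.unique e ▸ d) c)
  have rf4 : ∀ {y σ}, π y ∈ (S : Subgroup Γ) → Mon (ρ y) σ → (σ 0 = 0 ∨ σ 0 = 1) → Rf ρ π y →
      mn 1 (ρ y).val ^ 4 = 1 := fun {y σ} a b c r => by
    obtain ⟨d, d1, d2⟩ := r.sq h hp
    have := mul (ρ y).val a b c
    rw [← val_mul', d2, mn_smul (by decide), d1] at this
    linear_combination (1 - mn 1 (ρ y).val ^ 2) * this
  obtain ⟨y, y1, y2, y3⟩ : ∃ y, π y ∈ (S : Subgroup Γ) ∧ Mon (ρ y) 1 ∧ mn 1 (ρ y).val ^ 4 = -1 := by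
    obtain ⟨y, σ, y1, y2, y3, y4⟩ := exists_chi h hp hF s1 s3
    have pw : ∀ n, mn 1 (ρ (y ^ n)).val = mn 1 (ρ y).val ^ n := fun n => by
      induction n with
      | zero => simp [mn]
      | succ n ih => rw [pow_succ, val_mul', mul _ y1 y2 y3, ih, pow_succ]
    obtain ⟨n, hn⟩ := h.isPGroup_comap S.isPGroup' ⟨y, y1⟩
    obtain ⟨m, hm⟩ := exists_pow_eq_neg_one (n := n) (by
      rw [← pow_mul, mul_comm, pow_mul, ← pw, show y ^ 2 ^ n = 1 from congrArg Subtype.val hn]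
      simp [mn]) y4
    rw [← pow_mul, mul_comm, pow_mul, ← pw] at hm
    have z1 : π (y ^ 2 ^ m) ∈ (S : Subgroup Γ) := by rw [map_pow]; exact pow_mem y1 _
    obtain ⟨τ, z2, z3⟩ := hF.ms _ z1
    generalize y ^ 2 ^ m = z at *
    have a1 := rf4 s1 s2 (by decide) s3
    have a2 := rf4 t1 t2 (by decide) t3
    rcases (shape z3 z2).resolve_right fun ⟨_, _, _, _, _, _, _, _, _, e⟩ => by
      simp [e, mn] at hm with ⟨z4, -⟩
    rcases (by decide +kernel : ∀ τ : Equiv.Perm (Fin 4), τ * bl = bl * τ → (τ 0 = 0 ∨ τ 0 = 1) →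
      τ = 1 ∨ τ * Equiv.swap 0 1 = 1 ∨ τ * Equiv.swap 2 3 = 1 ∨
        τ * Equiv.swap 0 1 * Equiv.swap 2 3 = 1) τ z2 z4 with e | e | e | e
    · exact ⟨z, z1, e ▸ z3, hm⟩
    · exact ⟨z * s, by rw [map_mul]; exact mul_mem z1 s1, e ▸ z3.map_mul s2, by
        rw [val_mul', mul _ s1 s2 (by decide), mul_pow, hm, a1, mul_one]⟩
    · exact ⟨z * t, by rw [map_mul]; exact mul_mem z1 t1, e ▸ z3.map_mul t2, by
        rw [val_mul', mul _ t1 t2 (by decide), mul_pow, hm, a2, mul_one]⟩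
    · exact ⟨z * s * t, by rw [map_mul, map_mul]; exact mul_mem (mul_mem z1 s1) t1,
        e ▸ (z3.map_mul s2).map_mul t2, by
        rw [val_mul', mul _ t1 t2 (by decide), val_mul', mul _ s1 s2 (by decide), mul_pow, mul_pow,
          hm, a1, a2, mul_one, mul_one]⟩
  obtain ⟨d, hd⟩ : ∃ d, (ρ y).val = diagonal d := ⟨_, y2.eq_diagonal⟩
  have d1 := h.det y
  rw [hd, det_diagonal, Fin.prod_univ_four] at d1
  simp [hd, mn] at y3
  refine ⟨(d 0 * d 1) ^ 2, hF, by linear_combination y3, ⟨y * (s * t * y * (s * t)⁻¹), ?_,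
    d 2 * d 3, ?_⟩, s, s1, s2, s3.2⟩
  · simp only [map_mul, map_inv]
    exact mul_mem y1 (mul_mem (mul_mem (mul_mem s1 t1) y1) (inv_mem (mul_mem s1 t1)))
  · rw [val_mul', val_mul', val_mul', map_inv, hd, (s2.map_mul t2).conj_diagonal,
      diagonal_mul_diagonal, ← diagonal_smul]
    congr 1
    funext i
    fin_cases i <;> simp [Equiv.swap_apply_def] <;>
      first | linear_combination -(d 0 * d 1) * d1 | ring

end H20.LD
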