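import Cfsg.Agent.H20.LD4Kit
import Cfsg.Agent.H25.TvSys

/-! LD4 (blueprints/LD4.md): basic facts on systems of transvections in dimension four. -/

set_option autoImplicit false

namespace H20.LD

open Cfsg Cfsg.Geo Matrix
open scoped MatrixGroups

universe u

variable {k : Type u} [Field k] {T : V4 k → V4 k → Prop} {K : Subfield k} {G : Subgroup (G4 k)}
  {u w z φ ψ χ : V4 k}

theorem exists_dot_one {v : V4 k} (h : v ≠ 0) : ∃ a : V4 k, a ⬝ᵥ v = 1 := by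
  obtain ⟨i, hi⟩ := Function.ne_iff.1 h
  exact ⟨Pi.single i (v i)⁻¹, by rw [single_dotProduct, inv_mul_cancel₀ hi]⟩

theorem left_ne_of_dot (h : u ⬝ᵥ w ≠ 0) : u ≠ 0 := by rintro rfl; simp at h

theorem right_ne_of_dot (h : u ⬝ᵥ w ≠ 0) : w ≠ 0 := by rintro rfl; simp at h

theorem vecMul_ne (g : G4 k) (h : φ ≠ 0) : φ ᵥ* g.val ≠ 0 := fun h0 =>
  h (by simpa using congrArg (· ᵥ* (g⁻¹).val) h0)

theorem mulVec_ne (g : G4 k) (h : φ ≠ 0) : g.val *ᵥ φ ≠ 0 := fun h0 =>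
  h (by simpa using congrArg ((g⁻¹).val *ᵥ ·) h0)

theorem tv_mulVec (u φ v : V4 k) : (1 + vecMulVec u φ) *ᵥ v = v + (φ ⬝ᵥ v) • u := by
  rw [add_mulVec, one_mulVec, vecMulVec_mulVec, op_smul_eq_smul]

theorem vecMul_tv (u φ ψ : V4 k) : ψ ᵥ* (1 + vecMulVec u φ) = ψ + (ψ ⬝ᵥ u) • φ := by
  rw [vecMul_add, vecMul_one, vecMul_vecMulVec]

/-- Three functionals have a common nonzero zero. -/
theorem exists_ker_three (φ ψ χ : V4 k) : ∃ v ≠ 0, φ ⬝ᵥ v = 0 ∧ ψ ⬝ᵥ v = 0 ∧ χ ⬝ᵥ v = 0 := by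
  obtain ⟨v, h1, h2⟩ := (Matrix.exists_mulVec_eq_zero_iff (M := of ![φ, ψ, χ, 0])).2
    (det_eq_zero_of_row_eq_zero 3 fun j => rfl)
  exact ⟨v, h1, congrFun h2 0, congrFun h2 1, congrFun h2 2⟩

/-- A matrix without kernel is invertible. -/
theorem exists_unit {M : M4 k} (h : ∀ v, M *ᵥ v = 0 → v = 0) : ∃ B : G4 k, B.val = M :=
  (Matrix.isUnit_iff_isUnit_det M).2 (isUnit_iff_ne_zero.2 fun e => by
    obtain ⟨v, h1, h2⟩ := Matrix.exists_mulVec_eq_zero_iff.2 e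
    exact h1 (h v h2))

/-- A dual pair of frames gives a change of basis. -/
theorem exists_frame (e ε : Fin 4 → V4 k) (he : ∀ i j, ε i ⬝ᵥ e j = if i = j then 1 else 0) :
    ∃ B : G4 k, (∀ i, B.val *ᵥ Pi.single i 1 = e i) ∧ ∀ i, Pi.single i 1 ᵥ* (B⁻¹).val = ε i := by
  have h : of ε * (of e)ᵀ = 1 := by ext i j; exact he i j
  exact ⟨⟨(of e)ᵀ, of ε, mul_eq_one_comm.1 h, h⟩, fun i => by simp, fun i => by simp⟩

namespace TB

theorem negR (h : TB T) (h1 : T u φ) : T u (-φ) := by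
  simpa using (h.smul_iff (-1)).1 (by simpa using h.neg h1)

theorem swap (h : TB T) : TB fun φ u => T u φ where
  orth h1 := by rw [dotProduct_comm, h.orth h1]
  smul_iff c := (h.smul_iff c).symm
  addL := h.addR
  addR := h.addL
  neg := h.negR
  conj h1 h2 := by simpa [dotProduct_comm, sub_eq_add_neg] using h.conj (h.neg h1) h2

theorem rescale (h : TB T) (h1 : T u φ) {c : k} (hc : c ≠ 0) : T (c • u) (c⁻¹ • φ) := by
  rwa [h.smul_iff, smul_inv_smul₀ hc]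

theorem commL (h : TB T) (h1 : T u φ) (h2 : T w ψ) (h3 : ψ ⬝ᵥ u = 0) : T ((φ ⬝ᵥ w) • u) ψ := by
  have := h.conj h1 h2
  rw [h3, zero_smul, sub_zero] at this
  simpa using h.addL this (h.neg h2)

theorem commR (h : TB T) (h1 : T u φ) (h2 : T w ψ) (h3 : φ ⬝ᵥ w = 0) : T w ((ψ ⬝ᵥ u) • φ) := by
  have := h.swap.commL h1 h2 (by rwa [dotProduct_comm])
  rwa [dotProduct_comm] at this

/-- Conjugation by the inverse transvection. -/
theorem conj' (h : TB T) (h1 : T u φ) (h2 : T w ψ) : T (w - (φ ⬝ᵥ w) • u) (ψ + (ψ ⬝ᵥ u) • φ) := by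
  simpa [sub_eq_add_neg] using h.conj (h.neg h1) h2

theorem subL (h : TB T) (h1 : T u φ) (h2 : T w φ) : T (u - w) φ := by
  simpa [sub_eq_add_neg] using h.addL h1 (h.neg h2)

theorem subR (h : TB T) (h1 : T u φ) (h2 : T u ψ) : T u (φ - ψ) := by
  simpa [sub_eq_add_neg] using h.addR h1 (h.negR h2)

theorem zeroR (h : TB T) (h1 : T u φ) : T u 0 := by simpa using h.subR h1 h1

theorem zeroL (h : TB T) (h1 : T u φ) : T 0 φ := by simpa using h.subL h1 h1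

end TB

theorem TS.memR (h : TS K T) {a : k} (h1 : T u φ) (ha : a ∈ K) : T u (a • φ) :=
  (h.smul_iff a).1 (h.mem h1 ha)

theorem TS.maxR (h : TS K T) {a : k} (h1 : T u φ) (h2 : T u (a • φ)) (hu : u ≠ 0) (hφ : φ ≠ 0) :
    a ∈ K :=
  h.max h1 ((h.smul_iff a).2 h2) hu hφ

theorem XY.swap (hb : TB T) (h : XY T) : XY fun φ u => T u φ := fun S h1 h2 h3 u hu φ hφ => by
  obtain ⟨w, ψ, a1, a2, a3⟩ := h (fun a b => S b a) (fun a b c => h1 b a c)
    (fun a b c d e f => by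
      simpa [dotProduct_comm, sub_eq_add_neg] using h2 b (-a) d c (hb.neg e) f)
    (by obtain ⟨a, b, c, d, e⟩ := h3; exact ⟨b, a, c, e, d⟩) φ hφ u hu
  exact ⟨ψ, w, a1, by rwa [dotProduct_comm], by rwa [dotProduct_comm]⟩

theorem TS.swap (h : TS K T) : TS K fun φ u => T u φ where
  toTB := h.toTB.swap
  ne := by obtain ⟨a, b, c, d, e⟩ := h.ne; exact ⟨b, a, c, e, d⟩
  xy := h.xy.swap h.toTB
  irr A hA := h.irr' A fun u φ a => hA φ u a
  irr' A hA := h.irr A fun u φ a => hA φ u a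
  mem := h.memR
  max h1 h2 h3 h4 := h.max h1 ((h.smul_iff _).2 h2) h4 h3

/-- A flag off a given hyperplane and a given point. -/
theorem TS.exists_opp (h : TS K T) (hu : u ≠ 0) (hφ : φ ≠ 0) :
    ∃ w ψ, T w ψ ∧ φ ⬝ᵥ w ≠ 0 ∧ ψ ⬝ᵥ u ≠ 0 :=
  h.xy T (fun _ _ => id) (fun _ _ _ _ => h.conj) h.ne u hu φ hφ

theorem Lam.swap (h : Lam K T) : Lam K fun φ u => T u φ := fun φ u ψ w h1 h2 => by
  rw [dotProduct_comm u, dotProduct_comm w, mul_comm]; exact h u φ w ψ h1 h2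

theorem Sym.swap (h : Sym T) : Sym fun φ u => T u φ := fun φ u ψ w h1 h2 hu hψ e => by
  rw [dotProduct_comm] at e ⊢
  exact h w ψ u φ h2 h1 hψ hu e

theorem NoFat.swap (h : NoFat T) : NoFat fun φ u => T u φ :=
  ⟨fun φ u w a b c d => h.2 u w φ a b d c, fun φ ψ u a b c d => h.1 u φ ψ a b d c⟩

theorem Sw.swap (hb : TB T) (h : Sw T) : Sw fun φ u => T u φ := fun φ u ψ w h1 h2 a b => by
  rw [dotProduct_comm] at a b
  obtain ⟨c, c1, c2⟩ := h u φ w ψ h1 h2 b a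
  have hc : c ≠ 0 := fun e => a (by rw [← c1, e]; simp)
  refine ⟨c⁻¹, by rw [dotProduct_comm u, dotProduct_comm w, ← c1]; field_simp, ?_⟩
  have := hb.rescale c2 (inv_ne_zero (mul_ne_zero hc b))
  rw [dotProduct_comm w, dotProduct_comm u]
  rw [← c1] at this ⊢
  convert this using 1 <;> ext i <;> simp only [Pi.add_apply, Pi.smul_apply, smul_eq_mul] <;>
    field_simp <;> ring

theorem cyc_swap (u φ w ψ z χ : V4 k) : cyc φ u ψ w χ z = cyc u φ z χ w ψ := by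
  simp only [cyc, dotProduct_comm u, dotProduct_comm w, dotProduct_comm z]; ring

theorem ND.swap (h : ND T u φ w ψ z χ) : ND (fun φ u => T u φ) φ u ψ w χ z :=
  ⟨h.1, h.2.1, h.2.2.1, by rw [cyc_swap u φ w ψ, cyc_swap u φ z χ, add_comm]; exact h.2.2.2⟩

theorem ND.rot (h : ND T u φ w ψ z χ) : ND T w ψ z χ u φ :=
  ⟨h.2.1, h.2.2.1, h.1, by convert h.2.2.2 using 1; simp only [cyc]; ring⟩

theorem ND.flip (h : ND T u φ w ψ z χ) : ND T u φ z χ w ψ :=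
  ⟨h.1, h.2.2.1, h.2.1, by rw [add_comm]; exact h.2.2.2⟩

theorem HasND.swap (h : HasND T) : HasND fun φ u => T u φ := by
  obtain ⟨u, φ, w, ψ, z, χ, h⟩ := h
  exact ⟨_, _, _, _, _, _, h.swap⟩

theorem exists_rel {l m : k} (hl : l ∈ K ∨ Exc K l) (hm : m ∈ K ∨ Exc K m)
    (hs : l + m ∈ K ∨ Exc K (l + m)) : ∃ a ∈ K, ∃ b ∈ K, (a ≠ 0 ∨ b ≠ 0) ∧ a * l + b * m = 0 :=
  H25.Tv3.exists_rel hl hm hs

theorem TS.exists_axis (h : TS K T) (hL : Lam K T) {ψ' : V4 k} (h1 : T w ψ) (h2 : T w ψ')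
    (h3 : T u φ) (h4 : φ ⬝ᵥ w ≠ 0) :
    ∃ a ∈ K, ∃ b ∈ K, (a ≠ 0 ∨ b ≠ 0) ∧ (a • ψ + b • ψ') ⬝ᵥ u = 0 := by
  obtain ⟨a, ha, b, hb, c1, c2⟩ := exists_rel (hL _ _ _ _ h3 h1) (hL _ _ _ _ h3 h2) (by
    simpa [mul_add] using hL _ _ _ _ h3 (h.addR h1 h2))
  exact ⟨a, ha, b, hb, c1, mul_left_cancel₀ h4 (by
    simp only [add_dotProduct, smul_dotProduct, smul_eq_mul]; linear_combination c2)⟩

/-! ### change of basis -/

theorem pb_iff (B : G4 k) : pb B T ((B⁻¹).val *ᵥ u) (φ ᵥ* B.val) ↔ T u φ := by simp [pb]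

theorem pb_pb (B C : G4 k) : pb C (pb B T) = pb (B * C) T := by
  funext u φ; simp [pb]

theorem TB.pb (h : TB T) (B : G4 k) : TB (pb B T) where
  orth h1 := by rw [← conj_dot' B, h.orth h1]
  smul_iff c := by simp [LD.pb, mulVec_smul, smul_vecMul, h.smul_iff]
  addL h1 h2 := by simpa [LD.pb, mulVec_add] using h.addL h1 h2
  addR h1 h2 := by simpa [LD.pb, add_vecMul] using h.addR h1 h2
  neg h1 := by simpa [LD.pb, mulVec_neg] using h.neg h1
  conj h1 h2 := by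
    have := h.conj h1 h2
    rw [conj_dot', conj_dot'] at this
    simpa [LD.pb, mulVec_add, mulVec_smul, sub_vecMul, smul_vecMul] using this

theorem XY.pb (h : XY T) (B : G4 k) : XY (pb B T) := fun S h1 h2 h3 u hu φ hφ => by
  obtain ⟨w, ψ, a1, a2, a3⟩ := h (fun a b => S ((B⁻¹).val *ᵥ a) (b ᵥ* B.val))
    (fun a b c => (pb_iff B).1 (h1 _ _ c))
    (fun a b c d e f => by
      have := h2 _ _ _ _ ((pb_iff B).2 e) f
      rw [conj_dot, conj_dot] at this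
      simpa [mulVec_add, mulVec_smul, sub_vecMul, smul_vecMul] using this)
    (by obtain ⟨a, b, c, d, e⟩ := h3
        exact ⟨_, _, by simpa using c, mulVec_ne B d, vecMul_ne B⁻¹ e⟩)
    _ (mulVec_ne B hu) _ (vecMul_ne B⁻¹ hφ)
  exact ⟨_, _, a1, by rwa [dotProduct_mulVec], by rwa [← dotProduct_mulVec]⟩

theorem TS.pb (h : TS K T) (B : G4 k) : TS K (pb B T) where
  toTB := h.toTB.pb B
  ne := by
    obtain ⟨a, b, c, d, e⟩ := h.ne
    exact ⟨_, _, (pb_iff B).2 c, mulVec_ne B⁻¹ d, vecMul_ne B e⟩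
  xy := h.xy.pb B
  irr A hA := by
    refine (h.irr (A.comap (B⁻¹).val.mulVecLin) fun u φ a => (hA _ _ ((pb_iff B).2 a)).imp id
      fun b v hv => by rw [← conj_dot B]; exact b _ hv).imp (fun e => ?_) fun e => ?_
    · refine (Submodule.eq_bot_iff _).2 fun v hv => by_contra fun h0 => mulVec_ne B h0 ?_
      exact (Submodule.eq_bot_iff _).1 e _ (by simpa using hv)
    · refine eq_top_iff.2 fun v _ => ?_
      simpa using (e ▸ Submodule.mem_top : B.val *ᵥ v ∈ A.comap (B⁻¹).val.mulVecLin)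
  irr' A hA := by
    refine (h.irr' (A.comap B.val.vecMulLinear) fun u φ a => (hA _ _ ((pb_iff B).2 a)).imp id
      fun b v hv => by
        rw [dotProduct_comm, ← conj_dot B, dotProduct_comm]; exact b _ hv).imp
        (fun e => ?_) fun e => ?_
    · refine (Submodule.eq_bot_iff _).2 fun v hv => by_contra fun h0 => vecMul_ne B⁻¹ h0 ?_
      exact (Submodule.eq_bot_iff _).1 e _ (by simpa using hv)
    · refine eq_top_iff.2 fun v _ => ?_
      simpa using (e ▸ Submodule.mem_top : v ᵥ* (B⁻¹).val ∈ A.comap B.val.vecMulLinear)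
  mem h1 ha := by simpa [LD.pb, mulVec_smul] using h.mem h1 ha
  max h1 h2 h3 h4 := h.max h1 (by simpa [LD.pb, mulVec_smul] using h2) (mulVec_ne B h3)
    (vecMul_ne B⁻¹ h4)

theorem Lam.pb (h : Lam K T) (B : G4 k) : Lam K (pb B T) := fun u φ w ψ h1 h2 => by
  simpa only [conj_dot'] using h _ _ _ _ h1 h2

theorem Sym.pb (h : Sym T) (B : G4 k) : Sym (pb B T) := fun u φ w ψ h1 h2 a b c => by
  simpa only [conj_dot'] using h _ _ _ _ h1 h2 (vecMul_ne B⁻¹ a) (mulVec_ne B b)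
    (by rwa [conj_dot'])

theorem Sw.pb (h : Sw T) (B : G4 k) : Sw (pb B T) := fun u φ w ψ h1 h2 a b => by
  obtain ⟨c, c1, c2⟩ := h _ _ _ _ h1 h2 (by rwa [conj_dot']) (by rwa [conj_dot'])
  rw [conj_dot', conj_dot'] at c1 c2
  exact ⟨c, c1, by simpa [LD.pb, mulVec_add, mulVec_smul, add_vecMul, smul_vecMul] using c2⟩

theorem NoFat.pb (h : NoFat T) (B : G4 k) : NoFat (pb B T) :=
  ⟨fun u φ ψ a b c d => (h.1 _ _ _ a b (mulVec_ne B c) (vecMul_ne B⁻¹ d)).imp fun e he => by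
      simpa [smul_vecMul] using congrArg (· ᵥ* B.val) he,
    fun u w φ a b c d => (h.2 _ _ _ a b (mulVec_ne B c) (vecMul_ne B⁻¹ d)).imp fun e he => by
      simpa [mulVec_smul] using congrArg ((B⁻¹).val *ᵥ ·) he⟩

theorem nd_pb (B : G4 k) : ND (pb B T) u φ w ψ z χ ↔ ND T (B.val *ᵥ u) (φ ᵥ* (B⁻¹).val)
    (B.val *ᵥ w) (ψ ᵥ* (B⁻¹).val) (B.val *ᵥ z) (χ ᵥ* (B⁻¹).val) := by
  simp only [ND, pb, cyc, conj_dot']

theorem nd_pb' (B : G4 k) : ND (pb B T) ((B⁻¹).val *ᵥ u) (φ ᵥ* B.val) ((B⁻¹).val *ᵥ w)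
    (ψ ᵥ* B.val) ((B⁻¹).val *ᵥ z) (χ ᵥ* B.val) ↔ ND T u φ w ψ z χ := by
  simp only [ND, pb_iff, cyc, conj_dot]

theorem HasND.pb (h : HasND T) (B : G4 k) : HasND (pb B T) := by
  obtain ⟨u, φ, w, ψ, z, χ, h⟩ := h
  exact ⟨_, _, _, _, _, _, (nd_pb' B).2 h⟩

theorem Ext.pb (h : Ext T) (B : G4 k) : Ext (pb B T) := fun u φ w ψ h1 h2 a => by
  obtain ⟨z, χ, h3⟩ := h _ _ _ _ h1 h2 (by rwa [conj_dot'])
  exact ⟨(B⁻¹).val *ᵥ z, χ ᵥ* B.val, (nd_pb B).2 (by simpa using h3)⟩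

/-! ### the system of a group -/

/-- The transvection `1 + u φ`. -/
def tv (u φ : V4 k) (h : φ ⬝ᵥ u = 0) : G4 k :=
  ⟨1 + vecMulVec u φ, 1 + vecMulVec (-u) φ,
    by simp [mul_add, add_mul, vecMulVec_mul_vecMulVec, h],
    by simp [mul_add, add_mul, vecMulVec_mul_vecMulVec, h]⟩

theorem tv_val (h : φ ⬝ᵥ u = 0) : (tv u φ h).val = 1 + vecMulVec u φ := rfl

theorem tv_inv_val (h : φ ⬝ᵥ u = 0) : ((tv u φ h)⁻¹).val = 1 + vecMulVec (-u) φ := rfl

theorem TV.mem (h : TV G u φ) : tv u φ h.1 ∈ G := by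
  obtain ⟨g, h1, h2⟩ := h.2
  rwa [show tv u φ h.1 = g from Units.ext h2.symm]

theorem TV.of_mem {h : φ ⬝ᵥ u = 0} (h1 : tv u φ h ∈ G) : TV G u φ := ⟨h, _, h1, rfl⟩

theorem conj_tv_val (g : G4 k) (h : φ ⬝ᵥ u = 0) : (g * tv u φ h * g⁻¹).val =
    1 + vecMulVec (g.val *ᵥ u) (φ ᵥ* (g⁻¹).val) := by
  rw [Units.val_mul, Units.val_mul, tv, mul_add, add_mul, mul_one, Units.mul_inv, mul_vecMulVec,
    vecMulVec_mul]

theorem TV.conj {g : G4 k} (hg : g ∈ G) (h : TV G u φ) :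
    TV G (g.val *ᵥ u) (φ ᵥ* (g⁻¹).val) :=
  ⟨by rw [conj_dot', h.1], _, G.mul_mem (G.mul_mem hg h.mem) (G.inv_mem hg), conj_tv_val g h.1⟩

theorem tv_eq_one_iff (h : φ ⬝ᵥ u = 0) : tv u φ h = 1 ↔ u = 0 ∨ φ = 0 := by
  rw [← vecMulVec_eq_zero, Units.ext_iff, tv_val, Units.val_one, add_eq_left]

theorem isTv_tv (h : φ ⬝ᵥ u = 0) (hu : u ≠ 0) (hφ : φ ≠ 0) : IsTv (tv u φ h) :=
  ⟨fun e => ((tv_eq_one_iff h).1 e).elim hu hφ, u, φ, h, rfl⟩

theorem IsTv.exists_tv {g : G4 k} (h : IsTv g) :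
    ∃ (u φ : V4 k) (h : φ ⬝ᵥ u = 0), u ≠ 0 ∧ φ ≠ 0 ∧ g = tv u φ h := by
  obtain ⟨h1, u, φ, h2, h3⟩ := h
  have e : g = tv u φ h2 := Units.ext h3
  exact ⟨u, φ, h2, fun a => h1 (e ▸ (tv_eq_one_iff h2).2 (.inl a)),
    fun a => h1 (e ▸ (tv_eq_one_iff h2).2 (.inr a)), e⟩

theorem tb (G : Subgroup (G4 k)) : TB (TV G) where
  orth h := h.1
  smul_iff c := by simp [TV]
  addL h1 h2 := ⟨by simp [h1.1, h2.1], _, G.mul_mem h1.mem h2.mem, by
    simp [tv, mul_add, add_mul, vecMulVec_mul_vecMulVec, h2.1, add_assoc, add_vecMulVec]⟩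
  addR h1 h2 := ⟨by simp [h1.1, h2.1], _, G.mul_mem h1.mem h2.mem, by
    simp [tv, mul_add, add_mul, vecMulVec_mul_vecMulVec, h1.1, add_assoc, vecMulVec_add]⟩
  neg h := ⟨by simp [h.1], _, G.inv_mem h.mem, rfl⟩
  conj {u φ w ψ} h1 h2 := by
    have := h2.conj h1.mem
    rw [tv_val, tv_inv_val, tv_mulVec, vecMul_tv] at this
    simpa [sub_eq_add_neg] using this

/-- Induction over a group generated by its transvections. -/
theorem Gen.ind (h : Gen G) {P : G4 k → Prop} (h1 : P 1) (hm : ∀ a b, P a → P b → P (a * b))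
    (ht : ∀ u φ (a : TV G u φ), u ≠ 0 → φ ≠ 0 → P (tv u φ a.1)) {g : G4 k} (hg : g ∈ G) : P g := by
  refine Subgroup.closure_induction'' (p := fun g _ => P g) ?_ ?_ h1 (fun a b _ _ => hm a b) (h hg)
  · rintro g ⟨a, b⟩
    obtain ⟨u, φ, c, d, e, rfl⟩ := b.exists_tv
    exact ht u φ (TV.of_mem a) d e
  · rintro g ⟨a, b⟩
    obtain ⟨u, φ, c, d, e, rfl⟩ := b.exists_tv
    rw [show (tv u φ c)⁻¹ = tv (-u) φ ((tb G).neg (TV.of_mem a)).1 from Units.ext rfl]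
    exact ht (-u) φ ((tb G).neg (TV.of_mem a)) (neg_ne_zero.2 d) e

/-- The group in the basis given by the columns of `B`. -/
def cg (G : Subgroup (G4 k)) (B : G4 k) : Subgroup (G4 k) := G.comap (MulAut.conj B).toMonoidHom

theorem mem_cg {B g : G4 k} : g ∈ cg G B ↔ B * g * B⁻¹ ∈ G := Iff.rfl

theorem conj_mem_cg {B g : G4 k} : B⁻¹ * g * B ∈ cg G B ↔ g ∈ G := by
  rw [mem_cg, show B * (B⁻¹ * g * B) * B⁻¹ = g by group]

theorem card_cg (B : G4 k) : Nat.card (cg G B) = Nat.card G :=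
  Nat.card_congr ((MulAut.conj B).toEquiv.subtypeEquiv fun _ => Iff.rfl)

instance (B : G4 k) [Finite G] : Finite (cg G B) :=
  Finite.of_equiv G ((MulAut.conj B).toEquiv.subtypeEquiv fun _ => Iff.rfl).symm

theorem tv_cg (B : G4 k) : TV (cg G B) = pb B (TV G) := by
  funext u φ
  refine propext ⟨fun h => ⟨by rw [conj_dot', h.1], _, mem_cg.1 h.mem, conj_tv_val B h.1⟩,
    fun h => ?_⟩
  have h0 : φ ⬝ᵥ u = 0 := by rw [← conj_dot' B, h.1]
  refine TV.of_mem (h := h0) (mem_cg.2 ?_)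
  rw [show B * tv u φ h0 * B⁻¹ = tv _ _ h.1 from Units.ext (conj_tv_val B h0)]
  exact h.mem

theorem Gen.cg (h : Gen G) (B : G4 k) : Gen (cg G B) := fun g hg => by
  have : B⁻¹ * (B * g * B⁻¹) * B ∈ Subgroup.closure {g | g ∈ LD.cg G B ∧ IsTv g} :=
    h.ind (P := fun g => B⁻¹ * g * B ∈ Subgroup.closure {g | g ∈ LD.cg G B ∧ IsTv g})
      (by simp) (fun a b ha hb => by convert mul_mem ha hb using 1; group)
      (fun u φ a b c => Subgroup.subset_closure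
        ⟨conj_mem_cg.2 a.mem, (isTv_tv a.1 b c).conj B⟩) hg
  simpa [mul_assoc] using this

/-! ### restriction to the span of a nondegenerate triple -/

/-- Extension by zero. -/
def ex (u : Fin 3 → k) : V4 k := ![u 0, u 1, u 2, 0]

theorem ex_dot (a b : Fin 3 → k) : ex a ⬝ᵥ ex b = a ⬝ᵥ b := by
  simp [ex, dotProduct, Fin.sum_univ_four, Fin.sum_univ_three]

theorem ex_add (a b : Fin 3 → k) : ex (a + b) = ex a + ex b := by simp [ex]
theorem ex_sub (a b : Fin 3 → k) : ex (a - b) = ex a - ex b := by simp [ex]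
theorem ex_neg (a : Fin 3 → k) : ex (-a) = -ex a := by simp [ex]
theorem ex_smul (c : k) (a : Fin 3 → k) : ex (c • a) = c • ex a := by simp [ex]

theorem ex_eq_zero {a : Fin 3 → k} : ex a = 0 ↔ a = 0 :=
  ⟨fun h => funext fun i => by
    fin_cases i
    exacts [congrFun h 0, congrFun h 1, congrFun h 2], fun h => by simp [ex, h]⟩

theorem eq_ex {a : V4 k} (h : a 3 = 0) : a = ex ![a 0, a 1, a 2] := by
  funext i; fin_cases i <;> simp [ex, h]

theorem ex_single (i : Fin 3) (c : k) : ex (Pi.single i c) = Pi.single i.castSucc c := by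
  funext j; fin_cases i <;> fin_cases j <;> simp [ex]

/-- The flags with centre in `⟨e₀, e₁, e₂⟩` and axis through `e₃`. -/
def res (T : V4 k → V4 k → Prop) (u φ : Fin 3 → k) : Prop := T (ex u) (ex φ)

theorem TB.res (h : TB T) : H25.Tv3.TB (res T) where
  orth h1 := by rw [← ex_dot, h.orth h1]
  smul_iff c := by simp only [LD.res, ex_smul, h.smul_iff]
  addL h1 h2 := by simpa only [LD.res, ex_add] using h.addL h1 h2
  addR h1 h2 := by simpa only [LD.res, ex_add] using h.addR h1 h2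
  neg h1 := by simpa only [LD.res, ex_neg] using h.neg h1
  conj h1 h2 := by simpa only [LD.res, ex_add, ex_sub, ex_smul, ex_dot] using h.conj h1 h2

theorem Lam.res (h : Lam K T) : H25.Tv3.Lam K (res T) := fun u φ w ψ h1 h2 => by
  have := h _ _ _ _ h1 h2
  rw [ex_dot, ex_dot] at this
  exact this

theorem TS.res_of (h : TS K T) (hs : H25.Tv3.Spans (res T)) : H25.Tv3.TS K (res T) where
  toTB := h.toTB.res
  spans := hs
  mem h1 ha := by simpa only [LD.res, ex_smul] using h.mem h1 ha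
  max h1 h2 h3 h4 := h.max h1 (by simpa only [LD.res, ex_smul] using h2) (mt ex_eq_zero.1 h3)
    (mt ex_eq_zero.1 h4)

/-- The basis adapted to three flags with invertible pairing matrix. -/
theorem exists_frame3 (u φ : Fin 3 → V4 k) (hd : (of fun i j => φ i ⬝ᵥ u j).det ≠ 0) :
    ∃ B : G4 k, (∀ i, B.val *ᵥ ex (Pi.single i 1) = u i) ∧
      ∀ i, ex (fun j => φ i ⬝ᵥ u j) ᵥ* (B⁻¹).val = φ i := by
  obtain ⟨v, h0, h1, h2, h3⟩ := exists_ker_three (φ 0) (φ 1) (φ 2)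
  have hv : ∀ i, φ i ⬝ᵥ v = 0 := fun i => by fin_cases i <;> assumption
  have e : ∀ i, φ i ᵥ* (of ![u 0, u 1, u 2, v])ᵀ = ex fun j => φ i ⬝ᵥ u j := fun i => by
    funext j
    rw [vecMul_transpose]
    fin_cases j <;> simp [ex, mulVec, dotProduct_comm (φ i), ← hv i]
  obtain ⟨B, hB⟩ := exists_unit (M := (of ![u 0, u 1, u 2, v])ᵀ) fun y hy => by
    have a : (of fun i j => φ i ⬝ᵥ u j) *ᵥ ![y 0, y 1, y 2] = 0 := funext fun i => by
      have := congrArg (φ i ⬝ᵥ ·) hy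
      simp only [dotProduct_mulVec, e] at this
      simpa [ex, dotProduct, mulVec, Fin.sum_univ_four, Fin.sum_univ_three] using this
    have b := eq_zero_of_mulVec_eq_zero hd a
    have b0 : y 0 = 0 := congrFun b 0
    have b1 : y 1 = 0 := congrFun b 1
    have b2 : y 2 = 0 := congrFun b 2
    have b3 : y 3 • v = 0 := funext fun i => by
      simpa [mulVec, dotProduct, Fin.sum_univ_four, b0, b1, b2, mul_comm] using congrFun hy i
    funext i
    fin_cases i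
    exacts [b0, b1, b2, (smul_eq_zero.1 b3).resolve_right h0]
  refine ⟨B, fun i => ?_, fun i => by rw [← e, ← hB]; simp⟩
  rw [hB, ex_single, mulVec_single_one]
  fin_cases i <;> rfl

/-- Restriction to a nondegenerate triple: the three centres are the coordinate vectors. -/
theorem TS.res (h : TS K T) (hn : ND T u φ w ψ z χ) : ∃ B : G4 k,
    H25.Tv3.TS K (res (LD.pb B T)) ∧
    B.val *ᵥ ex (Pi.single 0 1) = u ∧ B.val *ᵥ ex (Pi.single 1 1) = w ∧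
    B.val *ᵥ ex (Pi.single 2 1) = z ∧ ex ![0, φ ⬝ᵥ w, φ ⬝ᵥ z] ᵥ* (B⁻¹).val = φ ∧
    ex ![ψ ⬝ᵥ u, 0, ψ ⬝ᵥ z] ᵥ* (B⁻¹).val = ψ ∧ ex ![χ ⬝ᵥ u, χ ⬝ᵥ w, 0] ᵥ* (B⁻¹).val = χ := by
  obtain ⟨h1, h2, h3, h4⟩ := hn
  have o1 := h.orth h1
  have o2 := h.orth h2
  have o3 := h.orth h3
  have hd : (of fun i j => ![φ, ψ, χ] i ⬝ᵥ ![u, w, z] j).det ≠ 0 := by
    convert h4 using 1
    simp [det_fin_three, cyc, o1, o2, o3]
    ring
  obtain ⟨B, b1, b2⟩ := exists_frame3 _ _ hd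
  have ht : ∀ i, LD.res (LD.pb B T) (Pi.single i 1) fun j => ![φ, ψ, χ] i ⬝ᵥ ![u, w, z] j :=
    fun i => by
      rw [LD.res, LD.pb, b1, b2]
      fin_cases i <;> assumption
  refine ⟨B, (h.pb B).res_of ⟨fun η hη => ?_, fun y hy => ?_⟩, b1 0, b1 1, b1 2, ?_, ?_, ?_⟩
  · obtain ⟨i, hi⟩ := Function.ne_iff.1 hη
    exact ⟨_, _, ht i, fun e => hd (det_eq_zero_of_row_eq_zero i (congrFun e)), by simpa using hi⟩
  · obtain ⟨i, hi⟩ := Function.ne_iff.1 (mt (eq_zero_of_mulVec_eq_zero hd) hy)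
    exact ⟨_, _, ht i, by simp, by rw [dotProduct_comm]; exact hi⟩
  · refine Eq.trans ?_ (b2 0); congr 2; funext j; fin_cases j <;> simp [o1]
  · refine Eq.trans ?_ (b2 1); congr 2; funext j; fin_cases j <;> simp [o2]
  · refine Eq.trans ?_ (b2 2); congr 2; funext j; fin_cases j <;> simp [o3]

end H20.LD
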