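import Cfsg.Agent.H39.PSSpec

/-! PS tower, slot `N2b`: the arithmetic of the multiply transitive case for large degree. -/

set_option autoImplicit false

namespace H20.PSN

open Finset H39.PS

theorem pow_bound (M : ℕ) (h : 17 ≤ M) : ((M + 1) * (M + 12) + 2) ^ 2 ≤ 4 * 2 ^ M := by
  induction M, h using Nat.le_induction with
  | base => norm_num
  | succ M hM ih =>
    have h1 : 5 * ((M + 1 + 1) * (M + 1 + 12) + 2) ≤ 7 * ((M + 1) * (M + 12) + 2) := by nlinarith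
    have h2 := Nat.pow_le_pow_left h1 2
    rw [mul_pow, mul_pow] at h2
    rw [pow_succ 2 M]
    omega

/-- The parameters of the steps. -/
theorem par {w v s : ℕ} (hv : 1 ≤ v) (hw : 2 * v ≤ w) (hs : 8 * s ≤ w) : ∃ Q, Par w v Q ∧
    (∀ l, 0 ≤ Q l ∧ Q l ≤ 1) ∧ ∀ l, s ≤ l → Q l ≤ Real.exp (-((s : ℝ) * (s - 1) / (6 * w))) := by
  have w0 : (0 : ℝ) < w := by exact_mod_cast (by omega : 0 < w)
  have hw' : 2 * (v : ℝ) ≤ w := by exact_mod_cast hw
  have w2 : (2 : ℝ) ≤ w := by exact_mod_cast (by omega : 2 ≤ w)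
  let η : ℕ → ℝ := fun l => if l < s then l / (3 * w) else 0
  have hl : ∀ l, l < s → (l : ℝ) / w ≤ 1 / 8 := fun l h => by
    rw [div_le_div_iff₀ w0 (by norm_num)]
    exact_mod_cast (by omega : l * 8 ≤ 1 * w)
  have e : ∀ l : ℕ, (l : ℝ) / (3 * w) = l / w / 3 := fun l => by rw [div_div, mul_comm]
  have h0 : ∀ l, 0 ≤ η l ∧ η l ≤ 1 / 24 := fun l => by
    simp only [η]
    split_ifs with h
    · exact ⟨by positivity, by have := hl l h; rw [e]; linarith⟩
    · norm_num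
  have q0 : ∀ l, 0 ≤ ∏ i ∈ range l, (1 - η i) := fun l =>
    prod_nonneg fun i _ => by have := (h0 i).2; linarith
  refine ⟨fun l => ∏ i ∈ range l, (1 - η i), ⟨by simp, fun l => 1 - (min l s : ℕ) / (2 * w),
    fun l => 2 * η l, η, by simp, fun l => ?_⟩, fun l => ⟨q0 l, prod_le_one
      (fun i _ => by have := (h0 i).2; linarith) fun i _ => by have := (h0 i).1; linarith⟩,
    fun l hl' => ?_⟩
  · have e2 : ∀ l : ℕ, (l : ℝ) / (2 * w) = l / w / 2 := fun l => by rw [div_div, mul_comm]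
    have m0 : (0 : ℝ) ≤ (min l s : ℕ) / w := by positivity
    have m1 : ((min l s : ℕ) : ℝ) / w ≤ 1 / 8 := by
      rw [div_le_div_iff₀ w0 (by norm_num)]
      exact_mod_cast (by omega : min l s * 8 ≤ 1 * w)
    have y0 : 0 ≤ 1 - ((min l s : ℕ) : ℝ) / (2 * w) := by rw [e2]; linarith
    have y1 : 1 - ((min l s : ℕ) : ℝ) / (2 * w) ≤ 1 := by rw [e2]; linarith
    obtain ⟨a0, a1⟩ := h0 l
    refine ⟨y0, y1, by linarith, by linarith, a0, q0 l, ?_, by nlinarith, ?_,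
      (prod_range_succ _ _).ge⟩
    · refine (pow_le_pow_of_le_one y0 y1 (by omega : 2 ≤ 2 * v)).trans ?_
      simp only [η]
      split_ifs with h
      · rw [min_eq_left h.le] at m0 m1 ⊢
        rw [e, e2]
        nlinarith
      · rw [mul_zero, sub_zero]
        exact pow_le_one₀ y0 y1
    · simp only [η]
      have i0 : (0 : ℝ) < 1 / w := by positivity
      split_ifs with h
      · rw [min_eq_left h.le] at m0 m1 ⊢
        rw [min_eq_left (by omega : l + 1 ≤ s), e, e2, e2, Nat.cast_succ, add_div,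
          div_eq_mul_one_div (1 - _) (w : ℝ)]
        have : 1 / 2 ≤ (1 - (l : ℝ) / w / 2) * (1 - 2 * (2 * (l / w / 3))) := by nlinarith
        nlinarith
      · rw [min_eq_right (by omega : s ≤ l + 1)]
        rw [min_eq_right (by omega : s ≤ l)] at y0 ⊢
        rw [mul_zero, mul_zero, sub_zero]
        nlinarith
  · have h1 : ∏ i ∈ range l, (1 - η i) ≤ Real.exp (-∑ i ∈ range l, η i) := by
      rw [← sum_neg_distrib, Real.exp_sum]
      exact prod_le_prod (fun i _ => by have := (h0 i).2; linarith) fun i _ => by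
        have := Real.add_one_le_exp (-η i); linarith
    refine h1.trans (Real.exp_le_exp.2 (neg_le_neg ?_))
    refine le_trans (le_of_eq ?_) (sum_le_sum_of_subset_of_nonneg (range_mono hl') fun i _ _ => (h0 i).1)
    rw [sum_congr rfl fun i hi => if_pos (mem_range.1 hi), ← sum_div]
    have h2 : ∀ k : ℕ, ∑ i ∈ range k, (i : ℝ) = k * (k - 1) / 2 := fun k => by
      induction k with
      | zero => simp
      | succ k ih => rw [sum_range_succ, ih, Nat.cast_succ]; ring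
    rw [h2]
    field_simp
    ring

theorem pr_le {N n s : ℕ} {Q : ℕ → ℝ} (hN : N ≤ n) (h1 : ∀ l, 0 ≤ Q l ∧ Q l ≤ 1)
    (h2 : ∀ l, s ≤ l → n * Q l ≤ 1) (hn : 1 ≤ n) : Pr N Q ≤ (n : ℝ) ^ s * 2 ^ n := by
  have n1 : (1 : ℝ) ≤ n := by exact_mod_cast hn
  have key : ∀ k, k ≤ N → ∏ l ∈ range k, (1 + ((N - 1 - l : ℕ) : ℝ) * Q l) ≤
      (n : ℝ) ^ min k s * 2 ^ k := fun k hk => by
    induction k with
    | zero => simp
    | succ k ih =>
      rw [prod_range_succ]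
      have b1 : ((N - 1 - k : ℕ) : ℝ) + 1 ≤ n := by exact_mod_cast (by omega : N - 1 - k + 1 ≤ n)
      have b0 : (0 : ℝ) ≤ ((N - 1 - k : ℕ) : ℝ) := Nat.cast_nonneg _
      obtain ⟨c0, c1⟩ := h1 k
      have f0 : 0 ≤ 1 + ((N - 1 - k : ℕ) : ℝ) * Q k := by positivity
      by_cases h : k < s
      · have f1 : 1 + ((N - 1 - k : ℕ) : ℝ) * Q k ≤ n * 2 := by nlinarith
        refine (mul_le_mul (ih (by omega)) f1 f0 (by positivity)).trans (le_of_eq ?_)
        rw [min_eq_left h.le, min_eq_left (by omega : k + 1 ≤ s)]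
        ring
      · have f1 : 1 + ((N - 1 - k : ℕ) : ℝ) * Q k ≤ 2 := by
          have := h2 k (by omega)
          nlinarith
        refine (mul_le_mul (ih (by omega)) f1 f0 (by positivity)).trans (le_of_eq ?_)
        rw [min_eq_right (by omega : s ≤ k), min_eq_right (by omega : s ≤ k + 1)]
        ring
  exact (key N le_rfl).trans (mul_le_mul (pow_le_pow_right₀ n1 (min_le_right _ _))
    (pow_le_pow_right₀ (by norm_num) hN) (by positivity) (by positivity))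

theorem ar {n a M c : ℕ} (a2 : n < (a + 1) * (a + 1)) (a4 : 261 ≤ a) (m3 : 17 ≤ M)
    (c2 : M + 3 ≤ 2 * c) : 21 * (n * (M + 1)) + 5 * (c * a) ≤ 5 * (c * a * (c * a)) := by
  have e1 : n ≤ a * (a + 2) := by nlinarith
  have e2 : n * (M + 1) ≤ a * (a + 2) * (2 * c) := Nat.mul_le_mul e1 (by omega)
  have e3 : 10 * (c * a * a) ≤ c * (c * a * a) := Nat.mul_le_mul_right _ (by omega)
  have e4 : 261 * (c * a) ≤ a * (c * a) := Nat.mul_le_mul_right _ a4
  nlinarith

theorem jobN2b : N2b := by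
  intro n hn
  obtain ⟨a, ha⟩ : ∃ a, a = Nat.sqrt n := ⟨_, rfl⟩
  obtain ⟨M, hM⟩ : ∃ M, M = Nat.log 2 n := ⟨_, rfl⟩
  have a1 : a * a ≤ n := ha ▸ Nat.sqrt_le n
  have a2 : n < (a + 1) * (a + 1) := ha ▸ Nat.lt_succ_sqrt n
  have n0 : n ≠ 0 := by omega
  have m1 : 2 ^ M ≤ n := hM ▸ Nat.pow_log_le_self 2 n0
  have m2 : n < 2 ^ (M + 1) := hM ▸ Nat.lt_pow_succ_log_self (by norm_num) n
  have m3 : 17 ≤ M := hM ▸ Nat.le_log_of_pow_le (by norm_num) hn
  have a3 : (M + 1) * (M + 12) ≤ 2 * a := by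
    have h1 := pow_bound M m3
    have h2 : ((M + 1) * (M + 12) + 2) ^ 2 < (2 * (a + 1)) ^ 2 := by nlinarith
    have := lt_of_pow_lt_pow_left₀ 2 (Nat.zero_le _) h2
    omega
  have a4 : 261 ≤ a := by nlinarith
  obtain ⟨p, hp, p1, p2⟩ := Nat.exists_prime_lt_and_le_two_mul a (by omega)
  have k1 : 2 ≤ n / p := (Nat.le_div_iff_mul_le hp.pos).2 (by nlinarith)
  have k2 : n / p < p := (Nat.div_lt_iff_lt_mul hp.pos).2 (by nlinarith)
  have r1 := Nat.mod_lt n hp.pos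
  refine ⟨n % p + p, ⟨n / p - 1, p, hp, ?_, by omega, by omega, by omega, by omega⟩,
    fun t v t1 t2 v1 v2 => ?_⟩
  · have := Nat.div_add_mod' n p
    obtain ⟨k, hk⟩ : ∃ k, n / p = k + 1 := ⟨n / p - 1, by omega⟩
    rw [hk] at this ⊢
    rw [Nat.add_sub_cancel]
    linarith
  obtain ⟨c, hc⟩ : ∃ c, a / (M + 1) = c + 4 := ⟨a / (M + 1) - 4, by
    have : 4 ≤ a / (M + 1) := (Nat.le_div_iff_mul_le (by omega)).2 (by nlinarith)
    omega⟩
  have c1 : (c + 4) * (M + 1) ≤ a := hc ▸ Nat.div_mul_le_self a (M + 1)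
  have c2 : M + 3 ≤ 2 * c := by
    have h1 : a < (c + 4 + 1) * (M + 1) := (Nat.div_lt_iff_lt_mul (by omega)).1 (by omega)
    have h2 : (M + 1) * (M + 12) < (M + 1) * (2 * (c + 5)) := by nlinarith
    have := lt_of_mul_lt_mul_left h2 (Nat.zero_le _)
    omega
  have s1 : (M + 1) * (4 * a + c * a) ≤ n := by nlinarith
  have s2 : 18 * (4 * a + c * a) ≤ n := le_trans (Nat.mul_le_mul_right _ (by omega)) s1
  obtain ⟨Q, hQ, q1, q2⟩ := par (s := c * a) v1 v2 (by omega)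
  refine ⟨Q, hQ, ?_⟩
  have nR : (n : ℝ) ≤ 2 ^ (M + 1) := by exact_mod_cast m2.le
  have q3 : ∀ l, c * a ≤ l → n * Q l ≤ 1 := fun l hl => by
    have w0 : (0 : ℝ) < (n - t : ℕ) := by exact_mod_cast (by omega : 0 < n - t)
    have h1 := ar a2 a4 m3 c2
    have h2 : (M + 1 : ℝ) * (7 / 10) ≤ ((c * a : ℕ) : ℝ) * ((c * a : ℕ) - 1) / (6 * (n - t : ℕ)) := by
      rw [le_div_iff₀ (by positivity)]
      have e1 : ((n - t : ℕ) : ℝ) ≤ n := by exact_mod_cast Nat.sub_le n t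
      have e2 : (21 : ℝ) * (n * (M + 1)) + 5 * (c * a : ℕ) ≤ 5 * ((c * a : ℕ) * (c * a : ℕ)) := by
        exact_mod_cast h1
      have e3 : (0 : ℝ) ≤ M + 1 := by positivity
      nlinarith
    have h3 : (n : ℝ) ≤ Real.exp ((M + 1 : ℝ) * (7 / 10)) := by
      refine nR.trans ?_
      rw [show (M + 1 : ℝ) = (M + 1 : ℕ) by push_cast; rfl, Real.exp_nat_mul]
      refine pow_le_pow_left₀ (by norm_num) ?_ _
      rw [← Real.log_le_iff_le_exp (by norm_num)]
      linarith [Real.log_two_lt_d9]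
    refine (mul_le_mul (h3.trans (Real.exp_le_exp.2 h2)) (q2 l hl) (q1 l).1 (Real.exp_pos _).le).trans ?_
    rw [← Real.exp_add, add_neg_cancel, Real.exp_zero]
  have h4 := pr_le (N := n - t + 2) (by omega) q1 q3 (by omega)
  have h5 : (n.descFactorial (t - 2) : ℝ) ≤ (n : ℝ) ^ (4 * a) := by
    exact_mod_cast (Nat.descFactorial_le_pow n _).trans (Nat.pow_le_pow_right (by omega) (by omega))
  have h6 : (n : ℝ) ^ (4 * a + c * a) ≤ 2 ^ n := by
    refine (pow_le_pow_left₀ (by positivity) nR _).trans ?_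
    rw [← pow_mul]
    exact pow_le_pow_right₀ (by norm_num) s1
  have h7 : 0 ≤ Pr (n - t + 2) Q := prod_nonneg fun l _ => by have := (q1 l).1; positivity
  calc _ ≤ (n : ℝ) ^ (4 * a) * ((n : ℝ) ^ (c * a) * 2 ^ n) := mul_le_mul h5 h4 h7 (by positivity)
    _ = (n : ℝ) ^ (4 * a + c * a) * 2 ^ n := by rw [pow_add, mul_assoc]
    _ ≤ 2 ^ n * 2 ^ n := mul_le_mul_of_nonneg_right h6 (by positivity)
    _ = 4 ^ n := by rw [← mul_pow]; norm_num

end H20.PSN
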