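import Cfsg.Agent.H98.PReduced
import Cfsg.Agent.H11.QuadAct

/-! Primitive pairs of characteristic `p`: `p`-stable groups do not occur. -/

set_option autoImplicit false

namespace H20
open Cfsg Subgroup H98

variable {G : Type*} [Group G] {p : ℕ}

/-- Ambient form of `p`-stability of the subgroup `L` on its normal `p`-subgroups. -/
def QStab (p : ℕ) (L : Subgroup G) : Prop :=
  ∀ P X : Subgroup G, P ≤ L → L ≤ normalizer (P : Set G) → IsPGroup p P → X ≤ L →
    ⁅⁅P, X⁆, X⁆ = ⊥ → ∃ D : Subgroup G, X ≤ D ∧ D ≤ L ∧ L ≤ normalizer (D : Set G) ∧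
      res p D ≤ centralizer (P : Set G)

theorem QStab.cj [Finite G] [Fact p.Prime] {L : Subgroup G} (h : QStab p L) (g : G) :
    QStab p (cj g L) := by
  intro P X h1 h2 h3 h4 h5
  obtain ⟨D, a, b, c, d⟩ := h (H98.cj g⁻¹ P) (H98.cj g⁻¹ X) (le_cj_iff.1 h1)
    (by rw [← cj_normalizer]; exact cj_le_iff.1 h2) (isPGroup_cj _ h3) (le_cj_iff.1 h4)
    (by rw [← cj_commutator, ← cj_commutator, h5, cj_bot])
  refine ⟨H98.cj g D, le_cj_iff.2 a, cj_mono g b, ?_, ?_⟩
  · rw [← cj_normalizer]; exact cj_mono g c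
  · rw [← cj_res, cj_le_iff, cj_centralizer]; exact d

theorem qstab_of_not_involves [Finite G] [Fact p.Prime] (hp : p ≠ 2) {L : Subgroup G}
    (h : ¬ Involves (qd p) L) : QStab p L := by
  intro P X h1 h2 h3 h4 h5
  have hn : (P.subgroupOf L).Normal := (normal_subgroupOf_iff_le_normalizer h1).2 h2
  have hs := H11.isPStableOn_of_not_involves_qd hp h (P.subgroupOf L) (isPGroup_subgroupOf h3 L)
  let C : Subgroup L := centralizer (P.subgroupOf L : Set L)
  have hn' : (pCore p (L ⧸ C)).Normal := inferInstance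
  refine ⟨((pCore p (L ⧸ C)).comap (QuotientGroup.mk' C)).map L.subtype, fun x hx => ?_,
    map_subtype_le _, le_normalizer_map_subtype _, res_le_of_forall_pow ?_⟩
  · refine ⟨⟨x, h4 hx⟩, hs _ ?_, rfl⟩
    apply map_injective L.subtype_injective
    rw [map_commutator, map_commutator, Subgroup.map_bot, eq_bot_iff, ← h5,
      map_subgroupOf_eq_of_le h1, MonoidHom.map_zpowers]
    have : zpowers x ≤ X := (zpowers_le).2 hx
    exact commutator_mono (commutator_mono le_rfl this) this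
  · rintro _ ⟨x, hx, rfl⟩
    obtain ⟨k, hk⟩ := isPGroup_iff_forall.1 (isPGroup_pCore p (L ⧸ C)) _ hx
    refine ⟨k, ?_⟩
    rw [← map_pow] at hk
    have : x ^ p ^ k ∈ C := (QuotientGroup.eq_one_iff _).1 hk
    rw [show C = _ from centralizer_subgroupOf h1] at this
    exact this

/-- A primitive pair of characteristic `p`. -/
structure PrimPair (p : ℕ) (L M : Subgroup G) : Prop where
  ne : L ≠ M
  prim₁ : ∀ A : Subgroup G, A ≠ ⊥ → A ≤ L → A ≤ M → L ≤ normalizer (A : Set G) →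
    M ⊓ normalizer (A : Set G) ≤ L
  prim₂ : ∀ A : Subgroup G, A ≠ ⊥ → A ≤ L → A ≤ M → M ≤ normalizer (A : Set G) →
    L ⊓ normalizer (A : Set G) ≤ M
  char₁ : CharP p L
  char₂ : CharP p M
  le₁ : pCoreOf p L ≤ M
  le₂ : pCoreOf p M ≤ L

namespace PrimPair
variable {L M : Subgroup G}

theorem symm (h : PrimPair p L M) : PrimPair p M L :=
  ⟨h.ne.symm, fun A a b c => h.prim₂ A a c b, fun A a b c => h.prim₁ A a c b, h.char₂, h.char₁,
    h.le₂, h.le₁⟩

theorem eq_bot (h : PrimPair p L M) {A : Subgroup G} (h1 : A ≤ L) (h2 : A ≤ M)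
    (h3 : L ≤ normalizer (A : Set G)) (h4 : M ≤ normalizer (A : Set G)) : A = ⊥ := by
  by_contra h0
  exact h.ne (le_antisymm ((le_inf le_rfl h3).trans (h.prim₂ A h0 h1 h2 h4))
    ((le_inf le_rfl h4).trans (h.prim₁ A h0 h1 h2 h3)))

theorem core_ne_bot (h : PrimPair p L M) : pCoreOf p L ≠ ⊥ := by
  refine h.char₁.pCoreOf_ne_bot ?_
  rintro rfl
  by_cases hM : M = ⊥
  · exact h.ne hM.symm
  · exact h.char₂.pCoreOf_ne_bot hM (le_bot_iff.1 h.le₂)

theorem cj (h : PrimPair p L M) (g : G) : PrimPair p (cj g L) (cj g M) := by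
  have key : ∀ {L M : Subgroup G}, (∀ A : Subgroup G, A ≠ ⊥ → A ≤ L → A ≤ M →
      L ≤ normalizer (A : Set G) → M ⊓ normalizer (A : Set G) ≤ L) →
      ∀ A : Subgroup G, A ≠ ⊥ → A ≤ H98.cj g L → A ≤ H98.cj g M →
      H98.cj g L ≤ normalizer (A : Set G) → H98.cj g M ⊓ normalizer (A : Set G) ≤ H98.cj g L := by
    intro L M h A a b c d
    have := h (H98.cj g⁻¹ A) (fun e => a (cj_eq_bot_iff.1 e)) (le_cj_iff.1 b) (le_cj_iff.1 c)
      (by rw [← cj_normalizer]; exact cj_le_iff.1 d)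
    rw [le_cj_iff, cj_inf, cj_inv_cj, cj_normalizer]
    exact this
  refine ⟨fun e => h.ne (cj_inj.1 e), key h.prim₁, fun A a b c => key h.symm.prim₁ A a c b,
    h.char₁.cj g, h.char₂.cj g, ?_, ?_⟩
  · rw [← cj_pCoreOf]; exact cj_mono g h.le₁
  · rw [← cj_pCoreOf]; exact cj_mono g h.le₂

theorem core_ne (h : PrimPair p L M) : pCoreOf p L ≠ pCoreOf p M := fun e =>
  h.core_ne_bot (h.eq_bot (pCoreOf_le _) h.le₁ (self_le_normalizer_pCoreOf _)
    (e ▸ self_le_normalizer_pCoreOf _))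

end PrimPair

/-- Walks of given length along a relation. -/
inductive RWalk {α : Type*} (r : α → α → Prop) : ℕ → α → α → Prop
  | nil (a : α) : RWalk r 0 a a
  | cons {n : ℕ} {a b c : α} : r a b → RWalk r n b c → RWalk r (n + 1) a c

theorem RWalk.snoc {α : Type*} {r : α → α → Prop} {n : ℕ} {a b c : α} (h : RWalk r n a b)
    (h' : r b c) : RWalk r (n + 1) a c := by
  induction h with
  | nil a => exact .cons h' (.nil c)
  | cons h1 _ ih => exact .cons h1 (ih h')

theorem RWalk.reverse {α : Type*} {r : α → α → Prop} (hs : ∀ a b, r a b → r b a) {n : ℕ}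
    {a b : α} (h : RWalk r n a b) : RWalk r n b a := by
  induction h with
  | nil a => exact .nil a
  | cons h1 _ ih => exact ih.snoc (hs _ _ h1)

theorem RWalk.uncons {α : Type*} {r : α → α → Prop} {n : ℕ} {a c : α}
    (h : RWalk r (n + 1) a c) : ∃ b, r a b ∧ RWalk r n b c := by
  cases h with
  | cons h1 h2 => exact ⟨_, h1, h2⟩

theorem RWalk.eq_of_zero {α : Type*} {r : α → α → Prop} {a c : α} (h : RWalk r 0 a c) :
    a = c := by
  cases h; rfl

theorem RWalk.map {α : Type*} {r : α → α → Prop} (f : α → α) (hf : ∀ a b, r a b → r (f a) (f b))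
    {n : ℕ} {a b : α} (h : RWalk r n a b) : RWalk r n (f a) (f b) := by
  induction h with
  | nil a => exact .nil _
  | cons h1 _ ih => exact .cons (hf _ _ h1) ih

section Stable
variable [Finite G] [Fact p.Prime]

/-- Adjacency: a primitive pair of `p`-stable subgroups. -/
def SAdj (p : ℕ) (L M : Subgroup G) : Prop := PrimPair p L M ∧ QStab p L ∧ QStab p M

omit [Finite G] [Fact p.Prime] in
theorem SAdj.symm {L M : Subgroup G} (h : SAdj p L M) : SAdj p M L := ⟨h.1.symm, h.2.2, h.2.1⟩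

theorem SAdj.cj {L M : Subgroup G} (h : SAdj p L M) (g : G) : SAdj p (cj g L) (cj g M) :=
  ⟨h.1.cj g, h.2.1.cj g, h.2.2.cj g⟩

/-- An abelian normal subgroup of one member lies in `O_p` of the other. -/
theorem SAdj.le_core {L M X : Subgroup G} (h : SAdj p L M) (hX : X ≤ M)
    (hn : L ≤ normalizer (X : Set G)) (hc : X ≤ centralizer (X : Set G)) : X ≤ pCoreOf p M := by
  obtain ⟨D, a, b, c, d⟩ := h.2.2 _ X (pCoreOf_le M) (self_le_normalizer_pCoreOf M)
    (isPGroup_pCoreOf M) hX (by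
      rw [commutator_eq_bot_iff_le_centralizer]
      exact (commutator_le_right' (h.1.le₂.trans hn)).trans hc)
  exact a.trans (le_pCoreOf (h.1.char₂.isPGroup_of_res_le b d) b c)

theorem SAdj.Y_le {L M : Subgroup G} (h : SAdj p L M) :
    largestPReducedOf p L ≤ pCoreOf p M :=
  h.le_core ((pred_Y L).le_pCoreOf.trans h.1.le₁) (pred_Y L).norm
    (H12.ea_le_centralizer (pred_Y L).ea)

/-- The subgroup generated by the groups `Y` of the neighbours. -/
def nbY (p : ℕ) (L : Subgroup G) : Subgroup G :=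
  ⨆ (K : Subgroup G) (_ : SAdj p K L), largestPReducedOf p K

omit [Finite G] [Fact p.Prime] in
theorem le_nbY {K L : Subgroup G} (h : SAdj p K L) : largestPReducedOf p K ≤ nbY p L :=
  le_iSup₂_of_le K h le_rfl

theorem nbY_le_core (L : Subgroup G) : nbY p L ≤ pCoreOf p L := iSup₂_le fun _ h => h.Y_le

theorem le_normalizer_nbY (L : Subgroup G) : L ≤ normalizer (nbY p L : Set G) := fun g hg => by
  refine mem_normalizer_of_cj_le (cj_le_iff.2 (iSup₂_le fun K h => cj_le_iff.1 ?_))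
  have := h.cj g
  rw [cj_eq_self_of_mem hg] at this
  rw [cj_Y]
  exact le_nbY this

theorem nbY_le_centralizer (L : Subgroup G) : nbY p L ≤ centralizer (nbY p L : Set G) := by
  refine iSup₂_le fun K h => le_centralizer_iff.1 (iSup₂_le fun K' h' => ?_)
  have a : largestPReducedOf p K' ≤ K := h'.Y_le.trans h.1.le₂
  have b : largestPReducedOf p K ≤ K' := h.Y_le.trans h'.1.le₂
  obtain ⟨D, c, d, e, f⟩ := h.2.1 _ _ (pred_Y K).le (pred_Y K).norm (pred_Y K).isPGroup a (by
    rw [commutator_eq_bot_iff_le_centralizer]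
    exact (commutator_le_right' (b.trans (pred_Y K').norm)).trans
      (H12.ea_le_centralizer (pred_Y K').ea))
  exact c.trans ((pred_Y K).red D d e f)

theorem Y_ne_bot {L : Subgroup G} (h : CharP p L) (h0 : pCoreOf p L ≠ ⊥) :
    largestPReducedOf p L ≠ ⊥ := by
  obtain ⟨T, hT⟩ := exists_isSyl p L
  intro e
  refine oz_ne_bot hT.isPGroup (fun e' => h0 (eq_bot_iff.2 (e' ▸ hT.pCoreOf_le))) ?_
  exact eq_bot_iff.2 (e ▸ h.oz_le_Y hT)

theorem Y_le_of_walk (n : ℕ) : ∀ {K L : Subgroup G}, RWalk (SAdj p) n K L →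
    largestPReducedOf p K ≤ pCoreOf p L := by
  induction n using Nat.strong_induction_on with
  | _ n ih =>
  intro K L h
  rcases n with _ | _ | n
  · rw [h.eq_of_zero]; exact (pred_Y L).le_pCoreOf
  · obtain ⟨_, h1, h2⟩ := h.uncons
    rw [← h2.eq_of_zero]; exact h1.Y_le
  obtain ⟨L₁, h01, w1⟩ := h.uncons
  obtain ⟨L₂, h12, w2⟩ := w1.uncons
  obtain ⟨L', hL, w'⟩ := (w1.reverse fun _ _ => SAdj.symm).uncons
  have hX : nbY p L₁ ≤ pCoreOf p L' := iSup₂_le fun K' h' =>
    ih (n + 1) (by omega) (.cons h' (w'.reverse fun _ _ => SAdj.symm))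
  have hW' : nbY p L ≤ pCoreOf p L₂ := iSup₂_le fun K' h' =>
    ih (n + 1) (by omega) (.cons h' (w2.reverse fun _ _ => SAdj.symm))
  have hW : nbY p L ≤ L₁ := hW'.trans h12.1.le₂
  obtain ⟨D, a, b, c, d⟩ := hL.2.1 _ _ ((nbY_le_core L).trans (pCoreOf_le L))
    (le_normalizer_nbY L) ((isPGroup_pCoreOf L).to_le (nbY_le_core L)) (hX.trans hL.1.le₂) (by
      rw [commutator_eq_bot_iff_le_centralizer]
      exact (commutator_le_right' (hW.trans (le_normalizer_nbY L₁))).trans
        (nbY_le_centralizer L₁))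
  set E : Subgroup G := nbY p L₁ ⊔ (D ⊓ centralizer (nbY p L : Set G)) with hE
  have hEL : SubN E L := (subN_of_res_le (p := p)
    ((le_inf (res_le D) d).trans le_sup_right) (sup_le a inf_le_left)).trans (SubN.of_normal b c)
  have hEL' : E ≤ L' := by
    refine sup_le (hX.trans (pCoreOf_le _)) (le_trans ?_ (hL.1.prim₂ _
      (Y_ne_bot hL.1.char₂ hL.1.symm.core_ne_bot) (hL.symm.Y_le.trans (pCoreOf_le _))
      (pred_Y L').le (pred_Y L').norm))
    exact inf_le_inf b ((centralizer_anti (le_nbY hL.symm)).trans (centralizer_le_normalizer _))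
  have hF : SubN (pCoreOf p L' ⊓ E) L := (SubN.of_normal inf_le_right
    (le_normalizer_inf (le_normalizer_pCoreOf_of_le hEL') le_normalizer)).trans hEL
  exact (le_nbY h01).trans ((le_inf hX le_sup_left).trans
    (hF.le_pCoreOf ((isPGroup_pCoreOf L').to_le inf_le_left)))

/-- There is no primitive pair of characteristic `p` with both members `p`-stable. -/
theorem not_sAdj {L M : Subgroup G} : ¬ SAdj p L M := by
  intro h
  let U : Subgroup G → Subgroup G := fun L =>
    ⨆ (K : Subgroup G) (_ : ∃ n, RWalk (SAdj p) n K L), largestPReducedOf p K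
  have hle : ∀ L, U L ≤ L := fun L =>
    iSup₂_le fun K ⟨n, w⟩ => (Y_le_of_walk n w).trans (pCoreOf_le L)
  have hn : ∀ L, L ≤ normalizer (U L : Set G) := fun L g hg => by
    refine mem_normalizer_of_cj_le (cj_le_iff.2 (iSup₂_le fun K ⟨n, w⟩ => cj_le_iff.1 ?_))
    have := w.map (cj g) fun _ _ h => h.cj g
    rw [cj_eq_self_of_mem hg] at this
    rw [cj_Y]
    exact le_iSup₂_of_le (f := fun (K : Subgroup G) (_ : ∃ n, RWalk (SAdj p) n K L) =>
      largestPReducedOf p K) _ ⟨n, this⟩ le_rfl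
  have hmono : ∀ L M, SAdj p L M → U L ≤ U M := fun L M h =>
    iSup₂_le fun K ⟨n, w⟩ => le_iSup₂_of_le (f := fun (K : Subgroup G)
      (_ : ∃ n, RWalk (SAdj p) n K M) => largestPReducedOf p K) K ⟨n + 1, w.snoc h⟩ le_rfl
  have e : U L = U M := le_antisymm (hmono _ _ h) (hmono _ _ h.symm)
  have := h.1.eq_bot (hle L) (e ▸ hle M) (hn L) (e ▸ hn M)
  refine Y_ne_bot h.1.char₁ h.1.core_ne_bot (eq_bot_iff.2 (this ▸ ?_))
  exact le_iSup₂_of_le (f := fun (K : Subgroup G) (_ : ∃ n, RWalk (SAdj p) n K L) =>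
    largestPReducedOf p K) L ⟨0, .nil L⟩ le_rfl

end Stable

end H20
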