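import Cfsg.Agent.H20.Prim
import Cfsg.Agent.H98.PReduced

/-! Row S3756 from the triple factorization theorem (row S2753). -/

set_option autoImplicit false

namespace H20
open Cfsg Subgroup H98

universe u

/-- The text of row S2753. -/
def TripleFact : Prop :=
  ∀ {G : Type u} [Group G] [Finite G] (_ : Subgroup.centralizer (Cfsg.pCore 2 G : Set G) ≤ Cfsg.pCore 2 G) (_ : ¬ Cfsg.Involves (Equiv.Perm (Fin 4)) G) (_ : Cfsg.IsCompositionKGroupWith Cfsg.IsSuzukiOrPSL2OddPowerThree G) (S : Sylow 2 G), (∀ g : G, ∃ c ∈ Subgroup.centralizer ((((S : Subgroup G) ⊓ Subgroup.centralizer ((S : Subgroup G) : Set G)) : Subgroup G) : Set G), ∃ n ∈ Subgroup.normalizer (((Cfsg.thompsonSubgroupOf 2 (S : Subgroup G)) : Subgroup G) : Set G), g = c * n) ∧ (∀ g : G, ∃ c ∈ Subgroup.centralizer ((((S : Subgroup G) ⊓ Subgroup.centralizer ((S : Subgroup G) : Set G)) : Subgroup G) : Set G), ∃ n ∈ Subgroup.normalizer ((((Cfsg.jHat ↥(S : Subgroup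 G)).map (S : Subgroup G).subtype) : Subgroup G) : Set G), g = c * n) ∧ (∀ g : G, ∃ c ∈ Subgroup.centralizer ((Cfsg.omegaOne 2 (((Cfsg.jHat ↥(S : Subgroup G)).map (S : Subgroup G).subtype) ⊓ Subgroup.centralizer (((Cfsg.jHat ↥(S : Subgroup G)).map (S : Subgroup G).subtype) : Set G))) : Set G), ∃ n ∈ Subgroup.normalizer (((Cfsg.thompsonSubgroupOf 2 (S : Subgroup G)) : Subgroup G) : Set G), g = c * n)

theorem isCompositionKGroupWith_of_solvable (K : ∀ (X : Type u) [Group X], Prop) (G : Type u)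
    [Group G] (h : Group.IsSolvable G) : IsCompositionKGroupWith K G := by
  intro H _ N _ hs hc
  exact absurd ⟨⟨IsSimpleGroup.comm_iff_isSolvable.2 inferInstance⟩⟩ hc

variable {G : Type u} [Group G] [Finite G]

/-- The triple factorization for a subgroup of the ambient group. -/
theorem TripleFact.amb (hTF : TripleFact.{u}) {L T : Subgroup G} (hs : Group.IsSolvable L)
    (hc : IsOfCharacteristicTwo L) (hf : ¬ Involves (Equiv.Perm (Fin 4)) L) (hT : IsSyl 2 T L) :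
    (∀ g ∈ L, ∃ c ∈ centralizer ((T ⊓ centralizer (T : Set G) : Subgroup G) : Set G),
      ∃ n ∈ normalizer (thompsonSubgroupOf 2 T : Set G), g = c * n) ∧
    (∀ g ∈ L, ∃ c ∈ centralizer ((T ⊓ centralizer (T : Set G) : Subgroup G) : Set G),
      ∃ n ∈ normalizer (jh T : Set G), g = c * n) ∧
    (∀ g ∈ L, ∃ c ∈ centralizer (oz 2 (jh T) : Set G),
      ∃ n ∈ normalizer (thompsonSubgroupOf 2 T : Set G), g = c * n) := by
  obtain ⟨S, rfl⟩ := hT.exists_sylow_map
  obtain ⟨h1, h2, h3⟩ := hTF hc hf (isCompositionKGroupWith_of_solvable _ _ hs) S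
  have hi := L.subtype_injective
  have hC : ∀ (A : Subgroup L) (c : L), c ∈ centralizer (A : Set L) →
      (c : G) ∈ centralizer (A.map L.subtype : Set G) := fun A c h =>
    map_le_centralizer_map L.subtype (le_refl (centralizer (A : Set L))) ⟨c, h, rfl⟩
  have hN : ∀ (A : Subgroup L) (c : L), c ∈ normalizer (A : Set L) →
      (c : G) ∈ normalizer (A.map L.subtype : Set G) := fun A c h =>
    map_le_normalizer_map L.subtype (le_refl (normalizer (A : Set L))) ⟨c, h, rfl⟩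
  rw [← map_inf_centralizer hi, ← H12.map_thompsonSubgroupOf _ _ hi, ← map_jh hi, ← map_oz hi]
  refine ⟨fun g hg => ?_, fun g hg => ?_, fun g hg => ?_⟩
  · obtain ⟨c, hc, n, hn, e⟩ := h1 ⟨g, hg⟩
    exact ⟨c, hC _ c hc, n, hN _ n hn, congrArg Subtype.val e⟩
  · obtain ⟨c, hc, n, hn, e⟩ := h2 ⟨g, hg⟩
    exact ⟨c, hC _ c hc, n, hN _ n hn, congrArg Subtype.val e⟩
  · obtain ⟨c, hc, n, hn, e⟩ := h3 ⟨g, hg⟩
    exact ⟨c, hC _ c hc, n, hN _ n hn, congrArg Subtype.val e⟩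

/-- With a Sylow `2`-subgroup `T` of `G`: all `2`-local subgroups containing `T` normalize one
nontrivial `2`-subgroup. -/
theorem TripleFact.exists_normal (hTF : TripleFact.{u})
    (hloc : ∀ M : Subgroup G, IsTwoLocal M → Group.IsSolvable M ∧ IsOfCharacteristicTwo ↥M ∧
      ¬ Involves (Equiv.Perm (Fin 4)) ↥M) {T : Subgroup G} (hT : IsSyl 2 T ⊤) (h0 : T ≠ ⊥) :
    ∃ A : Subgroup G, IsPGroup 2 A ∧ A ≠ ⊥ ∧
      ∀ L, IsTwoLocal L → T ≤ L → L ≤ normalizer (A : Set G) := by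
  have hTp := hT.isPGroup
  have amb : ∀ L, IsTwoLocal L → T ≤ L → _ := fun L hL hTL =>
    hTF.amb (hloc L hL).1 (hloc L hL).2.1 (hloc L hL).2.2 (hT.of_le hTL le_top)
  set Z : Subgroup G := T ⊓ centralizer (T : Set G) with hZ
  set J : Subgroup G := thompsonSubgroupOf 2 T with hJ
  have hd : 2 ∣ Nat.card T := by
    by_contra h
    exact h0 ((isSyl_self hTp).eq_bot_iff.2 h)
  have hJ0 : J ≠ ⊥ := H12.thompsonSubgroupOf_ne_bot hd
  have hJT : J ≤ T := H12.thompsonSubgroupOf_le T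
  have hH0 : jh T ≠ ⊥ := fun h => hJ0 (eq_bot_iff.2 (h ▸ thompson_le_jh T))
  have hHp : IsPGroup 2 (jh T) := hTp.to_le (jh_le T)
  have hZ0 : Z ≠ ⊥ := inf_centralizer_ne_bot hTp hTp le_normalizer h0
  have f1 := (amb _ ⟨_, isPGroup_oz (jh T), oz_ne_bot hHp hH0, rfl⟩
    (le_normalizer_oz (le_normalizer.trans (normalizer_le_normalizer_jh T)))).1
  have f2 := (amb _ ⟨J, hTp.to_le hJT, hJ0, rfl⟩
    (le_normalizer.trans (H12.normalizer_le_normalizer_thompsonSubgroupOf T))).2.1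
  have f3 := (amb _ ⟨Z, hTp.to_le inf_le_left, hZ0, rfl⟩
    (le_normalizer_inf le_normalizer (le_normalizer_centralizer le_normalizer))).2.2
  have hozJ : oz 2 T ≤ J := (H12.omegaOne_center_le_centerThompsonOf T).trans inf_le_left
  have hozZ : oz 2 T ≤ Z := le_inf (oz_le T) (oz_le_centralizer T)
  refine ⟨ncl (normalizer (J : Set G)) (oz 2 T), (hTp.to_le hJT).to_le (ncl_le hozJ le_rfl),
    fun h => oz_ne_bot hTp h0 (ncl_eq_bot_iff.1 h), fun L hL hTL g hg => ?_⟩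
  obtain ⟨c, hc, n, hn, rfl⟩ := (amb L hL hTL).1 g hg
  refine mul_mem ?_ (le_normalizer_ncl _ _ hn)
  refine mem_normalizer_of_cj_le (cj_le_iff.2 (ncl_le_iff.2 fun m hm => cj_le_iff.1 ?_))
  rw [cj_cj]
  obtain ⟨d, hd, n', hn', e3⟩ := f3 c (centralizer_le_normalizer _ hc)
  obtain ⟨c', hc', j, hj, e2⟩ := f2 _ (inv_mem (mul_mem hn' hm))
  obtain ⟨c'', hc'', n'', hn'', e1⟩ := f1 _ (inv_mem (mul_mem (centralizer_le_normalizer _ hd)
    (inv_mem (le_normalizer_oz le_rfl hj))))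
  have e : c * m = n''⁻¹ * (c' * c'')⁻¹ := by
    have a : n' * m = (c' * j)⁻¹ := by rw [← e2, inv_inv]
    have b : d * j⁻¹ = (c'' * n'')⁻¹ := by rw [← e1, inv_inv]
    rw [e3, mul_assoc, a, mul_inv_rev, ← mul_assoc, b]; group
  rw [e, ← cj_cj, cj_eq_self (centralizer_le_normalizer _
    (centralizer_anti hozZ (inv_mem (mul_mem hc' hc''))))]
  exact cj_le_ncl (inv_mem hn'')

theorem s3756_of_tripleFact (hTF : TripleFact.{u}) (hO : Cfsg.pCore 2 G = ⊥)
    (hloc : ∀ M : Subgroup G, Cfsg.IsTwoLocal M → Group.IsSolvable M ∧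
      Cfsg.IsOfCharacteristicTwo ↥M ∧ ¬ Cfsg.Involves (Equiv.Perm (Fin 4)) ↥M)
    (M : Subgroup G) (hM : Cfsg.IsMaximalTwoLocal M) : Cfsg.IsStronglyEmbedded M := by
  have hM' : IsMaximalPLocal 2 M := hM
  refine ⟨isPLocal_ne_top hM'.1 hO, even_iff_two_dvd.2 (isPLocal_dvd_card hM'.1), fun g hg => ?_⟩
  rw [← Nat.not_even_iff_odd, even_iff_two_dvd]
  intro hd
  obtain ⟨M₁, M₂, T, h₁, h₂, hne, h0, s₁, s₂, hmax⟩ := exists_maxLoc_common_syl hM'
    (maxLoc_cj hM' g) (maxLoc_cj_ne hM' hg).symm hd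
  have hTp := s₁.isPGroup
  obtain ⟨S, hS, hTS⟩ := exists_isSyl_le hTp (le_top (a := T))
  rcases hTS.eq_or_lt with rfl | hlt
  · obtain ⟨A, hA, hA0, hn⟩ := hTF.exists_normal hloc hS h0
    exact hne ((maxLoc_normalizer_eq h₁ hA hA0 (hn _ h₁.1 s₁.le)).symm.trans
      (maxLoc_normalizer_eq h₂ hA hA0 (hn _ h₂.1 s₂.le)))
  · have hlt' := lt_inf_normalizer hS.isPGroup hlt
    obtain ⟨U, hU, hTU⟩ := exists_maxLoc_ge (isPLocal_normalizer hTp h0)
    have key : ∀ A : Subgroup G, A ≤ T → A ≠ ⊥ → normalizer (T : Set G) ≤ normalizer (A : Set G) →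
        normalizer (A : Set G) ≤ U := by
      intro A hA hA0 hn
      obtain ⟨V, hV, hAV⟩ := exists_maxLoc_ge (isPLocal_normalizer (hTp.to_le hA) hA0)
      rw [hmax U V _ hU hV (hS.isPGroup.to_le inf_le_left) (inf_le_right.trans hTU)
        (inf_le_right.trans (hn.trans hAV)) (not_le.1 fun h => hlt'.ne (eq_of_le_of_card_ge hlt'.le h))]
      exact hAV
    have hd : 2 ∣ Nat.card T := by
      by_contra h
      exact h0 ((isSyl_self hTp).eq_bot_iff.2 h)
    have k1 := key _ (H12.thompsonSubgroupOf_le (p := 2) T) (H12.thompsonSubgroupOf_ne_bot hd)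
      (H12.normalizer_le_normalizer_thompsonSubgroupOf T)
    have k2 := key (T ⊓ centralizer (T : Set G)) inf_le_left
      (inf_centralizer_ne_bot hTp hTp le_normalizer h0)
      (le_normalizer_inf le_rfl (normalizer_le_normalizer_centralizer T))
    have k3 : ∀ L, IsMaximalPLocal 2 L → IsSyl 2 T L → U = L := by
      intro L hL s
      refine hL.2 U hU.1 fun x hx => ?_
      obtain ⟨c, hc, n, hn, rfl⟩ :=
        (hTF.amb (hloc L hL.1).1 (hloc L hL.1).2.1 (hloc L hL.1).2.2 s).1 x hx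
      exact mul_mem (k2 (centralizer_le_normalizer _ hc)) (k1 hn)
    exact hne ((k3 _ h₁ s₁).symm.trans (k3 _ h₂ s₂))

end H20
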